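import Mathlib
import Cfsg.Agent.Helper11.ConjChar
import Cfsg.Agent.Helper2.CharExtra
import Cfsg.Agent.Helper25.CharMore

set_option autoImplicit false

namespace Cfsg.Agent.Helper11

open Cfsg

/-- Conjugation by `x` on a normal subgroup, as a map `H → H`. -/
def conjMap {M : Type*} [Group M] (H : Subgroup M) [hN : H.Normal] (x : M) : H → H :=
  fun h => ⟨x * h * x⁻¹, hN.conj_mem h h.2 x⟩

theorem conjMap_coe {M : Type*} [Group M] (H : Subgroup M) [H.Normal] (x : M) (h : H) :
    ((conjMap H x h : H) : M) = x * h * x⁻¹ := rfl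

theorem conjMap_one {M : Type*} [Group M] (H : Subgroup M) [H.Normal] (x : M) :
    conjMap H x 1 = 1 := by
  apply Subtype.ext
  simp [conjMap]

theorem conjMap_isConj {M : Type*} [Group M] (H : Subgroup M) [H.Normal] (x : M) (g h : H)
    (hgh : IsConj g h) : IsConj (conjMap H x g) (conjMap H x h) := by
  obtain ⟨c, hc⟩ := isConj_iff.mp hgh
  refine isConj_iff.mpr ⟨conjMap H x c, ?_⟩
  apply Subtype.ext
  have := congrArg Subtype.val hc
  simp only [Subgroup.coe_mul, Subgroup.coe_inv, conjMap] at this ⊢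
  rw [← this]
  group

theorem irr_conjMap {M : Type*} [Group M] (H : Subgroup M) [H.Normal] (x : M)
    {θ : H → ℂ} (hθ : IsIrrCharacter H θ) : IsIrrCharacter H (fun h => θ (conjMap H x h)) :=
  isIrrCharacter_comp_mulEquiv (MulAut.conjNormal x : H ≃* H) hθ

/-- Brauer's permutation lemma for conjugation by `x` on a normal subgroup `H`. -/
theorem brauer_conj {M : Type*} [Group M] (H : Subgroup M) [H.Normal] [Fintype H] (x : M) :
    Nat.card {χ : IrrCharacter H // (fun h => (χ : H → ℂ) (conjMap H x h)) = (χ : H → ℂ)} =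
      Nat.card {C : ConjClasses H //
        IsConj (conjMap H x (Quotient.out C)) (Quotient.out C)} := by
  have h := Cfsg.Agent.Helper2.brauer_count (G := H) (conjMap H x)
    (fun χ => ⟨fun h => (χ : H → ℂ) (conjMap H x h), irr_conjMap H x χ.2⟩)
    (fun χ g => rfl) (conjMap_isConj H x)
  rw [← h]
  apply Nat.card_congr
  exact Equiv.subtypeEquivRight (fun χ => ⟨fun h => Subtype.ext h, fun h => congrArg Subtype.val h⟩)

/-- If conjugation by `x` fixes no nontrivial class of `H`, it fixes only the trivial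
irreducible character. -/
theorem eq_one_of_conj_fixed {M : Type*} [Group M] [Finite M] (H : Subgroup M) [H.Normal]
    (x : M) (hx : ∀ c : H, c ≠ 1 → ¬ IsConj (conjMap H x c) c) (φ : IrrCharacter H)
    (hφ : (fun h => (φ : H → ℂ) (conjMap H x h)) = (φ : H → ℂ)) :
    (φ : H → ℂ) = fun _ => 1 := by
  classical
  have : Fintype H := Fintype.ofFinite H
  have hcount := brauer_conj H x
  have hsub : Subsingleton {C : ConjClasses H //
      IsConj (conjMap H x (Quotient.out C)) (Quotient.out C)} := by
    constructor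
    intro C₁ C₂
    have h1 : Quotient.out C₁.1 = 1 := by
      by_contra hne
      exact hx _ hne C₁.2
    have h2 : Quotient.out C₂.1 = 1 := by
      by_contra hne
      exact hx _ hne C₂.2
    apply Subtype.ext
    rw [← Quotient.out_eq C₁.1, ← Quotient.out_eq C₂.1, h1, h2]
  have hle : Nat.card {χ : IrrCharacter H //
      (fun h => (χ : H → ℂ) (conjMap H x h)) = (χ : H → ℂ)} ≤ 1 := by
    rw [hcount]
    exact Finite.card_le_one_iff_subsingleton.mpr hsub
  have hsub2 := Finite.card_le_one_iff_subsingleton.mp hle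
  have heq := hsub2.elim ⟨φ, hφ⟩ ⟨Cfsg.Agent.Helper25.trivChar H, rfl⟩
  have := congrArg (fun t : {χ : IrrCharacter H //
      (fun h => (χ : H → ℂ) (conjMap H x h)) = (χ : H → ℂ)} => (t.1 : H → ℂ)) heq
  exact this

end Cfsg.Agent.Helper11
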