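import Mathlib

set_option autoImplicit false

namespace Cfsg.Agent.Helper11

/-- decoding of a three-valued code -/
def dv3 : Fin 3 → ℤ
  | 0 => 0
  | 1 => 1
  | 2 => -1

theorem exists_dv3 {a : ℤ} (h : a = 0 ∨ a = 1 ∨ a = -1) : ∃ k : Fin 3, a = dv3 k := by
  rcases h with h | h | h
  · exact ⟨0, h⟩
  · exact ⟨1, h⟩
  · exact ⟨2, h⟩

/-- dot product of integer lists -/
def ldot (r r' : List ℤ) : ℤ := (List.zipWith (· * ·) r r').sum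

/-- compatibility of two named coefficient rows -/
def lcompat (r r' : List ℤ) : Prop :=
  (∀ p ∈ List.zipWith (· * ·) r r', (0 : ℤ) ≤ p) ∧ ldot r r' ≤ 1 ∧
    (ldot r r = 3 → ldot r r' = 1) ∧ (ldot r' r' = 3 → ldot r r' = 1)

instance (r r' : List ℤ) : Decidable (lcompat r r') := by
  unfold lcompat; infer_instance

def optsA : List (List ℤ) :=
  [[0, 1, 0, 0, -1, 0, 0], [0, 0, 1, 0, 0, -1, 0], [0, 0, 0, 1, 0, 0, -1]]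

def optsB1 : List (List ℤ) :=
  [[0, 0, 0, 0, 1, 0, 0], [0, 1, -1, 0, 0, 1, 0], [0, 1, 0, -1, 0, 0, 1], [1, 0, 0, 0, 0, -1, -1]]

def optsB2 : List (List ℤ) :=
  [[0, 0, 0, 0, 0, 1, 0], [0, -1, 1, 0, 1, 0, 0], [0, 0, 1, -1, 0, 0, 1], [1, 0, 0, 0, -1, 0, -1]]

def optsB3 : List (List ℤ) :=
  [[0, 0, 0, 0, 0, 0, 1], [0, -1, 0, 1, 1, 0, 0], [0, 0, -1, 1, 0, 1, 0], [1, 0, 0, 0, -1, -1, 0]]

set_option maxRecDepth 100000 in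
theorem rowA_code : ∀ a0 a1 a2 a3 a4 a5 a6 : Fin 3,
    dv3 a1 + dv3 a2 + dv3 a3 = 1 → dv3 a0 + dv3 a1 + dv3 a4 = 0 → dv3 a0 + dv3 a2 + dv3 a5 = 0 →
    dv3 a0 + dv3 a3 + dv3 a6 = 0 →
    dv3 a0 * dv3 a0 + dv3 a1 * dv3 a1 + dv3 a2 * dv3 a2 + dv3 a3 * dv3 a3 + dv3 a4 * dv3 a4 +
      dv3 a5 * dv3 a5 + dv3 a6 * dv3 a6 ≤ 3 →
    0 ≤ dv3 a1 → 0 ≤ dv3 a2 → 0 ≤ dv3 a3 →
    [dv3 a0, dv3 a1, dv3 a2, dv3 a3, dv3 a4, dv3 a5, dv3 a6] ∈ optsA := by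
  decide

set_option maxRecDepth 100000 in
theorem rowB1_code : ∀ a0 a1 a2 a3 a4 a5 a6 : Fin 3,
    dv3 a1 + dv3 a2 + dv3 a3 = 0 → dv3 a0 + dv3 a1 + dv3 a4 = 1 → dv3 a0 + dv3 a2 + dv3 a5 = 0 →
    dv3 a0 + dv3 a3 + dv3 a6 = 0 →
    dv3 a0 * dv3 a0 + dv3 a1 * dv3 a1 + dv3 a2 * dv3 a2 + dv3 a3 * dv3 a3 + dv3 a4 * dv3 a4 +
      dv3 a5 * dv3 a5 + dv3 a6 * dv3 a6 ≤ 3 →
    0 ≤ dv3 a0 → 0 ≤ dv3 a1 → 0 ≤ dv3 a4 →
    [dv3 a0, dv3 a1, dv3 a2, dv3 a3, dv3 a4, dv3 a5, dv3 a6] ∈ optsB1 := by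
  decide

set_option maxRecDepth 100000 in
theorem rowB2_code : ∀ a0 a1 a2 a3 a4 a5 a6 : Fin 3,
    dv3 a1 + dv3 a2 + dv3 a3 = 0 → dv3 a0 + dv3 a1 + dv3 a4 = 0 → dv3 a0 + dv3 a2 + dv3 a5 = 1 →
    dv3 a0 + dv3 a3 + dv3 a6 = 0 →
    dv3 a0 * dv3 a0 + dv3 a1 * dv3 a1 + dv3 a2 * dv3 a2 + dv3 a3 * dv3 a3 + dv3 a4 * dv3 a4 +
      dv3 a5 * dv3 a5 + dv3 a6 * dv3 a6 ≤ 3 →
    0 ≤ dv3 a0 → 0 ≤ dv3 a2 → 0 ≤ dv3 a5 →
    [dv3 a0, dv3 a1, dv3 a2, dv3 a3, dv3 a4, dv3 a5, dv3 a6] ∈ optsB2 := by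
  decide

set_option maxRecDepth 100000 in
theorem rowB3_code : ∀ a0 a1 a2 a3 a4 a5 a6 : Fin 3,
    dv3 a1 + dv3 a2 + dv3 a3 = 0 → dv3 a0 + dv3 a1 + dv3 a4 = 0 → dv3 a0 + dv3 a2 + dv3 a5 = 0 →
    dv3 a0 + dv3 a3 + dv3 a6 = 1 →
    dv3 a0 * dv3 a0 + dv3 a1 * dv3 a1 + dv3 a2 * dv3 a2 + dv3 a3 * dv3 a3 + dv3 a4 * dv3 a4 +
      dv3 a5 * dv3 a5 + dv3 a6 * dv3 a6 ≤ 3 →
    0 ≤ dv3 a0 → 0 ≤ dv3 a3 → 0 ≤ dv3 a6 →
    [dv3 a0, dv3 a1, dv3 a2, dv3 a3, dv3 a4, dv3 a5, dv3 a6] ∈ optsB3 := by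
  decide

set_option maxRecDepth 100000 in
theorem caseII_combine : ∀ r0 ∈ optsA, ∀ r1 ∈ optsB1, ∀ r2 ∈ optsB2, ∀ r3 ∈ optsB3,
    ¬ (lcompat r0 r1 ∧ lcompat r0 r2 ∧ lcompat r0 r3 ∧ lcompat r1 r2 ∧ lcompat r1 r3 ∧
      lcompat r2 r3) := by
  decide

theorem rowA_int (a0 a1 a2 a3 a4 a5 a6 : ℤ)
    (h0 : a0 = 0 ∨ a0 = 1 ∨ a0 = -1) (h1 : a1 = 0 ∨ a1 = 1 ∨ a1 = -1)
    (h2 : a2 = 0 ∨ a2 = 1 ∨ a2 = -1) (h3 : a3 = 0 ∨ a3 = 1 ∨ a3 = -1)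
    (h4 : a4 = 0 ∨ a4 = 1 ∨ a4 = -1) (h5 : a5 = 0 ∨ a5 = 1 ∨ a5 = -1)
    (h6 : a6 = 0 ∨ a6 = 1 ∨ a6 = -1)
    (e1 : a1 + a2 + a3 = 1) (e2 : a0 + a1 + a4 = 0) (e3 : a0 + a2 + a5 = 0)
    (e4 : a0 + a3 + a6 = 0)
    (hn : a0 * a0 + a1 * a1 + a2 * a2 + a3 * a3 + a4 * a4 + a5 * a5 + a6 * a6 ≤ 3)
    (p1 : 0 ≤ a1) (p2 : 0 ≤ a2) (p3 : 0 ≤ a3) :
    [a0, a1, a2, a3, a4, a5, a6] ∈ optsA := by
  obtain ⟨k0, rfl⟩ := exists_dv3 h0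
  obtain ⟨k1, rfl⟩ := exists_dv3 h1
  obtain ⟨k2, rfl⟩ := exists_dv3 h2
  obtain ⟨k3, rfl⟩ := exists_dv3 h3
  obtain ⟨k4, rfl⟩ := exists_dv3 h4
  obtain ⟨k5, rfl⟩ := exists_dv3 h5
  obtain ⟨k6, rfl⟩ := exists_dv3 h6
  exact rowA_code k0 k1 k2 k3 k4 k5 k6 e1 e2 e3 e4 hn p1 p2 p3

theorem rowB1_int (a0 a1 a2 a3 a4 a5 a6 : ℤ)
    (h0 : a0 = 0 ∨ a0 = 1 ∨ a0 = -1) (h1 : a1 = 0 ∨ a1 = 1 ∨ a1 = -1)
    (h2 : a2 = 0 ∨ a2 = 1 ∨ a2 = -1) (h3 : a3 = 0 ∨ a3 = 1 ∨ a3 = -1)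
    (h4 : a4 = 0 ∨ a4 = 1 ∨ a4 = -1) (h5 : a5 = 0 ∨ a5 = 1 ∨ a5 = -1)
    (h6 : a6 = 0 ∨ a6 = 1 ∨ a6 = -1)
    (e1 : a1 + a2 + a3 = 0) (e2 : a0 + a1 + a4 = 1) (e3 : a0 + a2 + a5 = 0)
    (e4 : a0 + a3 + a6 = 0)
    (hn : a0 * a0 + a1 * a1 + a2 * a2 + a3 * a3 + a4 * a4 + a5 * a5 + a6 * a6 ≤ 3)
    (p1 : 0 ≤ a0) (p2 : 0 ≤ a1) (p3 : 0 ≤ a4) :
    [a0, a1, a2, a3, a4, a5, a6] ∈ optsB1 := by
  obtain ⟨k0, rfl⟩ := exists_dv3 h0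
  obtain ⟨k1, rfl⟩ := exists_dv3 h1
  obtain ⟨k2, rfl⟩ := exists_dv3 h2
  obtain ⟨k3, rfl⟩ := exists_dv3 h3
  obtain ⟨k4, rfl⟩ := exists_dv3 h4
  obtain ⟨k5, rfl⟩ := exists_dv3 h5
  obtain ⟨k6, rfl⟩ := exists_dv3 h6
  exact rowB1_code k0 k1 k2 k3 k4 k5 k6 e1 e2 e3 e4 hn p1 p2 p3

theorem rowB2_int (a0 a1 a2 a3 a4 a5 a6 : ℤ)
    (h0 : a0 = 0 ∨ a0 = 1 ∨ a0 = -1) (h1 : a1 = 0 ∨ a1 = 1 ∨ a1 = -1)
    (h2 : a2 = 0 ∨ a2 = 1 ∨ a2 = -1) (h3 : a3 = 0 ∨ a3 = 1 ∨ a3 = -1)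
    (h4 : a4 = 0 ∨ a4 = 1 ∨ a4 = -1) (h5 : a5 = 0 ∨ a5 = 1 ∨ a5 = -1)
    (h6 : a6 = 0 ∨ a6 = 1 ∨ a6 = -1)
    (e1 : a1 + a2 + a3 = 0) (e2 : a0 + a1 + a4 = 0) (e3 : a0 + a2 + a5 = 1)
    (e4 : a0 + a3 + a6 = 0)
    (hn : a0 * a0 + a1 * a1 + a2 * a2 + a3 * a3 + a4 * a4 + a5 * a5 + a6 * a6 ≤ 3)
    (p1 : 0 ≤ a0) (p2 : 0 ≤ a2) (p3 : 0 ≤ a5) :
    [a0, a1, a2, a3, a4, a5, a6] ∈ optsB2 := by
  obtain ⟨k0, rfl⟩ := exists_dv3 h0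
  obtain ⟨k1, rfl⟩ := exists_dv3 h1
  obtain ⟨k2, rfl⟩ := exists_dv3 h2
  obtain ⟨k3, rfl⟩ := exists_dv3 h3
  obtain ⟨k4, rfl⟩ := exists_dv3 h4
  obtain ⟨k5, rfl⟩ := exists_dv3 h5
  obtain ⟨k6, rfl⟩ := exists_dv3 h6
  exact rowB2_code k0 k1 k2 k3 k4 k5 k6 e1 e2 e3 e4 hn p1 p2 p3

theorem rowB3_int (a0 a1 a2 a3 a4 a5 a6 : ℤ)
    (h0 : a0 = 0 ∨ a0 = 1 ∨ a0 = -1) (h1 : a1 = 0 ∨ a1 = 1 ∨ a1 = -1)
    (h2 : a2 = 0 ∨ a2 = 1 ∨ a2 = -1) (h3 : a3 = 0 ∨ a3 = 1 ∨ a3 = -1)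
    (h4 : a4 = 0 ∨ a4 = 1 ∨ a4 = -1) (h5 : a5 = 0 ∨ a5 = 1 ∨ a5 = -1)
    (h6 : a6 = 0 ∨ a6 = 1 ∨ a6 = -1)
    (e1 : a1 + a2 + a3 = 0) (e2 : a0 + a1 + a4 = 0) (e3 : a0 + a2 + a5 = 0)
    (e4 : a0 + a3 + a6 = 1)
    (hn : a0 * a0 + a1 * a1 + a2 * a2 + a3 * a3 + a4 * a4 + a5 * a5 + a6 * a6 ≤ 3)
    (p1 : 0 ≤ a0) (p2 : 0 ≤ a3) (p3 : 0 ≤ a6) :
    [a0, a1, a2, a3, a4, a5, a6] ∈ optsB3 := by
  obtain ⟨k0, rfl⟩ := exists_dv3 h0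
  obtain ⟨k1, rfl⟩ := exists_dv3 h1
  obtain ⟨k2, rfl⟩ := exists_dv3 h2
  obtain ⟨k3, rfl⟩ := exists_dv3 h3
  obtain ⟨k4, rfl⟩ := exists_dv3 h4
  obtain ⟨k5, rfl⟩ := exists_dv3 h5
  obtain ⟨k6, rfl⟩ := exists_dv3 h6
  exact rowB3_code k0 k1 k2 k3 k4 k5 k6 e1 e2 e3 e4 hn p1 p2 p3

section

open Finset

variable {X : Type*} [Fintype X]

/-- integer inner product of coefficient vectors -/
def vip (u v : X → ℤ) : ℤ := ∑ χ, u χ * v χ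

theorem vip_comm (u v : X → ℤ) : vip u v = vip v u := by
  unfold vip; exact Finset.sum_congr rfl (fun χ _ => mul_comm _ _)

theorem vrange {v : X → ℤ} (h : vip v v = 3) (χ : X) : v χ = 0 ∨ v χ = 1 ∨ v χ = -1 := by
  have h1 : v χ * v χ ≤ 3 := by
    rw [← h]
    exact Finset.single_le_sum (f := fun χ => v χ * v χ) (fun i _ => mul_self_nonneg (v i))
      (Finset.mem_univ χ)
  have h2 : v χ ≤ 1 := by
    by_contra hc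
    have : 2 ≤ v χ := by omega
    nlinarith
  have h3 : -1 ≤ v χ := by
    by_contra hc
    have : v χ ≤ -2 := by omega
    nlinarith
  omega

theorem vip_sub_sq (u v : X → ℤ) :
    ∑ χ, (u χ - v χ) * (u χ - v χ) = vip u u - 2 * vip u v + vip v v := by
  unfold vip
  rw [Finset.mul_sum, ← Finset.sum_sub_distrib, ← Finset.sum_add_distrib]
  exact Finset.sum_congr rfl (fun χ _ => by ring)

/-- Two norm-3 vectors with inner product 1 have no coordinate with opposite signs, provided a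
third vector separates them. -/
theorem noopp [DecidableEq X] {u v w : X → ℤ} (hu : vip u u = 3) (hv : vip v v = 3)
    (huv : vip u v = 1) (hwu : vip w u = 1) (hwv : vip w v = 0) (χ : X) : 0 ≤ u χ * v χ := by
  by_contra hneg
  have hD2 : u χ - v χ = 2 ∨ u χ - v χ = -2 := by
    rcases vrange hu χ with h | h | h <;> rcases vrange hv χ with h' | h' | h' <;>
      rw [h, h'] at hneg ⊢ <;> first | (exfalso; norm_num at hneg; done) | norm_num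
  have hD : (u χ - v χ) * (u χ - v χ) = 4 := by
    rcases hD2 with h | h <;> rw [h] <;> norm_num
  have hsum := vip_sub_sq u v
  rw [hu, huv, hv] at hsum
  have hsplit := Finset.add_sum_erase univ (fun χ' => (u χ' - v χ') * (u χ' - v χ'))
    (Finset.mem_univ χ)
  have hrest : ∑ χ' ∈ univ.erase χ, (u χ' - v χ') * (u χ' - v χ') = 0 := by
    linarith
  have hzero : ∀ χ' ∈ univ.erase χ, (u χ' - v χ') * (u χ' - v χ') = 0 :=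
    (Finset.sum_eq_zero_iff_of_nonneg (fun i _ => mul_self_nonneg _)).mp hrest
  have hw : vip w u - vip w v = w χ * (u χ - v χ) := by
    unfold vip
    rw [← Finset.sum_sub_distrib]
    rw [Finset.sum_eq_single χ]
    · ring
    · intro χ' _ hne
      have h5 := hzero χ' (Finset.mem_erase.mpr ⟨hne, Finset.mem_univ _⟩)
      have h0 : u χ' - v χ' = 0 := mul_self_eq_zero.mp h5
      have h6 : u χ' = v χ' := by omega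
      rw [h6]; ring
    · intro h; exact absurd (Finset.mem_univ χ) h
  rw [hwu, hwv] at hw
  rcases hD2 with h | h <;> rw [h] at hw <;> omega

/-- Two norm-3 vectors with inner product 1 and no opposite coordinates share exactly one
coordinate. -/
theorem common [DecidableEq X] {u v : X → ℤ} (hu : vip u u = 3) (hv : vip v v = 3)
    (huv : vip u v = 1) (hno : ∀ χ, 0 ≤ u χ * v χ) :
    ∃ χ0, u χ0 * v χ0 = 1 ∧ ∀ χ, χ ≠ χ0 → u χ * v χ = 0 := by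
  have hle : ∀ χ, u χ * v χ ≤ 1 := by
    intro χ
    rcases vrange hu χ with h | h | h <;> rcases vrange hv χ with h' | h' | h' <;>
      rw [h, h'] <;> norm_num
  have hex : ∃ χ0, u χ0 * v χ0 ≠ 0 := by
    by_contra hcon
    push Not at hcon
    have : vip u v = 0 := Finset.sum_eq_zero (fun χ _ => hcon χ)
    omega
  obtain ⟨χ0, h0⟩ := hex
  have h1 : u χ0 * v χ0 = 1 := by
    have := hno χ0
    have := hle χ0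
    omega
  refine ⟨χ0, h1, ?_⟩
  have hsplit := Finset.add_sum_erase univ (fun χ => u χ * v χ) (Finset.mem_univ χ0)
  have hrest : ∑ χ ∈ univ.erase χ0, u χ * v χ = 0 := by
    have h2 : ∑ χ, u χ * v χ = 1 := huv
    linarith
  intro χ hχ
  exact (Finset.sum_eq_zero_iff_of_nonneg (fun i _ => hno i)).mp hrest χ
    (Finset.mem_erase.mpr ⟨hχ, Finset.mem_univ _⟩)

theorem three_supp [DecidableEq X] (v : X → ℤ) (h01 : ∀ χ, v χ = 0 ∨ v χ = 1)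
    (hsum : ∑ χ, v χ = 3) (p q : X) (hpq : p ≠ q) (hp : v p = 1) (hq : v q = 1) :
    ∃ r, r ≠ p ∧ r ≠ q ∧ v r = 1 ∧ ∀ χ, χ ≠ p → χ ≠ q → χ ≠ r → v χ = 0 := by
  have hnn : ∀ χ, 0 ≤ v χ := fun χ => by rcases h01 χ with h | h <;> omega
  have h1 := Finset.add_sum_erase univ v (Finset.mem_univ p)
  have hq' : q ∈ univ.erase p := Finset.mem_erase.mpr ⟨hpq.symm, Finset.mem_univ _⟩
  have h2 := Finset.add_sum_erase (univ.erase p) v hq'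
  have hrest : ∑ χ ∈ (univ.erase p).erase q, v χ = 1 := by linarith
  have hex : ∃ r ∈ (univ.erase p).erase q, v r ≠ 0 := by
    by_contra hcon
    push Not at hcon
    have : ∑ χ ∈ (univ.erase p).erase q, v χ = 0 := Finset.sum_eq_zero hcon
    omega
  obtain ⟨r, hr, hr0⟩ := hex
  have hr1 : v r = 1 := by
    rcases h01 r with h | h
    · exact absurd h hr0
    · exact h
  have h3 := Finset.add_sum_erase ((univ.erase p).erase q) v hr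
  have hrest2 : ∑ χ ∈ ((univ.erase p).erase q).erase r, v χ = 0 := by linarith
  have hr' := Finset.mem_erase.mp hr
  have hr'' := Finset.mem_erase.mp hr'.2
  refine ⟨r, hr''.1, hr'.1, hr1, ?_⟩
  intro χ h1' h2' h3'
  exact (Finset.sum_eq_zero_iff_of_nonneg (fun i _ => hnn i)).mp hrest2 χ
    (Finset.mem_erase.mpr ⟨h3', Finset.mem_erase.mpr ⟨h2', Finset.mem_erase.mpr
      ⟨h1', Finset.mem_univ _⟩⟩⟩)

theorem vip_ind3 [DecidableEq X] (v w : X → ℤ) (p q r : X) (hpq : p ≠ q) (hpr : p ≠ r)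
    (hqr : q ≠ r) (hw : ∀ χ, w χ = if χ = p ∨ χ = q ∨ χ = r then 1 else 0) :
    vip v w = v p + v q + v r := by
  unfold vip
  have key : ∀ χ, v χ * w χ = (if χ = p then v χ else 0) + (if χ = q then v χ else 0) +
      (if χ = r then v χ else 0) := by
    intro χ
    rw [hw χ]
    by_cases h1 : χ = p
    · have h2 : χ ≠ q := fun h => hpq (h1.symm.trans h)
      have h3 : χ ≠ r := fun h => hpr (h1.symm.trans h)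
      simp [h1, hpq, hpr]
    · by_cases h2 : χ = q
      · have h3 : χ ≠ r := fun h => hqr (h2.symm.trans h)
        simp [h2, hqr, Ne.symm hpq]
      · by_cases h3 : χ = r
        · simp [h3, Ne.symm hpr, Ne.symm hqr]
        · simp [h1, h2, h3]
  rw [Finset.sum_congr rfl (fun χ _ => key χ), Finset.sum_add_distrib, Finset.sum_add_distrib,
    Finset.sum_ite_eq', Finset.sum_ite_eq', Finset.sum_ite_eq']
  simp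

theorem list_sum_le_univ [DecidableEq X] (l : List X) (hl : l.Nodup) (F : X → ℤ)
    (hF : ∀ χ, 0 ≤ F χ) : (l.map F).sum ≤ ∑ χ, F χ := by
  rw [← List.sum_toFinset F hl]
  exact Finset.sum_le_sum_of_subset_of_nonneg (Finset.subset_univ _) (fun χ _ _ => hF χ)

theorem list_sum_eq_univ [DecidableEq X] (l : List X) (hl : l.Nodup) (F : X → ℤ)
    (hF : ∀ χ, χ ∉ l → F χ = 0) : (l.map F).sum = ∑ χ, F χ := by
  rw [← List.sum_toFinset F hl]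
  exact Finset.sum_subset (Finset.subset_univ _) (fun χ _ h => hF χ (by simpa using h))

end

end Cfsg.Agent.Helper11
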