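import Mathlib
import Cfsg.Agent.Helper11.CTIa

set_option autoImplicit false

namespace Cfsg.Agent.Helper11

open Finset

variable {X : Type*} [Fintype X] [DecidableEq X]

theorem pos01 {v : X → ℤ} (h : vip v v = 3) (hpos : ∀ χ, 0 ≤ v χ) (χ : X) :
    v χ = 0 ∨ v χ = 1 := by
  rcases vrange h χ with h | h | h
  · exact Or.inl h
  · exact Or.inr h
  · have := hpos χ; omega

theorem possum {v : X → ℤ} (h : vip v v = 3) (hpos : ∀ χ, 0 ≤ v χ) : ∑ χ, v χ = 3 := by
  rw [← h]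
  unfold vip
  apply Finset.sum_congr rfl
  intro χ _
  rcases pos01 h hpos χ with h | h <;> rw [h] <;> norm_num

set_option maxHeartbeats 1600000 in
/-- Case II of the four-row analysis: three rows share a coordinate which the fourth lacks. -/
theorem caseII (b c : Fin 4 → X → ℤ)
    (hbb : ∀ i k, vip (b i) (b k) = if i = k then 3 else 1)
    (hcc : ∀ i k, vip (c i) (c k) = if i = k then 3 else 1)
    (hbc : ∀ i k, vip (b i) (c k) = if i = k then 1 else 0)
    (hpos : ∀ i χ, 0 ≤ b i χ) (x : X) (h0 : b 0 x = 0) (h1 : b 1 x = 1) (h2 : b 2 x = 1)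
    (h3 : b 3 x = 1) : False := by
  have hb3 : ∀ i, vip (b i) (b i) = 3 := fun i => by rw [hbb]; simp
  have hc3 : ∀ i, vip (c i) (c i) = 3 := fun i => by rw [hcc]; simp
  have hb01 : ∀ i χ, b i χ = 0 ∨ b i χ = 1 := fun i χ => pos01 (hb3 i) (hpos i) χ
  have hcr : ∀ t χ, c t χ = 0 ∨ c t χ = 1 ∨ c t χ = -1 := fun t χ => vrange (hc3 t) χ
  have hbsum : ∀ i, ∑ χ, b i χ = 3 := fun i => possum (hb3 i) (hpos i)
  have hbno : ∀ i k χ, 0 ≤ b i χ * b k χ := fun i k χ => mul_nonneg (hpos i χ) (hpos k χ)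
  have hcom : ∀ i k, i ≠ k → ∃ χ0, b i χ0 = 1 ∧ b k χ0 = 1 ∧
      ∀ χ, b i χ = 1 → b k χ = 1 → χ = χ0 := by
    intro i k hik
    obtain ⟨χ0, hχ0, hrest⟩ := common (hb3 i) (hb3 k) (by rw [hbb]; simp [hik]) (hbno i k)
    have ha : b i χ0 = 1 ∧ b k χ0 = 1 := by
      rcases hb01 i χ0 with h | h <;> rcases hb01 k χ0 with h' | h' <;> rw [h, h'] at hχ0 <;>
        first | exact ⟨h, h'⟩ | (exfalso; norm_num at hχ0)
    refine ⟨χ0, ha.1, ha.2, ?_⟩
    intro χ hi hk
    by_contra hne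
    have h5 := hrest χ hne
    rw [hi, hk] at h5
    norm_num at h5
  obtain ⟨e1, he1a, he1b, he1u⟩ := hcom 0 1 (by decide)
  obtain ⟨e2, he2a, he2b, he2u⟩ := hcom 0 2 (by decide)
  obtain ⟨e3, he3a, he3b, he3u⟩ := hcom 0 3 (by decide)
  obtain ⟨x12, -, -, hx12u⟩ := hcom 1 2 (by decide)
  obtain ⟨x13, -, -, hx13u⟩ := hcom 1 3 (by decide)
  obtain ⟨x23, -, -, hx23u⟩ := hcom 2 3 (by decide)
  have hx12 : x = x12 := hx12u x h1 h2
  have hx13 : x = x13 := hx13u x h1 h3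
  have hx23 : x = x23 := hx23u x h2 h3
  rw [← hx12] at hx12u
  rw [← hx13] at hx13u
  rw [← hx23] at hx23u
  -- distinctness
  have hxe1 : x ≠ e1 := by intro h; rw [← h] at he1a; omega
  have hxe2 : x ≠ e2 := by intro h; rw [← h] at he2a; omega
  have hxe3 : x ≠ e3 := by intro h; rw [← h] at he3a; omega
  have he12 : e1 ≠ e2 := by
    intro h
    exact hxe1 (hx12u e1 he1b (by rw [h]; exact he2b)).symm
  have he13 : e1 ≠ e3 := by
    intro h
    exact hxe1 (hx13u e1 he1b (by rw [h]; exact he3b)).symm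
  have he23 : e2 ≠ e3 := by
    intro h
    exact hxe2 (hx23u e2 he2b (by rw [h]; exact he3b)).symm
  obtain ⟨f1, hf1x, hf1e, hf1, hf1rest⟩ := three_supp (b 1) (hb01 1) (hbsum 1) x e1 hxe1 h1 he1b
  obtain ⟨f2, hf2x, hf2e, hf2, hf2rest⟩ := three_supp (b 2) (hb01 2) (hbsum 2) x e2 hxe2 h2 he2b
  obtain ⟨f3, hf3x, hf3e, hf3, hf3rest⟩ := three_supp (b 3) (hb01 3) (hbsum 3) x e3 hxe3 h3 he3b
  obtain ⟨r, hr1, hr2, hr, hrrest⟩ := three_supp (b 0) (hb01 0) (hbsum 0) e1 e2 he12 he1a he2a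
  have hre3 : e3 = r := by
    by_contra hne
    have := hrrest e3 (Ne.symm he13) (Ne.symm he23) hne
    omega
  rw [← hre3] at hrrest
  have he1f2 : e1 ≠ f2 := by
    intro h
    exact he12 (he2u e1 he1a (by rw [h]; exact hf2))
  have he1f3 : e1 ≠ f3 := by
    intro h
    exact he13 (he3u e1 he1a (by rw [h]; exact hf3))
  have he2f1 : e2 ≠ f1 := by
    intro h
    exact he12 (he1u e2 he2a (by rw [h]; exact hf1)).symm
  have he2f3 : e2 ≠ f3 := by
    intro h
    exact he23 (he3u e2 he2a (by rw [h]; exact hf3))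
  have he3f1 : e3 ≠ f1 := by
    intro h
    exact he13 (he1u e3 he3a (by rw [h]; exact hf1)).symm
  have he3f2 : e3 ≠ f2 := by
    intro h
    exact he23 (he2u e3 he3a (by rw [h]; exact hf2)).symm
  have hf12 : f1 ≠ f2 := by
    intro h
    exact hf1x (hx12u f1 hf1 (by rw [h]; exact hf2))
  have hf13 : f1 ≠ f3 := by
    intro h
    exact hf1x (hx13u f1 hf1 (by rw [h]; exact hf3))
  have hf23 : f2 ≠ f3 := by
    intro h
    exact hf2x (hx23u f2 hf2 (by rw [h]; exact hf3))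
  -- indicator formulas
  have hB0 : ∀ χ, b 0 χ = if χ = e1 ∨ χ = e2 ∨ χ = e3 then 1 else 0 := by
    intro χ
    split_ifs with h
    · rcases h with rfl | rfl | rfl
      · exact he1a
      · exact he2a
      · exact he3a
    · push Not at h
      exact hrrest χ h.1 h.2.1 h.2.2
  have hB1 : ∀ χ, b 1 χ = if χ = x ∨ χ = e1 ∨ χ = f1 then 1 else 0 := by
    intro χ
    split_ifs with h
    · rcases h with rfl | rfl | rfl
      · exact h1
      · exact he1b
      · exact hf1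
    · push Not at h
      exact hf1rest χ h.1 h.2.1 h.2.2
  have hB2 : ∀ χ, b 2 χ = if χ = x ∨ χ = e2 ∨ χ = f2 then 1 else 0 := by
    intro χ
    split_ifs with h
    · rcases h with rfl | rfl | rfl
      · exact h2
      · exact he2b
      · exact hf2
    · push Not at h
      exact hf2rest χ h.1 h.2.1 h.2.2
  have hB3 : ∀ χ, b 3 χ = if χ = x ∨ χ = e3 ∨ χ = f3 then 1 else 0 := by
    intro χ
    split_ifs with h
    · rcases h with rfl | rfl | rfl
      · exact h3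
      · exact he3b
      · exact hf3
    · push Not at h
      exact hf3rest χ h.1 h.2.1 h.2.2
  -- linear relations
  have L0 : ∀ t, c t e1 + c t e2 + c t e3 = if (0 : Fin 4) = t then 1 else 0 := by
    intro t
    rw [← vip_ind3 (c t) (b 0) e1 e2 e3 he12 he13 he23 hB0, vip_comm, hbc]
  have L1 : ∀ t, c t x + c t e1 + c t f1 = if (1 : Fin 4) = t then 1 else 0 := by
    intro t
    rw [← vip_ind3 (c t) (b 1) x e1 f1 hxe1 (Ne.symm hf1x) (Ne.symm hf1e) hB1, vip_comm, hbc]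
  have L2 : ∀ t, c t x + c t e2 + c t f2 = if (2 : Fin 4) = t then 1 else 0 := by
    intro t
    rw [← vip_ind3 (c t) (b 2) x e2 f2 hxe2 (Ne.symm hf2x) (Ne.symm hf2e) hB2, vip_comm, hbc]
  have L3 : ∀ t, c t x + c t e3 + c t f3 = if (3 : Fin 4) = t then 1 else 0 := by
    intro t
    rw [← vip_ind3 (c t) (b 3) x e3 f3 hxe3 (Ne.symm hf3x) (Ne.symm hf3e) hB3, vip_comm, hbc]
  -- the list of named elements
  have hl : ([x, e1, e2, e3, f1, f2, f3] : List X).Nodup := by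
    simp only [List.nodup_cons, List.mem_cons, List.not_mem_nil, or_false, not_or, List.nodup_nil,
      and_true, not_false_eq_true]
    exact ⟨⟨hxe1, hxe2, hxe3, Ne.symm hf1x, Ne.symm hf2x, Ne.symm hf3x⟩,
      ⟨he12, he13, Ne.symm hf1e, he1f2, he1f3⟩, ⟨he23, he2f1, Ne.symm hf2e, he2f3⟩,
      ⟨he3f1, he3f2, Ne.symm hf3e⟩, ⟨hf12, hf13⟩, hf23⟩
  have hnorm : ∀ t, c t x * c t x + c t e1 * c t e1 + c t e2 * c t e2 + c t e3 * c t e3 +
      c t f1 * c t f1 + c t f2 * c t f2 + c t f3 * c t f3 ≤ 3 := by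
    intro t
    have h5 := list_sum_le_univ [x, e1, e2, e3, f1, f2, f3] hl (fun χ => c t χ * c t χ)
      (fun χ => mul_self_nonneg _)
    have h6 : ∑ χ, c t χ * c t χ = 3 := hc3 t
    rw [h6] at h5
    simp only [List.map_cons, List.map_nil, List.sum_cons, List.sum_nil] at h5
    linarith
  have hbcno : ∀ t χ, 0 ≤ b t χ * c t χ := by
    intro t χ
    have hk : ∃ k : Fin 4, k ≠ t := by
      by_cases h : t = 0
      · exact ⟨1, by rw [h]; decide⟩
      · exact ⟨0, fun h' => h h'.symm⟩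
    obtain ⟨k, hk⟩ := hk
    exact noopp (w := b k) (hb3 t) (hc3 t) (by rw [hbc]; simp) (by rw [hbb]; simp [hk])
      (by rw [hbc]; simp [hk]) χ
  have hcno : ∀ t t', t ≠ t' → ∀ χ, 0 ≤ c t χ * c t' χ := by
    intro t t' htt' χ
    exact noopp (w := b t) (hc3 t) (hc3 t') (by rw [hcc]; simp [htt']) (by rw [hbc]; simp)
      (by rw [hbc]; simp [htt']) χ
  -- sign conditions
  have hp0 : 0 ≤ c 0 e1 ∧ 0 ≤ c 0 e2 ∧ 0 ≤ c 0 e3 := by
    refine ⟨?_, ?_, ?_⟩
    · have := hbcno 0 e1; rw [he1a] at this; linarith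
    · have := hbcno 0 e2; rw [he2a] at this; linarith
    · have := hbcno 0 e3; rw [he3a] at this; linarith
  have hp1 : 0 ≤ c 1 x ∧ 0 ≤ c 1 e1 ∧ 0 ≤ c 1 f1 := by
    refine ⟨?_, ?_, ?_⟩
    · have := hbcno 1 x; rw [h1] at this; linarith
    · have := hbcno 1 e1; rw [he1b] at this; linarith
    · have := hbcno 1 f1; rw [hf1] at this; linarith
  have hp2 : 0 ≤ c 2 x ∧ 0 ≤ c 2 e2 ∧ 0 ≤ c 2 f2 := by
    refine ⟨?_, ?_, ?_⟩
    · have := hbcno 2 x; rw [h2] at this; linarith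
    · have := hbcno 2 e2; rw [he2b] at this; linarith
    · have := hbcno 2 f2; rw [hf2] at this; linarith
  have hp3 : 0 ≤ c 3 x ∧ 0 ≤ c 3 e3 ∧ 0 ≤ c 3 f3 := by
    refine ⟨?_, ?_, ?_⟩
    · have := hbcno 3 x; rw [h3] at this; linarith
    · have := hbcno 3 e3; rw [he3b] at this; linarith
    · have := hbcno 3 f3; rw [hf3] at this; linarith
  -- rows
  have hr0 : [c 0 x, c 0 e1, c 0 e2, c 0 e3, c 0 f1, c 0 f2, c 0 f3] ∈ optsA := by
    have E0 := L0 0
    have E1 := L1 0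
    have E2 := L2 0
    have E3 := L3 0
    simp at E0 E1 E2 E3
    exact rowA_int _ _ _ _ _ _ _ (hcr 0 x) (hcr 0 e1) (hcr 0 e2) (hcr 0 e3) (hcr 0 f1)
      (hcr 0 f2) (hcr 0 f3) E0 E1 E2 E3 (hnorm 0) hp0.1 hp0.2.1 hp0.2.2
  have hr1 : [c 1 x, c 1 e1, c 1 e2, c 1 e3, c 1 f1, c 1 f2, c 1 f3] ∈ optsB1 := by
    have E0 := L0 1
    have E1 := L1 1
    have E2 := L2 1
    have E3 := L3 1
    simp at E0 E1 E2 E3
    exact rowB1_int _ _ _ _ _ _ _ (hcr 1 x) (hcr 1 e1) (hcr 1 e2) (hcr 1 e3) (hcr 1 f1)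
      (hcr 1 f2) (hcr 1 f3) E0 E1 E2 E3 (hnorm 1) hp1.1 hp1.2.1 hp1.2.2
  have hr2 : [c 2 x, c 2 e1, c 2 e2, c 2 e3, c 2 f1, c 2 f2, c 2 f3] ∈ optsB2 := by
    have E0 := L0 2
    have E1 := L1 2
    have E2 := L2 2
    have E3 := L3 2
    simp at E0 E1 E2 E3
    exact rowB2_int _ _ _ _ _ _ _ (hcr 2 x) (hcr 2 e1) (hcr 2 e2) (hcr 2 e3) (hcr 2 f1)
      (hcr 2 f2) (hcr 2 f3) E0 E1 E2 E3 (hnorm 2) hp2.1 hp2.2.1 hp2.2.2
  have hr3 : [c 3 x, c 3 e1, c 3 e2, c 3 e3, c 3 f1, c 3 f2, c 3 f3] ∈ optsB3 := by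
    have E0 := L0 3
    have E1 := L1 3
    have E2 := L2 3
    have E3 := L3 3
    simp at E0 E1 E2 E3
    exact rowB3_int _ _ _ _ _ _ _ (hcr 3 x) (hcr 3 e1) (hcr 3 e2) (hcr 3 e3) (hcr 3 f1)
      (hcr 3 f2) (hcr 3 f3) E0 E1 E2 E3 (hnorm 3) hp3.1 hp3.2.1 hp3.2.2
  -- compatibility
  have hfull : ∀ s s', s ≠ s' →
      (([x, e1, e2, e3, f1, f2, f3] : List X).map (fun χ => c s χ * c s χ)).sum = 3 →
      (([x, e1, e2, e3, f1, f2, f3] : List X).map (fun χ => c s χ * c s' χ)).sum = 1 := by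
    intro s s' hss' hfull
    have hz : ∀ χ, χ ∉ ([x, e1, e2, e3, f1, f2, f3] : List X) → c s χ = 0 := by
      intro χ hχ
      have e1' := List.sum_toFinset (fun χ => c s χ * c s χ) hl
      have e2' : ∑ χ ∈ ([x, e1, e2, e3, f1, f2, f3] : List X).toFinset, c s χ * c s χ =
          ∑ χ, c s χ * c s χ := by
        rw [e1', hfull]; exact (hc3 s).symm
      have e3' := Finset.sum_sdiff (Finset.subset_univ
        ([x, e1, e2, e3, f1, f2, f3] : List X).toFinset) (f := fun χ => c s χ * c s χ)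
      have e4' : ∑ χ ∈ univ \ ([x, e1, e2, e3, f1, f2, f3] : List X).toFinset,
          c s χ * c s χ = 0 := by linarith
      have e5' := (Finset.sum_eq_zero_iff_of_nonneg (fun i _ => mul_self_nonneg (c s i))).mp e4' χ
        (by simpa using hχ)
      exact mul_self_eq_zero.mp e5'
    have e6 := list_sum_eq_univ [x, e1, e2, e3, f1, f2, f3] hl (fun χ => c s χ * c s' χ)
      (fun χ hχ => by rw [hz χ hχ, zero_mul])
    rw [e6]
    exact (hcc s s').trans (by simp [hss'])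
  have hcompat : ∀ t t', t ≠ t' →
      lcompat [c t x, c t e1, c t e2, c t e3, c t f1, c t f2, c t f3]
        [c t' x, c t' e1, c t' e2, c t' e3, c t' f1, c t' f2, c t' f3] := by
    intro t t' htt'
    have hP := hcno t t' htt'
    have hdot_le : (([x, e1, e2, e3, f1, f2, f3] : List X).map (fun χ => c t χ * c t' χ)).sum
        ≤ 1 := by
      have h5 := list_sum_le_univ [x, e1, e2, e3, f1, f2, f3] hl (fun χ => c t χ * c t' χ) hP
      have h6 : ∑ χ, c t χ * c t' χ = 1 := (hcc t t').trans (by simp [htt'])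
      rw [h6] at h5
      exact h5
    have hA := hfull t t' htt'
    have hB := hfull t' t (Ne.symm htt')
    refine ⟨?_, hdot_le, hA, ?_⟩
    · intro p hp
      simp only [List.zipWith_cons_cons, List.zipWith_nil_right, List.mem_cons,
        List.not_mem_nil, or_false] at hp
      rcases hp with rfl | rfl | rfl | rfl | rfl | rfl | rfl <;> exact hP _
    · intro h7
      have h8 := hB h7
      simp only [List.map_cons, List.map_nil, List.sum_cons, List.sum_nil] at h8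
      show ldot _ _ = 1
      simp only [ldot, List.zipWith_cons_cons, List.zipWith_nil_right, List.sum_cons,
        List.sum_nil]
      linarith [mul_comm (c t x) (c t' x), mul_comm (c t e1) (c t' e1),
        mul_comm (c t e2) (c t' e2), mul_comm (c t e3) (c t' e3), mul_comm (c t f1) (c t' f1),
        mul_comm (c t f2) (c t' f2), mul_comm (c t f3) (c t' f3)]
  exact caseII_combine _ hr0 _ hr1 _ hr2 _ hr3
    ⟨hcompat 0 1 (by decide), hcompat 0 2 (by decide), hcompat 0 3 (by decide),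
      hcompat 1 2 (by decide), hcompat 1 3 (by decide), hcompat 2 3 (by decide)⟩

end Cfsg.Agent.Helper11
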