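import Mathlib
import Cfsg.Agent.Helper11.CTIb

set_option autoImplicit false
set_option linter.unusedSectionVars false

namespace Cfsg.Agent.Helper11

open Finset

variable {X : Type*} [Fintype X] [DecidableEq X]

theorem four01 (a : Fin 4 → ℤ) (h01 : ∀ i, a i = 0 ∨ a i = 1)
    (hs : 2 < a 0 + a 1 + a 2 + a 3) (i : Fin 4) (hi : a i = 0) (k : Fin 4) (hk : k ≠ i) :
    a k = 1 := by
  have h0 := h01 0
  have h1 := h01 1
  have h2 := h01 2
  have h3 := h01 3
  have hc : ∀ j : Fin 4, j = 0 ∨ j = 1 ∨ j = 2 ∨ j = 3 := by decide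
  rcases hc i with rfl | rfl | rfl | rfl <;> rcases hc k with rfl | rfl | rfl | rfl <;>
    first | exact absurd rfl hk | omega

/-- Case II with the exceptional row in arbitrary position. -/
theorem caseII' (b c : Fin 4 → X → ℤ)
    (hbb : ∀ i k, vip (b i) (b k) = if i = k then 3 else 1)
    (hcc : ∀ i k, vip (c i) (c k) = if i = k then 3 else 1)
    (hbc : ∀ i k, vip (b i) (c k) = if i = k then 1 else 0)
    (hpos : ∀ i χ, 0 ≤ b i χ) (x : X) (i0 : Fin 4) (h0 : b i0 x = 0)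
    (h1 : ∀ i, i ≠ i0 → b i x = 1) : False := by
  have hσ0 : (Equiv.swap (0 : Fin 4) i0) 0 = i0 := Equiv.swap_apply_left _ _
  have hne : ∀ k : Fin 4, k ≠ 0 → (Equiv.swap (0 : Fin 4) i0) k ≠ i0 := by
    intro k hk h
    rw [← hσ0] at h
    exact hk ((Equiv.swap (0 : Fin 4) i0).injective h)
  refine caseII (fun i => b ((Equiv.swap (0 : Fin 4) i0) i)) (fun i => c ((Equiv.swap (0 : Fin 4) i0) i))
    ?_ ?_ ?_ (fun i χ => hpos _ χ) x ?_ ?_ ?_ ?_
  · intro i k
    beta_reduce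
    rw [hbb]
    simp only [(Equiv.swap (0 : Fin 4) i0).injective.eq_iff]
  · intro i k
    beta_reduce
    rw [hcc]
    simp only [(Equiv.swap (0 : Fin 4) i0).injective.eq_iff]
  · intro i k
    beta_reduce
    rw [hbc]
    simp only [(Equiv.swap (0 : Fin 4) i0).injective.eq_iff]
  · show b ((Equiv.swap (0 : Fin 4) i0) 0) x = 0
    rw [hσ0]; exact h0
  · exact h1 _ (hne 1 (by decide))
  · exact h1 _ (hne 2 (by decide))
  · exact h1 _ (hne 3 (by decide))

/-- Four rows with nonnegative coefficients have a common coordinate. -/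
theorem fourRow_pos (b c : Fin 4 → X → ℤ)
    (hbb : ∀ i k, vip (b i) (b k) = if i = k then 3 else 1)
    (hcc : ∀ i k, vip (c i) (c k) = if i = k then 3 else 1)
    (hbc : ∀ i k, vip (b i) (c k) = if i = k then 1 else 0)
    (hpos : ∀ i χ, 0 ≤ b i χ) : ∃ χ, ∀ i, b i χ = 1 := by
  have hb3 : ∀ i, vip (b i) (b i) = 3 := fun i => by rw [hbb]; simp
  have hb01 : ∀ i χ, b i χ = 0 ∨ b i χ = 1 := fun i χ => pos01 (hb3 i) (hpos i) χ
  have hbsum : ∀ i, ∑ χ, b i χ = 3 := fun i => possum (hb3 i) (hpos i)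
  by_contra hcon
  push Not at hcon
  obtain ⟨S, hS⟩ : ∃ S : X → ℤ, ∀ χ, S χ = b 0 χ + b 1 χ + b 2 χ + b 3 χ := ⟨_, fun _ => rfl⟩
  have hS2 : ∀ χ, S χ ≤ 2 := by
    intro χ
    by_contra hgt
    push Not at hgt
    rw [hS] at hgt
    obtain ⟨i, hi⟩ := hcon χ
    have hi0 : b i χ = 0 := by
      rcases hb01 i χ with h | h
      · exact h
      · exact absurd h hi
    exact caseII' b c hbb hcc hbc hpos χ i hi0
      (fun k hk => four01 (fun t => b t χ) (fun t => hb01 t χ) hgt i hi0 k hk)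
  have hS0 : ∀ χ, 0 ≤ S χ := by
    intro χ
    rw [hS]
    have := hpos 0 χ
    have := hpos 1 χ
    have := hpos 2 χ
    have := hpos 3 χ
    linarith
  have hSsum : ∑ χ, S χ = 12 := by
    rw [Finset.sum_congr rfl (fun χ _ => hS χ)]
    simp only [Finset.sum_add_distrib, hbsum]
    norm_num
  have e : ∀ i k, ∑ χ, b i χ * b k χ = if i = k then 3 else 1 := hbb
  have hSsq : ∑ χ, S χ * S χ = 24 := by
    have hexp : ∀ χ, S χ * S χ =
        b 0 χ * b 0 χ + b 0 χ * b 1 χ + b 0 χ * b 2 χ + b 0 χ * b 3 χ +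
        b 1 χ * b 0 χ + b 1 χ * b 1 χ + b 1 χ * b 2 χ + b 1 χ * b 3 χ +
        b 2 χ * b 0 χ + b 2 χ * b 1 χ + b 2 χ * b 2 χ + b 2 χ * b 3 χ +
        b 3 χ * b 0 χ + b 3 χ * b 1 χ + b 3 χ * b 2 χ + b 3 χ * b 3 χ := by
      intro χ; rw [hS]; ring
    rw [Finset.sum_congr rfl (fun χ _ => hexp χ)]
    simp only [Finset.sum_add_distrib, e]
    simp
  have hST : ∑ χ, S χ * (2 - S χ) = 0 := by
    have hexp : ∀ χ, S χ * (2 - S χ) = 2 * S χ - S χ * S χ := fun χ => by ring
    rw [Finset.sum_congr rfl (fun χ _ => hexp χ), Finset.sum_sub_distrib, ← Finset.mul_sum,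
      hSsum, hSsq]
    norm_num
  have hS02 : ∀ χ, S χ = 0 ∨ S χ = 2 := by
    intro χ
    have hnn : ∀ χ, 0 ≤ S χ * (2 - S χ) := by
      intro χ
      have := hS2 χ
      exact mul_nonneg (hS0 χ) (by linarith)
    have h5 := (Finset.sum_eq_zero_iff_of_nonneg (fun i _ => hnn i)).mp hST χ (Finset.mem_univ _)
    rcases mul_eq_zero.mp h5 with h | h
    · left; exact h
    · right; linarith
  have hdvd : (2 : ℤ) ∣ ∑ χ, c 0 χ * S χ := by
    apply Finset.dvd_sum
    intro χ _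
    rcases hS02 χ with h | h <;> rw [h]
    · simp
    · exact Dvd.intro_left _ rfl
  have e' : ∀ i k, ∑ χ, b i χ * c k χ = if i = k then 1 else 0 := hbc
  have hval : ∑ χ, c 0 χ * S χ = 1 := by
    have hexp : ∀ χ, c 0 χ * S χ =
        b 0 χ * c 0 χ + b 1 χ * c 0 χ + b 2 χ * c 0 χ + b 3 χ * c 0 χ := by
      intro χ; rw [hS]; ring
    rw [Finset.sum_congr rfl (fun χ _ => hexp χ)]
    simp only [Finset.sum_add_distrib, e']
    simp
  rw [hval] at hdvd
  obtain ⟨k, hk⟩ := hdvd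
  omega

/-- Four rows (arbitrary signs) have a common coordinate. -/
theorem fourRow (b c : Fin 4 → X → ℤ)
    (hbb : ∀ i k, vip (b i) (b k) = if i = k then 3 else 1)
    (hcc : ∀ i k, vip (c i) (c k) = if i = k then 3 else 1)
    (hbc : ∀ i k, vip (b i) (c k) = if i = k then 1 else 0) :
    ∃ χ, ∀ i, b i χ ≠ 0 := by
  have hb3 : ∀ i, vip (b i) (b i) = 3 := fun i => by rw [hbb]; simp
  have hno : ∀ i k χ, 0 ≤ b i χ * b k χ := by
    intro i k χ
    by_cases hik : i = k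
    · rw [hik]; exact mul_self_nonneg _
    · exact noopp (w := c i) (hb3 i) (hb3 k) (by rw [hbb]; simp [hik])
        (by rw [vip_comm, hbc]; simp) (by rw [vip_comm, hbc]; simp [Ne.symm hik]) χ
  obtain ⟨ε, hε⟩ : ∃ ε : X → ℤ, ∀ χ, ε χ = if ∃ i, b i χ < 0 then -1 else 1 :=
    ⟨_, fun _ => rfl⟩
  have hε2 : ∀ χ, ε χ * ε χ = 1 := by
    intro χ; rw [hε]; split_ifs <;> norm_num
  have hpos : ∀ i χ, 0 ≤ ε χ * b i χ := by
    intro i χ
    rw [hε]
    split_ifs with h
    · obtain ⟨i0, hi0⟩ := h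
      have h5 := hno i0 i χ
      by_contra hc
      push Not at hc
      have h6 : b i0 χ * b i χ < 0 := mul_neg_of_neg_of_pos hi0 (by linarith)
      linarith
    · push Not at h
      have := h i
      linarith
  have key : ∀ (u v : X → ℤ), vip (fun χ => ε χ * u χ) (fun χ => ε χ * v χ) = vip u v := by
    intro u v
    unfold vip
    apply Finset.sum_congr rfl
    intro χ _
    have := hε2 χ
    calc ε χ * u χ * (ε χ * v χ) = (ε χ * ε χ) * (u χ * v χ) := by ring
      _ = u χ * v χ := by rw [this, one_mul]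
  obtain ⟨χ, hχ⟩ := fourRow_pos (fun i χ => ε χ * b i χ) (fun i χ => ε χ * c i χ)
    (fun i k => by rw [key]; exact hbb i k) (fun i k => by rw [key]; exact hcc i k)
    (fun i k => by rw [key]; exact hbc i k) hpos
  refine ⟨χ, fun i hi => ?_⟩
  have h5 : ε χ * b i χ = 1 := hχ i
  rw [hi, mul_zero] at h5
  exact absurd h5 (by norm_num)

theorem inj_vec4 {I : Type*} (a0 a1 a2 a3 : I) (h01 : a0 ≠ a1) (h02 : a0 ≠ a2) (h03 : a0 ≠ a3)
    (h12 : a1 ≠ a2) (h13 : a1 ≠ a3) (h23 : a2 ≠ a3) :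
    Function.Injective ![a0, a1, a2, a3] := by
  intro a a' h
  have hc : ∀ j : Fin 4, j = 0 ∨ j = 1 ∨ j = 2 ∨ j = 3 := by decide
  rcases hc a with rfl | rfl | rfl | rfl <;> rcases hc a' with rfl | rfl | rfl | rfl <;>
    first
    | rfl
    | exact absurd h h01 | exact absurd h h02 | exact absurd h h03
    | exact absurd h h12 | exact absurd h h13 | exact absurd h h23
    | exact absurd h.symm h01 | exact absurd h.symm h02 | exact absurd h.symm h03
    | exact absurd h.symm h12 | exact absurd h.symm h13 | exact absurd h.symm h23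

/-- A family of at least four vectors (with a companion family) has a common coordinate. -/
theorem sunflower {I : Type*} [DecidableEq I] (b c : I → X → ℤ)
    (hbb : ∀ i k, vip (b i) (b k) = if i = k then 3 else 1)
    (hcc : ∀ i k, vip (c i) (c k) = if i = k then 3 else 1)
    (hbc : ∀ i k, vip (b i) (c k) = if i = k then 1 else 0)
    (ι : Fin 4 → I) (hι : Function.Injective ι) : ∃ x, ∀ i, b i x ≠ 0 := by
  have hb3 : ∀ i, vip (b i) (b i) = 3 := fun i => by rw [hbb]; simp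
  have hno : ∀ i k χ, 0 ≤ b i χ * b k χ := by
    intro i k χ
    by_cases hik : i = k
    · rw [hik]; exact mul_self_nonneg _
    · exact noopp (w := c i) (hb3 i) (hb3 k) (by rw [hbb]; simp [hik])
        (by rw [vip_comm, hbc]; simp) (by rw [vip_comm, hbc]; simp [Ne.symm hik]) χ
  have h12 : ι 0 ≠ ι 1 := fun h => absurd (hι h) (by decide)
  obtain ⟨x, hx1, hxrest⟩ := common (hb3 (ι 0)) (hb3 (ι 1)) (by rw [hbb]; simp [h12]) (hno _ _)
  refine ⟨x, ?_⟩
  intro i hi
  have hi1 : i ≠ ι 0 := by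
    rintro rfl; rw [hi, zero_mul] at hx1; exact absurd hx1 (by norm_num)
  have hi2 : i ≠ ι 1 := by
    rintro rfl; rw [hi, mul_zero] at hx1; exact absurd hx1 (by norm_num)
  obtain ⟨i4, h41, h42, h4i⟩ : ∃ i4, i4 ≠ ι 0 ∧ i4 ≠ ι 1 ∧ i4 ≠ i := by
    by_cases h : ι 2 = i
    · refine ⟨ι 3, ?_, ?_, ?_⟩
      · intro h'; exact absurd (hι h') (by decide)
      · intro h'; exact absurd (hι h') (by decide)
      · intro h'; rw [← h] at h'; exact absurd (hι h') (by decide)
    · refine ⟨ι 2, ?_, ?_, h⟩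
      · intro h'; exact absurd (hι h') (by decide)
      · intro h'; exact absurd (hι h') (by decide)
  have hκ := inj_vec4 (ι 0) (ι 1) i i4 h12 (Ne.symm hi1) (Ne.symm h41) (Ne.symm hi2) (Ne.symm h42)
    (Ne.symm h4i)
  obtain ⟨χ, hχ⟩ := fourRow (fun t => b (![ι 0, ι 1, i, i4] t)) (fun t => c (![ι 0, ι 1, i, i4] t))
    (fun s t => by beta_reduce; rw [hbb]; simp only [hκ.eq_iff])
    (fun s t => by beta_reduce; rw [hcc]; simp only [hκ.eq_iff])
    (fun s t => by beta_reduce; rw [hbc]; simp only [hκ.eq_iff])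
  have h0 : b (ι 0) χ ≠ 0 := hχ 0
  have h1 : b (ι 1) χ ≠ 0 := hχ 1
  have h2 : b i χ ≠ 0 := hχ 2
  have hχx : χ = x := by
    by_contra hne
    rcases mul_eq_zero.mp (hxrest χ hne) with h | h
    · exact h0 h
    · exact h1 h
  rw [hχx] at h2
  exact h2 hi

theorem supp_card {v : X → ℤ} (h : vip v v = 3) :
    (Finset.univ.filter (fun χ => v χ ≠ 0)).card = 3 := by
  have e : ∀ χ, v χ * v χ = if v χ ≠ 0 then 1 else 0 := by
    intro χ
    rcases vrange h χ with h' | h' | h' <;> rw [h'] <;> norm_num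
  have h2 : ((Finset.univ.filter (fun χ => v χ ≠ 0)).card : ℤ) = 3 := by
    rw [← h]
    unfold vip
    rw [Finset.sum_congr rfl (fun χ _ => e χ), Finset.natCast_card_filter]
  exact_mod_cast h2

end Cfsg.Agent.Helper11
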