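import Mathlib
import Cfsg.Agent.Helper11.CTIc

set_option autoImplicit false
set_option linter.unusedSectionVars false

namespace Cfsg.Agent.Helper11

open Finset

variable {X : Type*} [Fintype X] [DecidableEq X]

/-- The Gram condition of the coefficient vectors of the `Ind((1-φ)(1-ψ)) - 1`. -/
def GramCond {I J : Type*} [DecidableEq I] [DecidableEq J] (b : I → J → X → ℤ) : Prop :=
  ∀ i j i' j', vip (b i j) (b i' j') =
    (if i = i' then 1 else 0) + (if j = j' then 1 else 0) + (if i = i' ∧ j = j' then 1 else 0)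

/-- The standard form of a family of coefficient vectors. -/
structure StdForm {I J : Type*} (b : I → J → X → ℤ) (ξ : I → X) (υ : J → X) (ζ : I → J → X) :
    Prop where
  hξ : ∀ i j, b i j (ξ i) ≠ 0
  hυ : ∀ i j, b i j (υ j) ≠ 0
  hζ : ∀ i j, b i j (ζ i j) ≠ 0
  supp : ∀ i j χ, b i j χ ≠ 0 → χ = ξ i ∨ χ = υ j ∨ χ = ζ i j
  range : ∀ i j χ, b i j χ = 0 ∨ b i j χ = 1 ∨ b i j χ = -1
  ξc : ∀ i j j', b i j (ξ i) = b i j' (ξ i)
  υc : ∀ i i' j, b i j (υ j) = b i' j (υ j)
  ξυ : ∀ i j, ξ i ≠ υ j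
  ξζ : ∀ i i' j, ξ i ≠ ζ i' j
  υζ : ∀ j i j', υ j ≠ ζ i j'
  ξinj : Function.Injective ξ
  υinj : Function.Injective υ
  ζinj : ∀ i j i' j', ζ i j = ζ i' j' → i = i' ∧ j = j'

theorem StdForm.transpose {I J : Type*} {b : I → J → X → ℤ} {ξ : I → X} {υ : J → X}
    {ζ : I → J → X} (h : StdForm b ξ υ ζ) :
    StdForm (fun j i => b i j) υ ξ (fun j i => ζ i j) where
  hξ := fun j i => h.hυ i j
  hυ := fun j i => h.hξ i j
  hζ := fun j i => h.hζ i j
  supp := fun j i χ hχ => by
    rcases h.supp i j χ hχ with h1 | h1 | h1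
    · exact Or.inr (Or.inl h1)
    · exact Or.inl h1
    · exact Or.inr (Or.inr h1)
  range := fun j i χ => h.range i j χ
  ξc := fun j i i' => h.υc i i' j
  υc := fun j j' i => h.ξc i j j'
  ξυ := fun j i => (h.ξυ i j).symm
  ξζ := fun j j' i => h.υζ j i j'
  υζ := fun i j i' => h.ξζ i i' j
  ξinj := h.υinj
  υinj := h.ξinj
  ζinj := fun j i j' i' hz => (h.ζinj i j i' j' hz).symm

theorem exists_inj4 {I : Type*} [Fintype I] (h : 4 ≤ Fintype.card I) :
    ∃ ι : Fin 4 → I, Function.Injective ι := by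
  have h' : Fintype.card (Fin 4) ≤ Fintype.card I := by simpa using h
  obtain ⟨e⟩ := Function.Embedding.nonempty_of_card_le h'
  exact ⟨e, e.injective⟩

theorem exists_two {I : Type*} [Fintype I] [DecidableEq I] (h : Fintype.card I = 2) :
    ∃ i1 i2 : I, i1 ≠ i2 ∧ ∀ i, i = i1 ∨ i = i2 := by
  obtain ⟨x, y, hxy, huniv⟩ := Finset.card_eq_two.mp (show (Finset.univ : Finset I).card = 2 by
    rw [Finset.card_univ]; exact h)
  refine ⟨x, y, hxy, fun i => ?_⟩
  have h5 : i ∈ (Finset.univ : Finset I) := Finset.mem_univ i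
  rw [huniv] at h5
  simpa using h5

set_option maxHeartbeats 1600000 in
/-- The structure theorem: a family with the Gram condition, at least four rows and either two
or at least four columns is in standard form. -/
theorem gram_std {I J : Type*} [DecidableEq I] [DecidableEq J] (b : I → J → X → ℤ)
    (hG : GramCond b) (hI : ∃ ι : Fin 4 → I, Function.Injective ι)
    (hJ : (∃ κ : Fin 4 → J, Function.Injective κ) ∨
      ∃ j1 j2 : J, j1 ≠ j2 ∧ ∀ j, j = j1 ∨ j = j2) :
    ∃ (ξ : I → X) (υ : J → X) (ζ : I → J → X), StdForm b ξ υ ζ := by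
  obtain ⟨ι, hι⟩ := hI
  have hn : ∀ i j, vip (b i j) (b i j) = 3 := fun i j => by rw [hG]; simp
  have hcol : ∀ i i' j, i ≠ i' → vip (b i j) (b i' j) = 1 := fun i i' j h => by
    rw [hG]; simp [h]
  have hrow : ∀ i j j', j ≠ j' → vip (b i j) (b i j') = 1 := fun i j j' h => by
    rw [hG]; simp [h]
  have hcross : ∀ i i' j j', i ≠ i' → j ≠ j' → vip (b i j) (b i' j') = 0 :=
    fun i i' j j' h h' => by rw [hG]; simp [h, h']
  have hr : ∀ i j χ, b i j χ = 0 ∨ b i j χ = 1 ∨ b i j χ = -1 := fun i j χ => vrange (hn i j) χ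
  have hJ2 : ∀ j : J, ∃ j', j' ≠ j := by
    intro j
    rcases hJ with ⟨κ, hκ⟩ | ⟨j1, j2, h12, hall⟩
    · by_cases h : κ 0 = j
      · exact ⟨κ 1, fun h' => absurd (hκ (h'.trans h.symm)) (by decide)⟩
      · exact ⟨κ 0, h⟩
    · by_cases h : j1 = j
      · exact ⟨j2, fun h' => h12 (h.trans h'.symm)⟩
      · exact ⟨j1, h⟩
  have hI2 : ∀ i : I, ∃ i', i' ≠ i := by
    intro i
    by_cases h : ι 0 = i
    · exact ⟨ι 1, fun h' => absurd (hι (h'.trans h.symm)) (by decide)⟩
    · exact ⟨ι 0, h⟩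
  have hnc : ∀ i i' j χ, 0 ≤ b i j χ * b i' j χ := by
    intro i i' j χ
    by_cases hii : i = i'
    · rw [hii]; exact mul_self_nonneg _
    · obtain ⟨j', hj'⟩ := hJ2 j
      exact noopp (w := b i j') (hn i j) (hn i' j) (hcol i i' j hii) (hrow i j' j hj')
        (hcross i i' j' j hii hj') χ
  have hnr : ∀ i j j' χ, 0 ≤ b i j χ * b i j' χ := by
    intro i j j' χ
    by_cases hjj : j = j'
    · rw [hjj]; exact mul_self_nonneg _
    · obtain ⟨i', hi'⟩ := hI2 i
      exact noopp (w := b i' j) (hn i j) (hn i j') (hrow i j j' hjj) (hcol i' i j hi')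
        (hcross i' i j j' hi' hjj) χ
  have hcol1 : ∀ i i' j, i ≠ i' → ∀ χ χ', b i j χ ≠ 0 → b i' j χ ≠ 0 → b i j χ' ≠ 0 →
      b i' j χ' ≠ 0 → χ = χ' := by
    intro i i' j hii χ χ' h1 h2 h3 h4
    obtain ⟨χ0, -, hrest⟩ := common (hn i j) (hn i' j) (hcol i i' j hii) (hnc i i' j)
    have e1 : χ = χ0 := by
      by_contra hne
      rcases mul_eq_zero.mp (hrest χ hne) with h | h
      · exact h1 h
      · exact h2 h
    have e2 : χ' = χ0 := by
      by_contra hne
      rcases mul_eq_zero.mp (hrest χ' hne) with h | h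
      · exact h3 h
      · exact h4 h
    rw [e1, e2]
  have hrow1 : ∀ i j j', j ≠ j' → ∀ χ χ', b i j χ ≠ 0 → b i j' χ ≠ 0 → b i j χ' ≠ 0 →
      b i j' χ' ≠ 0 → χ = χ' := by
    intro i j j' hjj χ χ' h1 h2 h3 h4
    obtain ⟨χ0, -, hrest⟩ := common (hn i j) (hn i j') (hrow i j j' hjj) (hnr i j j')
    have e1 : χ = χ0 := by
      by_contra hne
      rcases mul_eq_zero.mp (hrest χ hne) with h | h
      · exact h1 h
      · exact h2 h
    have e2 : χ' = χ0 := by
      by_contra hne
      rcases mul_eq_zero.mp (hrest χ' hne) with h | h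
      · exact h3 h
      · exact h4 h
    rw [e1, e2]
  -- common coordinates of the columns
  have hC : ∀ j, ∃ y, ∀ i, b i j y ≠ 0 := by
    intro j
    obtain ⟨j', hj'⟩ := hJ2 j
    exact sunflower (fun i => b i j) (fun i => b i j')
      (fun i k => by rw [hG]; by_cases h : i = k <;> simp [h])
      (fun i k => by rw [hG]; by_cases h : i = k <;> simp [h])
      (fun i k => by rw [hG]; by_cases h : i = k <;> simp [h, Ne.symm hj']) ι hι
  -- common coordinates of the rows
  have hR : ∀ i, ∃ x, ∀ j, b i j x ≠ 0 := by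
    intro i
    obtain ⟨i', hi'⟩ := hI2 i
    rcases hJ with ⟨κ, hκ⟩ | ⟨j1, j2, h12, hall⟩
    · exact sunflower (fun j => b i j) (fun j => b i' j)
        (fun j k => by rw [hG]; by_cases h : j = k <;> simp [h])
        (fun j k => by rw [hG]; by_cases h : j = k <;> simp [h])
        (fun j k => by rw [hG]; by_cases h : j = k <;> simp [h, Ne.symm hi']) κ hκ
    · obtain ⟨x, hx1, -⟩ := common (hn i j1) (hn i j2) (hrow i j1 j2 h12) (hnr i j1 j2)
      refine ⟨x, fun j => ?_⟩
      rcases hall j with rfl | rfl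
      · intro h; rw [h, zero_mul] at hx1; exact absurd hx1 (by norm_num)
      · intro h; rw [h, mul_zero] at hx1; exact absurd hx1 (by norm_num)
  choose υ hυ using hC
  choose ξ hξ using hR
  -- the common coordinate of a column does not occur in the other columns
  have hUC : ∀ j i j', j' ≠ j → b i j' (υ j) = 0 := by
    intro j i j' hjj
    by_contra hy
    have hex : ∀ t : Fin 4, ∃ c, ι t ≠ i → (c ≠ υ j ∧ b (ι t) j c ≠ 0 ∧ b i j' c ≠ 0) := by
      intro t
      by_cases ht : ι t = i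
      · exact ⟨υ j, fun h => absurd ht h⟩
      · by_contra hcon
        push Not at hcon
        have h0 := hcross (ι t) i j j' ht (Ne.symm hjj)
        unfold vip at h0
        rw [Finset.sum_eq_single (υ j)] at h0
        · rcases mul_eq_zero.mp h0 with h | h
          · exact hυ j (ι t) h
          · exact hy h
        · intro c _ hc
          by_cases hbc : b (ι t) j c = 0
          · rw [hbc, zero_mul]
          · rw [(hcon c).2 hc hbc, mul_zero]
        · intro h; exact absurd (Finset.mem_univ _) h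
    choose f hf using hex
    have hA : 2 < (Finset.univ.filter (fun t : Fin 4 => ¬ ι t = i)).card := by
      have h1 := Finset.card_filter_add_card_filter_not
        (s := (Finset.univ : Finset (Fin 4))) (fun t => ι t = i)
      have h2 : (Finset.univ.filter (fun t : Fin 4 => ι t = i)).card ≤ 1 := by
        apply Finset.card_le_one.mpr
        intro a ha a' ha'
        exact hι ((Finset.mem_filter.mp ha).2.trans (Finset.mem_filter.mp ha').2.symm)
      simp only [Finset.card_univ, Fintype.card_fin] at h1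
      omega
    have hB : ((Finset.univ.filter (fun χ => b i j' χ ≠ 0)).erase (υ j)).card = 2 := by
      have hmem : υ j ∈ Finset.univ.filter (fun χ => b i j' χ ≠ 0) :=
        Finset.mem_filter.mpr ⟨Finset.mem_univ _, hy⟩
      rw [Finset.card_erase_of_mem hmem, supp_card (hn i j')]
    obtain ⟨t, ht, t', ht', htt, hft⟩ := Finset.exists_ne_map_eq_of_card_lt_of_maps_to
      (s := Finset.univ.filter (fun t : Fin 4 => ¬ ι t = i))
      (t := (Finset.univ.filter (fun χ => b i j' χ ≠ 0)).erase (υ j)) (f := f)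
      (by rw [hB]; exact hA) (fun t ht => by
        have h5 := hf t (Finset.mem_filter.mp ht).2
        exact Finset.mem_erase.mpr ⟨h5.1, Finset.mem_filter.mpr ⟨Finset.mem_univ _, h5.2.2⟩⟩)
    have h1 := hf t (Finset.mem_filter.mp ht).2
    have h2 := hf t' (Finset.mem_filter.mp ht').2
    have hne : ι t ≠ ι t' := fun h => htt (hι h)
    have h5 := hcol1 (ι t) (ι t') j hne (υ j) (f t) (hυ j _) (hυ j _) h1.2.1
      (by rw [hft]; exact h2.2.1)
    exact h1.1 h5.symm
  have hξυ : ∀ i j, ξ i ≠ υ j := by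
    intro i j h
    obtain ⟨j', hj'⟩ := hJ2 j
    have h5 := hUC j i j' hj'
    rw [← h] at h5
    exact hξ i j' h5
  -- the third coordinate
  have hZ : ∀ i j, ∃ z, z ≠ ξ i ∧ z ≠ υ j ∧ b i j z ≠ 0 ∧
      ∀ χ, b i j χ ≠ 0 → χ = ξ i ∨ χ = υ j ∨ χ = z := by
    intro i j
    have h3 := supp_card (hn i j)
    have hm1 : ξ i ∈ Finset.univ.filter (fun χ => b i j χ ≠ 0) :=
      Finset.mem_filter.mpr ⟨Finset.mem_univ _, hξ i j⟩
    have hm2 : υ j ∈ (Finset.univ.filter (fun χ => b i j χ ≠ 0)).erase (ξ i) :=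
      Finset.mem_erase.mpr ⟨(hξυ i j).symm, Finset.mem_filter.mpr ⟨Finset.mem_univ _, hυ j i⟩⟩
    have hc : (((Finset.univ.filter (fun χ => b i j χ ≠ 0)).erase (ξ i)).erase (υ j)).card = 1 := by
      rw [Finset.card_erase_of_mem hm2, Finset.card_erase_of_mem hm1, h3]
    obtain ⟨z, hz⟩ := Finset.card_eq_one.mp hc
    have hzm : z ∈ ((Finset.univ.filter (fun χ => b i j χ ≠ 0)).erase (ξ i)).erase (υ j) := by
      rw [hz]; exact Finset.mem_singleton_self z
    have hz1 := Finset.mem_erase.mp hzm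
    have hz2 := Finset.mem_erase.mp hz1.2
    refine ⟨z, hz2.1, hz1.1, (Finset.mem_filter.mp hz2.2).2, ?_⟩
    intro χ hχ
    by_cases h1 : χ = ξ i
    · exact Or.inl h1
    · by_cases h2 : χ = υ j
      · exact Or.inr (Or.inl h2)
      · right; right
        have h5 : χ ∈ ((Finset.univ.filter (fun χ => b i j χ ≠ 0)).erase (ξ i)).erase (υ j) :=
          Finset.mem_erase.mpr ⟨h2, Finset.mem_erase.mpr ⟨h1,
            Finset.mem_filter.mpr ⟨Finset.mem_univ _, hχ⟩⟩⟩
        rw [hz] at h5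
        exact Finset.mem_singleton.mp h5
  choose ζ hζ1 hζ2 hζ3 hζ4 using hZ
  have hX : ∀ i i' j, i' ≠ i → b i' j (ξ i) = 0 := by
    intro i i' j hii
    by_contra h
    exact hξυ i j (hcol1 i i' j (Ne.symm hii) (ξ i) (υ j) (hξ i j) h (hυ j i) (hυ j i'))
  have hZc : ∀ i i' j, i' ≠ i → b i' j (ζ i j) = 0 := by
    intro i i' j hii
    by_contra h
    exact hζ2 i j (hcol1 i i' j (Ne.symm hii) (ζ i j) (υ j) (hζ3 i j) h (hυ j i) (hυ j i'))
  have hZr : ∀ i j j', j' ≠ j → b i j' (ζ i j) = 0 := by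
    intro i j j' hjj
    by_contra h
    exact hζ1 i j (hrow1 i j j' (Ne.symm hjj) (ζ i j) (ξ i) (hζ3 i j) h (hξ i j) (hξ i j'))
  have hZx : ∀ i j i' j', i' ≠ i → j' ≠ j → b i' j' (ζ i j) = 0 := by
    intro i j i' j' hii hjj
    by_contra h
    have h0 := hcross i i' j j' (Ne.symm hii) (Ne.symm hjj)
    unfold vip at h0
    rw [Finset.sum_eq_single (ζ i j)] at h0
    · rcases mul_eq_zero.mp h0 with h' | h'
      · exact hζ3 i j h'
      · exact h h'
    · intro c _ hc
      by_cases hbc : b i j c = 0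
      · rw [hbc, zero_mul]
      · rcases hζ4 i j c hbc with h1 | h1 | h1
        · rw [h1, hX i i' j' hii, mul_zero]
        · rw [h1, hUC j i' j' hjj, mul_zero]
        · exact absurd h1 hc
    · intro h'; exact absurd (Finset.mem_univ _) h'
  refine ⟨ξ, υ, ζ, ?_⟩
  refine ⟨hξ, fun i j => hυ j i, hζ3, hζ4, hr, ?_, ?_, hξυ, ?_, ?_, ?_, ?_, ?_⟩
  · intro i j j'
    have h5 := hnr i j j' (ξ i)
    rcases hr i j (ξ i) with h | h | h
    · exact absurd h (hξ i j)
    · rcases hr i j' (ξ i) with h' | h' | h'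
      · exact absurd h' (hξ i j')
      · rw [h, h']
      · rw [h, h'] at h5; norm_num at h5
    · rcases hr i j' (ξ i) with h' | h' | h'
      · exact absurd h' (hξ i j')
      · rw [h, h'] at h5; norm_num at h5
      · rw [h, h']
  · intro i i' j
    have h5 := hnc i i' j (υ j)
    rcases hr i j (υ j) with h | h | h
    · exact absurd h (hυ j i)
    · rcases hr i' j (υ j) with h' | h' | h'
      · exact absurd h' (hυ j i')
      · rw [h, h']
      · rw [h, h'] at h5; norm_num at h5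
    · rcases hr i' j (υ j) with h' | h' | h'
      · exact absurd h' (hυ j i')
      · rw [h, h'] at h5; norm_num at h5
      · rw [h, h']
  · intro i i' j h
    by_cases hii : i' = i
    · rw [hii] at h; exact hζ1 i j h.symm
    · have h5 := hX i i' j hii
      rw [h] at h5
      exact hζ3 i' j h5
  · intro j i j' h
    by_cases hjj : j' = j
    · rw [hjj] at h; exact hζ2 i j h.symm
    · have h5 := hUC j i j' hjj
      rw [h] at h5
      exact hζ3 i j' h5
  · intro i i' h
    by_contra hne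
    obtain ⟨j, -⟩ := hJ2 (Classical.choice (by
      rcases hJ with ⟨κ, -⟩ | ⟨j1, -, -, -⟩
      · exact ⟨κ 0⟩
      · exact ⟨j1⟩))
    have h5 := hX i i' j (Ne.symm hne)
    rw [h] at h5
    exact hξ i' j h5
  · intro j j' h
    by_contra hne
    have h5 := hUC j (ι 0) j' (Ne.symm hne)
    rw [h] at h5
    exact hυ j' (ι 0) h5
  · intro i j i' j' h
    by_contra hne
    have h6 := hζ3 i' j'
    rw [← h] at h6
    by_cases hi : i' = i
    · by_cases hj : j' = j
      · exact hne ⟨hi.symm, hj.symm⟩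
      · rw [hi] at h6
        exact h6 (hZr i j j' hj)
    · by_cases hj : j' = j
      · rw [hj] at h6
        exact h6 (hZc i i' j hi)
      · exact h6 (hZx i j i' j' hi hj)

/-- The structure theorem in either orientation. -/
theorem gram_std' {I J : Type*} [DecidableEq I] [DecidableEq J] (b : I → J → X → ℤ)
    (hG : GramCond b)
    (h : ((∃ ι : Fin 4 → I, Function.Injective ι) ∧
        ((∃ κ : Fin 4 → J, Function.Injective κ) ∨ ∃ j1 j2 : J, j1 ≠ j2 ∧ ∀ j, j = j1 ∨ j = j2)) ∨
      ((∃ κ : Fin 4 → J, Function.Injective κ) ∧ ∃ i1 i2 : I, i1 ≠ i2 ∧ ∀ i, i = i1 ∨ i = i2)) :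
    ∃ (ξ : I → X) (υ : J → X) (ζ : I → J → X), StdForm b ξ υ ζ := by
  rcases h with ⟨hI, hJ⟩ | ⟨hJ, hI⟩
  · exact gram_std b hG hI hJ
  · have hG' : GramCond (fun j i => b i j) := by
      intro j i j' i'
      rw [hG i j i' j']
      by_cases h1 : i = i' <;> by_cases h2 : j = j' <;> simp [h1, h2]
    obtain ⟨υ, ξ, ζ, hstd⟩ := gram_std (fun j i => b i j) hG' hJ (Or.inr hI)
    exact ⟨ξ, υ, fun i j => ζ j i, hstd.transpose⟩

end Cfsg.Agent.Helper11
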