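import Mathlib

set_option autoImplicit false

namespace Cfsg.Agent.Helper11

open scoped IsMulCommutative in
theorem card_hom_of_comm {A : Type*} [Group A] [Finite A] (h : ∀ a b : A, a * b = b * a) :
    Nat.card (A →* ℂˣ) = Nat.card A := by
  have : IsMulCommutative A := ⟨⟨h⟩⟩
  exact CommGroup.card_monoidHom_of_hasEnoughRootsOfUnity A ℂ

section

variable {G : Type*} [Group G] (W₁ W₂ : Subgroup G)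

/-- The product map `W₁ × W₂ → G` for elementwise commuting subgroups. -/
noncomputable def prodMu (hcomm : ∀ a ∈ W₁, ∀ b ∈ W₂, a * b = b * a) : W₁ × W₂ →* G :=
  MonoidHom.noncommCoprod W₁.subtype W₂.subtype
    (fun a b => show Commute (W₁.subtype a) (W₂.subtype b) from hcomm a a.2 b b.2)

theorem prodMu_injective (hdisj : W₁ ⊓ W₂ = ⊥) (hcomm : ∀ a ∈ W₁, ∀ b ∈ W₂, a * b = b * a) :
    Function.Injective (prodMu W₁ W₂ hcomm) := by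
  refine (MonoidHom.noncommCoprod_injective _ _ _).mpr
    ⟨Subtype.val_injective, Subtype.val_injective, ?_⟩
  rw [Subgroup.range_subtype, Subgroup.range_subtype, disjoint_iff, hdisj]

theorem prodMu_range (hcomm : ∀ a ∈ W₁, ∀ b ∈ W₂, a * b = b * a) :
    (prodMu W₁ W₂ hcomm).range = W₁ ⊔ W₂ := by
  unfold prodMu
  rw [MonoidHom.noncommCoprod_range, Subgroup.range_subtype, Subgroup.range_subtype]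

/-- The internal direct product decomposition `W₁ × W₂ ≃* W₁ ⊔ W₂`. -/
noncomputable def prodEquiv (hdisj : W₁ ⊓ W₂ = ⊥) (hcomm : ∀ a ∈ W₁, ∀ b ∈ W₂, a * b = b * a) :
    W₁ × W₂ ≃* ↥(W₁ ⊔ W₂) :=
  (MonoidHom.ofInjective (prodMu_injective W₁ W₂ hdisj hcomm)).trans
    (MulEquiv.subgroupCongr (prodMu_range W₁ W₂ hcomm))

theorem prodEquiv_apply (hdisj : W₁ ⊓ W₂ = ⊥) (hcomm : ∀ a ∈ W₁, ∀ b ∈ W₂, a * b = b * a)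
    (p : W₁ × W₂) : ((prodEquiv W₁ W₂ hdisj hcomm p : ↥(W₁ ⊔ W₂)) : G) = (p.1 : G) * (p.2 : G) :=
  rfl

/-- First projection `W₁ ⊔ W₂ → W₁`. -/
noncomputable def proj₁ (hdisj : W₁ ⊓ W₂ = ⊥) (hcomm : ∀ a ∈ W₁, ∀ b ∈ W₂, a * b = b * a) :
    ↥(W₁ ⊔ W₂) →* W₁ :=
  (MonoidHom.fst W₁ W₂).comp (prodEquiv W₁ W₂ hdisj hcomm).symm.toMonoidHom

/-- Second projection `W₁ ⊔ W₂ → W₂`. -/
noncomputable def proj₂ (hdisj : W₁ ⊓ W₂ = ⊥) (hcomm : ∀ a ∈ W₁, ∀ b ∈ W₂, a * b = b * a) :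
    ↥(W₁ ⊔ W₂) →* W₂ :=
  (MonoidHom.snd W₁ W₂).comp (prodEquiv W₁ W₂ hdisj hcomm).symm.toMonoidHom

theorem proj_mul (hdisj : W₁ ⊓ W₂ = ⊥) (hcomm : ∀ a ∈ W₁, ∀ b ∈ W₂, a * b = b * a)
    (w : ↥(W₁ ⊔ W₂)) :
    (w : G) = (proj₁ W₁ W₂ hdisj hcomm w : G) * (proj₂ W₁ W₂ hdisj hcomm w : G) := by
  have h := prodEquiv_apply W₁ W₂ hdisj hcomm ((prodEquiv W₁ W₂ hdisj hcomm).symm w)
  rw [MulEquiv.apply_symm_apply] at h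
  exact h

theorem prodEquiv_symm_left (hdisj : W₁ ⊓ W₂ = ⊥) (hcomm : ∀ a ∈ W₁, ∀ b ∈ W₂, a * b = b * a)
    (w : ↥(W₁ ⊔ W₂)) (hw : (w : G) ∈ W₁) :
    (prodEquiv W₁ W₂ hdisj hcomm).symm w = (⟨w, hw⟩, 1) := by
  rw [MulEquiv.symm_apply_eq]
  apply Subtype.ext
  rw [prodEquiv_apply]
  simp

theorem prodEquiv_symm_right (hdisj : W₁ ⊓ W₂ = ⊥) (hcomm : ∀ a ∈ W₁, ∀ b ∈ W₂, a * b = b * a)
    (w : ↥(W₁ ⊔ W₂)) (hw : (w : G) ∈ W₂) :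
    (prodEquiv W₁ W₂ hdisj hcomm).symm w = (1, ⟨w, hw⟩) := by
  rw [MulEquiv.symm_apply_eq]
  apply Subtype.ext
  rw [prodEquiv_apply]
  simp

theorem proj₁_of_mem_left (hdisj : W₁ ⊓ W₂ = ⊥) (hcomm : ∀ a ∈ W₁, ∀ b ∈ W₂, a * b = b * a)
    (w : ↥(W₁ ⊔ W₂)) (hw : (w : G) ∈ W₁) : proj₁ W₁ W₂ hdisj hcomm w = ⟨w, hw⟩ := by
  show ((prodEquiv W₁ W₂ hdisj hcomm).symm w).1 = _
  rw [prodEquiv_symm_left W₁ W₂ hdisj hcomm w hw]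

theorem proj₂_of_mem_left (hdisj : W₁ ⊓ W₂ = ⊥) (hcomm : ∀ a ∈ W₁, ∀ b ∈ W₂, a * b = b * a)
    (w : ↥(W₁ ⊔ W₂)) (hw : (w : G) ∈ W₁) : proj₂ W₁ W₂ hdisj hcomm w = 1 := by
  show ((prodEquiv W₁ W₂ hdisj hcomm).symm w).2 = _
  rw [prodEquiv_symm_left W₁ W₂ hdisj hcomm w hw]

theorem proj₁_of_mem_right (hdisj : W₁ ⊓ W₂ = ⊥) (hcomm : ∀ a ∈ W₁, ∀ b ∈ W₂, a * b = b * a)
    (w : ↥(W₁ ⊔ W₂)) (hw : (w : G) ∈ W₂) : proj₁ W₁ W₂ hdisj hcomm w = 1 := by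
  show ((prodEquiv W₁ W₂ hdisj hcomm).symm w).1 = _
  rw [prodEquiv_symm_right W₁ W₂ hdisj hcomm w hw]

theorem proj₂_of_mem_right (hdisj : W₁ ⊓ W₂ = ⊥) (hcomm : ∀ a ∈ W₁, ∀ b ∈ W₂, a * b = b * a)
    (w : ↥(W₁ ⊔ W₂)) (hw : (w : G) ∈ W₂) : proj₂ W₁ W₂ hdisj hcomm w = ⟨w, hw⟩ := by
  show ((prodEquiv W₁ W₂ hdisj hcomm).symm w).2 = _
  rw [prodEquiv_symm_right W₁ W₂ hdisj hcomm w hw]

/-- Lift of a character of `W₁` to `W₁ ⊔ W₂`, trivial on `W₂`. -/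
noncomputable def lift₁ (hdisj : W₁ ⊓ W₂ = ⊥) (hcomm : ∀ a ∈ W₁, ∀ b ∈ W₂, a * b = b * a)
    (φ : W₁ →* ℂˣ) : ↥(W₁ ⊔ W₂) →* ℂˣ := φ.comp (proj₁ W₁ W₂ hdisj hcomm)

/-- Lift of a character of `W₂` to `W₁ ⊔ W₂`, trivial on `W₁`. -/
noncomputable def lift₂ (hdisj : W₁ ⊓ W₂ = ⊥) (hcomm : ∀ a ∈ W₁, ∀ b ∈ W₂, a * b = b * a)
    (ψ : W₂ →* ℂˣ) : ↥(W₁ ⊔ W₂) →* ℂˣ := ψ.comp (proj₂ W₁ W₂ hdisj hcomm)

/-- Restriction to `W₁`. -/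
def res₁ (ω : ↥(W₁ ⊔ W₂) →* ℂˣ) : W₁ →* ℂˣ := ω.comp (Subgroup.inclusion le_sup_left)

/-- Restriction to `W₂`. -/
def res₂ (ω : ↥(W₁ ⊔ W₂) →* ℂˣ) : W₂ →* ℂˣ := ω.comp (Subgroup.inclusion le_sup_right)

variable (hdisj : W₁ ⊓ W₂ = ⊥) (hcomm : ∀ a ∈ W₁, ∀ b ∈ W₂, a * b = b * a)

theorem lift₁_of_mem_right (φ : W₁ →* ℂˣ) (w : ↥(W₁ ⊔ W₂)) (hw : (w : G) ∈ W₂) :
    lift₁ W₁ W₂ hdisj hcomm φ w = 1 := by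
  show φ (proj₁ W₁ W₂ hdisj hcomm w) = 1
  rw [proj₁_of_mem_right W₁ W₂ hdisj hcomm w hw, map_one]

theorem lift₁_of_mem_left (φ : W₁ →* ℂˣ) (w : ↥(W₁ ⊔ W₂)) (hw : (w : G) ∈ W₁) :
    lift₁ W₁ W₂ hdisj hcomm φ w = φ ⟨w, hw⟩ := by
  show φ (proj₁ W₁ W₂ hdisj hcomm w) = _
  rw [proj₁_of_mem_left W₁ W₂ hdisj hcomm w hw]

theorem lift₂_of_mem_left (ψ : W₂ →* ℂˣ) (w : ↥(W₁ ⊔ W₂)) (hw : (w : G) ∈ W₁) :
    lift₂ W₁ W₂ hdisj hcomm ψ w = 1 := by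
  show ψ (proj₂ W₁ W₂ hdisj hcomm w) = 1
  rw [proj₂_of_mem_left W₁ W₂ hdisj hcomm w hw, map_one]

theorem lift₂_of_mem_right (ψ : W₂ →* ℂˣ) (w : ↥(W₁ ⊔ W₂)) (hw : (w : G) ∈ W₂) :
    lift₂ W₁ W₂ hdisj hcomm ψ w = ψ ⟨w, hw⟩ := by
  show ψ (proj₂ W₁ W₂ hdisj hcomm w) = _
  rw [proj₂_of_mem_right W₁ W₂ hdisj hcomm w hw]

theorem lift_res (ω : ↥(W₁ ⊔ W₂) →* ℂˣ) :
    lift₁ W₁ W₂ hdisj hcomm (res₁ W₁ W₂ ω) * lift₂ W₁ W₂ hdisj hcomm (res₂ W₁ W₂ ω) = ω := by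
  ext w
  show ((ω (Subgroup.inclusion le_sup_left (proj₁ W₁ W₂ hdisj hcomm w)) *
    ω (Subgroup.inclusion le_sup_right (proj₂ W₁ W₂ hdisj hcomm w)) : ℂˣ) : ℂ) = ω w
  rw [← map_mul]
  congr 2
  apply Subtype.ext
  exact (proj_mul W₁ W₂ hdisj hcomm w).symm

theorem res₁_lift (φ : W₁ →* ℂˣ) (ψ : W₂ →* ℂˣ) :
    res₁ W₁ W₂ (lift₁ W₁ W₂ hdisj hcomm φ * lift₂ W₁ W₂ hdisj hcomm ψ) = φ := by
  ext a
  show ((lift₁ W₁ W₂ hdisj hcomm φ (Subgroup.inclusion le_sup_left a) *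
    lift₂ W₁ W₂ hdisj hcomm ψ (Subgroup.inclusion le_sup_left a) : ℂˣ) : ℂ) = φ a
  rw [lift₁_of_mem_left W₁ W₂ hdisj hcomm φ _ a.2, lift₂_of_mem_left W₁ W₂ hdisj hcomm ψ _ a.2,
    mul_one]
  rfl

theorem res₂_lift (φ : W₁ →* ℂˣ) (ψ : W₂ →* ℂˣ) :
    res₂ W₁ W₂ (lift₁ W₁ W₂ hdisj hcomm φ * lift₂ W₁ W₂ hdisj hcomm ψ) = ψ := by
  ext b
  show ((lift₁ W₁ W₂ hdisj hcomm φ (Subgroup.inclusion le_sup_right b) *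
    lift₂ W₁ W₂ hdisj hcomm ψ (Subgroup.inclusion le_sup_right b) : ℂˣ) : ℂ) = ψ b
  rw [lift₁_of_mem_right W₁ W₂ hdisj hcomm φ _ b.2, lift₂_of_mem_right W₁ W₂ hdisj hcomm ψ _ b.2,
    one_mul]
  rfl

include hdisj hcomm in
theorem hom_eq_of_eq_on (ω ω' : ↥(W₁ ⊔ W₂) →* ℂˣ)
    (h₁ : ∀ w : ↥(W₁ ⊔ W₂), (w : G) ∈ W₁ → ω w = ω' w)
    (h₂ : ∀ w : ↥(W₁ ⊔ W₂), (w : G) ∈ W₂ → ω w = ω' w) : ω = ω' := by
  rw [← lift_res W₁ W₂ hdisj hcomm ω, ← lift_res W₁ W₂ hdisj hcomm ω']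
  have e1 : res₁ W₁ W₂ ω = res₁ W₁ W₂ ω' := by
    ext a
    show ((ω (Subgroup.inclusion le_sup_left a) : ℂˣ) : ℂ) = ω' (Subgroup.inclusion le_sup_left a)
    rw [h₁ _ a.2]
  have e2 : res₂ W₁ W₂ ω = res₂ W₁ W₂ ω' := by
    ext b
    show ((ω (Subgroup.inclusion le_sup_right b) : ℂˣ) : ℂ) =
      ω' (Subgroup.inclusion le_sup_right b)
    rw [h₂ _ b.2]
  rw [e1, e2]

end

/-- Dedekind: the linear characters of a group are linearly independent functions. -/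
theorem chars_linInd (W : Type*) [Group W] : LinearIndependent ℂ (M := W → ℂ)
    (fun ω : W →* ℂˣ => fun w : W => ((ω w : ℂˣ) : ℂ)) := by
  have h := linearIndependent_monoidHom W ℂ
  have hinj : Function.Injective (fun ω : W →* ℂˣ => (Units.coeHom ℂ).comp ω) := by
    intro ω ω' h
    ext w
    have := congrArg (fun f : W →* ℂ => f w) h
    simpa using this
  have h2 := h.comp (fun ω : W →* ℂˣ => (Units.coeHom ℂ).comp ω) hinj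
  have e : ((fun f : W →* ℂ => (f : W → ℂ)) ∘ (fun ω : W →* ℂˣ => (Units.coeHom ℂ).comp ω)) =
      (fun ω : W →* ℂˣ => fun w : W => ((ω w : ℂˣ) : ℂ)) := by
    funext ω w
    rfl
  rw [e] at h2
  exact h2

end Cfsg.Agent.Helper11
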