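import Cfsg.Prelude.Def_OddOrderChar
import Cfsg.Agent.Helper11.CyclicTI
import Cfsg.Agent.Helper11.ProdDecomp

set_option autoImplicit false

namespace Cfsg.Agent.Helper11

open Cfsg Finset

open scoped IsMulCommutative in
open scoped Classical in
/-- Orthogonality: the sum of all linear characters at `x` is `|A|` if `x = 1` and `0` else. -/
theorem sum_chars {A : Type*} [Group A] [Finite A] (h : ∀ a b : A, a * b = b * a)
    [Fintype (A →* ℂˣ)] (x : A) :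
    ∑ ω : A →* ℂˣ, ((ω x : ℂˣ) : ℂ) = if x = 1 then (Nat.card A : ℂ) else 0 := by
  have : IsMulCommutative A := ⟨⟨h⟩⟩
  by_cases hx : x = 1
  · rw [if_pos hx, hx]
    simp only [map_one, Units.val_one, Finset.sum_const, Finset.card_univ, nsmul_eq_mul, mul_one]
    rw [← Nat.card_eq_fintype_card, CommGroup.card_monoidHom_of_hasEnoughRootsOfUnity A ℂ]
  · rw [if_neg hx]
    obtain ⟨ω₁, hω₁⟩ := CommGroup.exists_apply_ne_one_of_hasEnoughRootsOfUnity A ℂ hx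
    have h1 : ∑ ω : A →* ℂˣ, ((ω x : ℂˣ) : ℂ) =
        ((ω₁ x : ℂˣ) : ℂ) * ∑ ω : A →* ℂˣ, ((ω x : ℂˣ) : ℂ) := by
      rw [Finset.mul_sum]
      rw [← Equiv.sum_comp (Equiv.mulLeft ω₁) (fun ω : A →* ℂˣ => ((ω x : ℂˣ) : ℂ))]
      apply Finset.sum_congr rfl
      intro ω _
      simp [MonoidHom.mul_apply]
    have h2 : (1 - ((ω₁ x : ℂˣ) : ℂ)) * ∑ ω : A →* ℂˣ, ((ω x : ℂˣ) : ℂ) = 0 := by
      linear_combination h1
    rcases mul_eq_zero.mp h2 with h3 | h3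
    · exfalso
      apply hω₁
      apply Units.ext
      rw [Units.val_one]
      linear_combination -h3
    · exact h3

/-- The inner product of `θ` with the function induced from `(1-φ)(1-ψ)`. -/
theorem cyclicTI_inner_alpha {G : Type*} [Group G] [Fintype G] (W₁ W₂ : Subgroup G)
    (χ : (↥(W₁ ⊔ W₂) →* ℂˣ) → (G → ℂ)) (hχ : IsCyclicTIFamily W₁ W₂ χ) (θ : G → ℂ)
    (φ ψ : ↥(W₁ ⊔ W₂) →* ℂˣ) (hφ₂ : ∀ w : ↥(W₁ ⊔ W₂), (w : G) ∈ W₂ → φ w = 1)
    (hψ₁ : ∀ w : ↥(W₁ ⊔ W₂), (w : G) ∈ W₁ → ψ w = 1) :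
    classInner θ (indFun (W₁ ⊔ W₂)
      (fun w => 1 - (φ w : ℂ) - (ψ w : ℂ) + (φ w : ℂ) * (ψ w : ℂ))) =
      classInner θ (χ 1) - classInner θ (χ φ) - classInner θ (χ ψ) + classInner θ (χ (φ * ψ)) := by
  have hzero : ∀ f : ↥(W₁ ⊔ W₂) → ℂ, (∀ w, f w = 0) → classInner θ (indFun (W₁ ⊔ W₂) f) = 0 := by
    intro f hf
    have hf' : f = fun _ => 0 := funext hf
    have : indFun (W₁ ⊔ W₂) f = fun _ => 0 := by
      funext g
      rw [Cfsg.Agent.Helper2.indFun_apply, Finset.sum_eq_zero, mul_zero]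
      intro x _
      by_cases hx : x⁻¹ * g * x ∈ W₁ ⊔ W₂
      · rw [Cfsg.Agent.Helper2.extendByZero_of_mem _ _ hx, hf]
      · rw [Cfsg.Agent.Helper2.extendByZero_of_not_mem _ _ hx]
    rw [this]
    unfold classInner
    simp
  by_cases h1 : φ = 1
  · subst h1
    rw [one_mul ψ, hzero]
    · ring
    · intro w; simp
  by_cases h2 : ψ = 1
  · subst h2
    rw [mul_one φ, hzero]
    · ring
    · intro w; simp
  rw [hχ.induced_eq φ ψ h1 h2 hφ₂ hψ₁,
    classInner_add_right θ (fun g => 1 - χ φ g - χ ψ g) (χ (φ * ψ)),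
    classInner_sub_right θ (fun g => 1 - χ φ g) (χ ψ),
    classInner_sub_right θ (fun _ => 1) (χ φ), ← hχ.map_one]

end Cfsg.Agent.Helper11
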