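import Cfsg.Prelude.Def_Characters
import Cfsg.Agent.Helper25.CharBasic

set_option autoImplicit false

namespace Cfsg.Agent.Helper11

open Cfsg

theorem signed_irr {X : Type*} [Group X] {α : X → ℂ}
    (h : IsIrrCharacter X α ∨ IsIrrCharacter X (-α)) :
    ∃ (ε : ℝ) (χ : IrrCharacter X), (ε = 1 ∨ ε = -1) ∧
      α = fun g => (ε : ℂ) * (χ : X → ℂ) g := by
  rcases h with h | h
  · exact ⟨1, ⟨α, h⟩, Or.inl rfl, by funext g; simp⟩
  · exact ⟨-1, ⟨-α, h⟩, Or.inr rfl, by funext g; simp⟩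

theorem classInner_smul_smul {X : Type*} [Group X] [Fintype X] (a b : ℝ) (f h : X → ℂ) :
    classInner (fun g => (a : ℂ) * f g) (fun g => (b : ℂ) * h g) =
      (a : ℂ) * (b : ℂ) * classInner f h := by
  unfold classInner
  simp only [map_mul, Complex.conj_ofReal]
  rw [Finset.mul_sum, Finset.mul_sum, Finset.mul_sum]
  apply Finset.sum_congr rfl
  intro g _
  ring

theorem classInner_signed_irr {X : Type*} [Group X] [Fintype X] (a b : ℝ) (χ ψ : IrrCharacter X) :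
    classInner (fun g => (a : ℂ) * (χ : X → ℂ) g) (fun g => (b : ℂ) * (ψ : X → ℂ) g) =
      (a : ℂ) * (b : ℂ) * (if χ = ψ then 1 else 0) := by
  rw [classInner_smul_smul, Cfsg.Agent.Helper25.irr_classInner]

theorem classInner_sub_smul_sub {X : Type*} [Group X] [Fintype X] (f₁ f₂ g₁ g₂ : X → ℂ)
    (c₁ c₂ : ℂ) :
    classInner (f₁ - f₂) (c₁ • g₁ - c₂ • g₂) =
      (starRingEnd ℂ) c₁ * classInner f₁ g₁ - (starRingEnd ℂ) c₂ * classInner f₁ g₂
        - (starRingEnd ℂ) c₁ * classInner f₂ g₁ + (starRingEnd ℂ) c₂ * classInner f₂ g₂ := by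
  unfold classInner
  have : ∑ g : X, (f₁ - f₂) g * (starRingEnd ℂ) ((c₁ • g₁ - c₂ • g₂) g) =
      (starRingEnd ℂ) c₁ * ∑ g : X, f₁ g * (starRingEnd ℂ) (g₁ g)
        - (starRingEnd ℂ) c₂ * ∑ g : X, f₁ g * (starRingEnd ℂ) (g₂ g)
        - (starRingEnd ℂ) c₁ * ∑ g : X, f₂ g * (starRingEnd ℂ) (g₁ g)
        + (starRingEnd ℂ) c₂ * ∑ g : X, f₂ g * (starRingEnd ℂ) (g₂ g) := by
    simp only [Finset.mul_sum, ← Finset.sum_sub_distrib, ← Finset.sum_add_distrib]
    apply Finset.sum_congr rfl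
    intro g _
    simp only [Pi.sub_apply, Pi.smul_apply, smul_eq_mul, map_sub, map_mul]
    ring
  rw [this]
  ring

end Cfsg.Agent.Helper11
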