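import Mathlib
import Cfsg.Prelude.Def_OddOrderChar
import Cfsg.Prelude.Def_OddOrderLocal
import Cfsg.Agent.Helper2.CharExtra
import Cfsg.Agent.Helper7.LinChar
import Cfsg.Agent.Helper11.CycTI3
import Cfsg.Agent.Helper11.CyclicTI2
import Cfsg.Agent.Helper11.SignedIrr

/-!
# Existence of a cyclic TI family: character-theoretic lemmas (helper11)
-/

set_option autoImplicit false
set_option linter.unusedSimpArgs false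
set_option linter.unusedTactic false
set_option linter.unreachableTactic false

namespace Cfsg.Agent.Helper11

open Cfsg Finset

/-- An instance-free indicator. -/
noncomputable def ind01 (p : Prop) : ℂ := @ite ℂ p (Classical.propDecidable p) 1 0

theorem ind01_pos {p : Prop} (h : p) : ind01 p = 1 := by
  unfold ind01; rw [if_pos h]

theorem ind01_neg {p : Prop} (h : ¬ p) : ind01 p = 0 := by
  unfold ind01; rw [if_neg h]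

theorem conj_hom {A : Type*} [Group A] [Finite A] (ω : A →* ℂˣ) (a : A) :
    (starRingEnd ℂ) ((ω a : ℂˣ) : ℂ) = ((ω a⁻¹ : ℂˣ) : ℂ) := by
  have h1 : ((ω a : ℂˣ) : ℂ) ^ (Nat.card A) = 1 := by
    rw [← Units.val_pow_eq_pow_val, ← map_pow, pow_card_eq_one', map_one, Units.val_one]
  have h2 : ‖((ω a : ℂˣ) : ℂ)‖ = 1 :=
    Complex.norm_eq_one_of_pow_eq_one h1 Nat.card_pos.ne'
  rw [map_inv, Units.val_inv_eq_inv_val, Complex.inv_eq_conj h2]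

theorem classInner_int_smul {X : Type*} [Group X] [Fintype X] (m n : ℤ) (f h : X → ℂ) :
    classInner (fun g => (m : ℂ) * f g) (fun g => (n : ℂ) * h g) =
      (m : ℂ) * (n : ℂ) * classInner f h := by
  unfold classInner
  simp only [map_mul, map_intCast]
  rw [Finset.mul_sum, Finset.mul_sum, Finset.mul_sum]
  apply Finset.sum_congr rfl
  intro g _
  ring

open Classical in
theorem cyclicTI_inner_diff {G : Type*} [Group G] [Fintype G] (W₁ W₂ : Subgroup G)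
    [Fintype ↥(W₁ ⊔ W₂)]
    (χ : (↥(W₁ ⊔ W₂) →* ℂˣ) → (G → ℂ))
    (hcf : ∀ ω, IsClassFunction G (χ ω))
    (horth1 : ∀ ω, classInner (χ ω) (χ ω) = 1)
    (horth0 : ∀ ω ω', ω ≠ ω' → classInner (χ ω) (χ ω') = 0)
    (hone : χ 1 = fun _ => 1)
    (hind : ∀ φ ψ : ↥(W₁ ⊔ W₂) →* ℂˣ, φ ≠ 1 → ψ ≠ 1 →
      (∀ w : ↥(W₁ ⊔ W₂), (w : G) ∈ W₂ → φ w = 1) → (∀ w : ↥(W₁ ⊔ W₂), (w : G) ∈ W₁ → ψ w = 1) →
      indFun (W₁ ⊔ W₂) (fun w => 1 - (φ w : ℂ) - (ψ w : ℂ) + (φ w : ℂ) * (ψ w : ℂ)) =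
        fun g => 1 - χ φ g - χ ψ g + χ (φ * ψ) g)
    (ω φ ψ : ↥(W₁ ⊔ W₂) →* ℂˣ) (hφ2 : ∀ w : ↥(W₁ ⊔ W₂), (w : G) ∈ W₂ → φ w = 1)
    (hψ1 : ∀ w : ↥(W₁ ⊔ W₂), (w : G) ∈ W₁ → ψ w = 1) :
    classInner (fun w : ↥(W₁ ⊔ W₂) => 1 - ((φ w : ℂˣ) : ℂ) - ((ψ w : ℂˣ) : ℂ)
        + ((φ w : ℂˣ) : ℂ) * ((ψ w : ℂˣ) : ℂ))
      (fun w : ↥(W₁ ⊔ W₂) => χ ω w - ((ω w : ℂˣ) : ℂ)) = 0 := by
  have horth : ∀ ω ω', classInner (χ ω) (χ ω') = if ω = ω' then 1 else 0 := by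
    intro ω ω'
    by_cases h : ω = ω'
    · rw [if_pos h, h]; exact horth1 ω'
    · rw [if_neg h]; exact horth0 ω ω' h
  by_cases h1 : φ = 1
  · have e : (fun w : ↥(W₁ ⊔ W₂) => 1 - ((φ w : ℂˣ) : ℂ) - ((ψ w : ℂˣ) : ℂ)
        + ((φ w : ℂˣ) : ℂ) * ((ψ w : ℂˣ) : ℂ)) = fun _ => 0 := by
      funext w; rw [h1]; simp
    rw [e]; unfold classInner; simp
  by_cases h2 : ψ = 1
  · have e : (fun w : ↥(W₁ ⊔ W₂) => 1 - ((φ w : ℂˣ) : ℂ) - ((ψ w : ℂˣ) : ℂ)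
        + ((φ w : ℂˣ) : ℂ) * ((ψ w : ℂˣ) : ℂ)) = fun _ => 0 := by
      funext w; rw [h2]; simp
    rw [e]; unfold classInner; simp
  rw [classInner_sub_right _ (fun w : ↥(W₁ ⊔ W₂) => χ ω w)
      (fun w : ↥(W₁ ⊔ W₂) => ((ω w : ℂˣ) : ℂ)),
    classInner_alpha_hom φ ψ ω,
    ← Cfsg.Agent.Helper2.frobenius_reciprocity (W₁ ⊔ W₂) _ (χ ω) (hcf ω),
    hind φ ψ h1 h2 hφ2 hψ1]
  have e : (fun g => 1 - χ φ g - χ ψ g + χ (φ * ψ) g) =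
      (fun g => χ 1 g - χ φ g - χ ψ g + χ (φ * ψ) g) := by
    funext g; rw [hone]
  rw [e, classInner_add_left (fun g => χ 1 g - χ φ g - χ ψ g) (χ (φ * ψ)),
    classInner_sub_left (fun g => χ 1 g - χ φ g) (χ ψ), classInner_sub_left (χ 1) (χ φ),
    horth, horth, horth, horth]
  ring

open Classical in
/-- The values of a cyclic TI family on `W ∖ (W₁ ∪ W₂)` are forced by the other axioms. -/
theorem cyclicTI_eq_on {G : Type*} [Group G] [Fintype G] (W₁ W₂ : Subgroup G)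
    (hdisj : W₁ ⊓ W₂ = ⊥) (hcomm : ∀ a ∈ W₁, ∀ b ∈ W₂, a * b = b * a)
    (hab : ∀ a b : ↥(W₁ ⊔ W₂), a * b = b * a)
    (χ : (↥(W₁ ⊔ W₂) →* ℂˣ) → (G → ℂ))
    (hcf : ∀ ω, IsClassFunction G (χ ω))
    (horth1 : ∀ ω, classInner (χ ω) (χ ω) = 1)
    (horth0 : ∀ ω ω', ω ≠ ω' → classInner (χ ω) (χ ω') = 0)
    (hone : χ 1 = fun _ => 1)
    (hind : ∀ φ ψ : ↥(W₁ ⊔ W₂) →* ℂˣ, φ ≠ 1 → ψ ≠ 1 →
      (∀ w : ↥(W₁ ⊔ W₂), (w : G) ∈ W₂ → φ w = 1) → (∀ w : ↥(W₁ ⊔ W₂), (w : G) ∈ W₁ → ψ w = 1) →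
      indFun (W₁ ⊔ W₂) (fun w => 1 - (φ w : ℂ) - (ψ w : ℂ) + (φ w : ℂ) * (ψ w : ℂ)) =
        fun g => 1 - χ φ g - χ ψ g + χ (φ * ψ) g)
    (ω : ↥(W₁ ⊔ W₂) →* ℂˣ) (w0 : ↥(W₁ ⊔ W₂)) (hw01 : (w0 : G) ∉ W₁) (hw02 : (w0 : G) ∉ W₂) :
    χ ω w0 = ((ω w0 : ℂˣ) : ℂ) := by
  have _instW : Fintype ↥(W₁ ⊔ W₂) := Fintype.ofFinite _
  have hfin : Finite (↥(W₁ ⊔ W₂) →* ℂˣ) :=
    Nat.finite_of_card_ne_zero (by rw [card_hom_of_comm hab]; exact Nat.card_pos.ne')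
  have _instH : Fintype (↥(W₁ ⊔ W₂) →* ℂˣ) := Fintype.ofFinite _
  have hcardne : (Nat.card ↥(W₁ ⊔ W₂) : ℂ) ≠ 0 := by exact_mod_cast Nat.card_pos.ne'
  obtain ⟨α, hα⟩ : ∃ α : (↥(W₁ ⊔ W₂) →* ℂˣ) → ↥(W₁ ⊔ W₂) → ℂ, ∀ ω' w, α ω' w =
      1 - ((lift₁ W₁ W₂ hdisj hcomm (res₁ W₁ W₂ ω') w : ℂˣ) : ℂ)
        - ((lift₂ W₁ W₂ hdisj hcomm (res₂ W₁ W₂ ω') w : ℂˣ) : ℂ)
        + ((lift₁ W₁ W₂ hdisj hcomm (res₁ W₁ W₂ ω') w : ℂˣ) : ℂ) *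
          ((lift₂ W₁ W₂ hdisj hcomm (res₂ W₁ W₂ ω') w : ℂˣ) : ℂ) := ⟨_, fun _ _ => rfl⟩
  have step1 : ∀ ω' : ↥(W₁ ⊔ W₂) →* ℂˣ,
      ∑ w : ↥(W₁ ⊔ W₂), α ω' w * (starRingEnd ℂ) (χ ω w - ((ω w : ℂˣ) : ℂ)) = 0 := by
    intro ω'
    have h5 := cyclicTI_inner_diff W₁ W₂ χ hcf horth1 horth0 hone hind ω
      (lift₁ W₁ W₂ hdisj hcomm (res₁ W₁ W₂ ω')) (lift₂ W₁ W₂ hdisj hcomm (res₂ W₁ W₂ ω'))
      (fun w hw => lift₁_of_mem_right W₁ W₂ hdisj hcomm _ w hw)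
      (fun w hw => lift₂_of_mem_left W₁ W₂ hdisj hcomm _ w hw)
    unfold classInner at h5
    rcases mul_eq_zero.mp h5 with h | h
    · exact absurd (inv_eq_zero.mp h) hcardne
    · refine Eq.trans (Finset.sum_congr rfl (fun w _ => ?_)) h
      rw [hα]
  have step2 : ∀ w : ↥(W₁ ⊔ W₂), ∑ ω' : ↥(W₁ ⊔ W₂) →* ℂˣ,
      (starRingEnd ℂ) ((ω' w0 : ℂˣ) : ℂ) * α ω' w =
        if w = w0 then (Nat.card ↥(W₁ ⊔ W₂) : ℂ) else 0 := by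
    intro w
    have hterm : ∀ ω' : ↥(W₁ ⊔ W₂) →* ℂˣ, (starRingEnd ℂ) ((ω' w0 : ℂˣ) : ℂ) * α ω' w =
        ((ω' w0⁻¹ : ℂˣ) : ℂ)
        - ((ω' (w0⁻¹ * Subgroup.inclusion le_sup_left (proj₁ W₁ W₂ hdisj hcomm w)) : ℂˣ) : ℂ)
        - ((ω' (w0⁻¹ * Subgroup.inclusion le_sup_right (proj₂ W₁ W₂ hdisj hcomm w)) : ℂˣ) : ℂ)
        + ((ω' (w0⁻¹ * w) : ℂˣ) : ℂ) := by
      intro ω'
      have e1 : lift₁ W₁ W₂ hdisj hcomm (res₁ W₁ W₂ ω') w =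
          ω' (Subgroup.inclusion le_sup_left (proj₁ W₁ W₂ hdisj hcomm w)) := rfl
      have e2 : lift₂ W₁ W₂ hdisj hcomm (res₂ W₁ W₂ ω') w =
          ω' (Subgroup.inclusion le_sup_right (proj₂ W₁ W₂ hdisj hcomm w)) := rfl
      have e3 : ω' (Subgroup.inclusion le_sup_left (proj₁ W₁ W₂ hdisj hcomm w)) *
          ω' (Subgroup.inclusion le_sup_right (proj₂ W₁ W₂ hdisj hcomm w)) = ω' w := by
        have h5 := congrArg (fun f : ↥(W₁ ⊔ W₂) →* ℂˣ => f w) (lift_res W₁ W₂ hdisj hcomm ω')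
        exact h5
      have hc := conj_hom ω' w0
      have m1 : ((ω' (w0⁻¹ * Subgroup.inclusion le_sup_left (proj₁ W₁ W₂ hdisj hcomm w)) : ℂˣ) : ℂ)
          = ((ω' w0⁻¹ : ℂˣ) : ℂ) *
            ((ω' (Subgroup.inclusion le_sup_left (proj₁ W₁ W₂ hdisj hcomm w)) : ℂˣ) : ℂ) := by
        rw [map_mul ω', Units.val_mul]
      have m2 : ((ω' (w0⁻¹ * Subgroup.inclusion le_sup_right (proj₂ W₁ W₂ hdisj hcomm w)) : ℂˣ) : ℂ)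
          = ((ω' w0⁻¹ : ℂˣ) : ℂ) *
            ((ω' (Subgroup.inclusion le_sup_right (proj₂ W₁ W₂ hdisj hcomm w)) : ℂˣ) : ℂ) := by
        rw [map_mul ω', Units.val_mul]
      have m3 : ((ω' (w0⁻¹ * w) : ℂˣ) : ℂ) = ((ω' w0⁻¹ : ℂˣ) : ℂ) *
          (((ω' (Subgroup.inclusion le_sup_left (proj₁ W₁ W₂ hdisj hcomm w)) : ℂˣ) : ℂ) *
            ((ω' (Subgroup.inclusion le_sup_right (proj₂ W₁ W₂ hdisj hcomm w)) : ℂˣ) : ℂ)) := by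
        rw [map_mul ω', Units.val_mul, ← e3, Units.val_mul]
      rw [hα, e1, e2, hc, m1, m2, m3]
      ring
    rw [Finset.sum_congr rfl (fun ω' _ => hterm ω'), Finset.sum_add_distrib,
      Finset.sum_sub_distrib, Finset.sum_sub_distrib, sum_chars hab, sum_chars hab,
      sum_chars hab, sum_chars hab]
    have c1 : w0⁻¹ ≠ 1 := by
      intro h
      apply hw01
      rw [inv_eq_one.mp h]
      exact W₁.one_mem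
    have c2 : w0⁻¹ * Subgroup.inclusion le_sup_left (proj₁ W₁ W₂ hdisj hcomm w) ≠ 1 := by
      intro h
      have h5 : w0 = Subgroup.inclusion le_sup_left (proj₁ W₁ W₂ hdisj hcomm w) :=
        inv_mul_eq_one.mp h
      apply hw01
      rw [h5]
      exact (proj₁ W₁ W₂ hdisj hcomm w).2
    have c3 : w0⁻¹ * Subgroup.inclusion le_sup_right (proj₂ W₁ W₂ hdisj hcomm w) ≠ 1 := by
      intro h
      have h5 : w0 = Subgroup.inclusion le_sup_right (proj₂ W₁ W₂ hdisj hcomm w) :=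
        inv_mul_eq_one.mp h
      apply hw02
      rw [h5]
      exact (proj₂ W₁ W₂ hdisj hcomm w).2
    rw [if_neg c1, if_neg c2, if_neg c3]
    by_cases hw : w = w0
    · rw [if_pos hw, if_pos (by rw [hw]; exact inv_mul_cancel w0)]; ring
    · rw [if_neg hw, if_neg (fun h => hw (inv_mul_eq_one.mp h).symm)]; ring
  have total : ∑ w : ↥(W₁ ⊔ W₂),
      (∑ ω' : ↥(W₁ ⊔ W₂) →* ℂˣ, (starRingEnd ℂ) ((ω' w0 : ℂˣ) : ℂ) * α ω' w) *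
        (starRingEnd ℂ) (χ ω w - ((ω w : ℂˣ) : ℂ)) = 0 := by
    simp only [Finset.sum_mul]
    rw [Finset.sum_comm]
    apply Finset.sum_eq_zero
    intro ω' _
    have h5 := step1 ω'
    have h6 : ∑ w : ↥(W₁ ⊔ W₂), (starRingEnd ℂ) ((ω' w0 : ℂˣ) : ℂ) * α ω' w *
          (starRingEnd ℂ) (χ ω w - ((ω w : ℂˣ) : ℂ)) =
        (starRingEnd ℂ) ((ω' w0 : ℂˣ) : ℂ) *
          ∑ w : ↥(W₁ ⊔ W₂), α ω' w * (starRingEnd ℂ) (χ ω w - ((ω w : ℂˣ) : ℂ)) := by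
      rw [Finset.mul_sum]
      apply Finset.sum_congr rfl
      intro w _
      ring
    rw [h6, h5, mul_zero]
  have total' : ∑ w : ↥(W₁ ⊔ W₂), (if w = w0 then (Nat.card ↥(W₁ ⊔ W₂) : ℂ) else 0) *
      (starRingEnd ℂ) (χ ω w - ((ω w : ℂˣ) : ℂ)) = 0 := by
    refine Eq.trans (Finset.sum_congr rfl (fun w _ => ?_)) total
    rw [step2 w]
  rw [Finset.sum_eq_single w0 (fun w _ hw => by rw [if_neg hw, zero_mul])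
    (fun h => absurd (Finset.mem_univ _) h), if_pos rfl] at total'
  rcases mul_eq_zero.mp total' with h | h
  · exact absurd h hcardne
  · exact sub_eq_zero.mp ((map_eq_zero (starRingEnd ℂ)).mp h)

open Classical in
theorem classInner_alpha_alpha {A : Type*} [Group A] [Fintype A] (φ ψ φ' ψ' : A →* ℂˣ) :
    classInner (fun w => 1 - ((φ w : ℂˣ) : ℂ) - ((ψ w : ℂˣ) : ℂ)
        + ((φ w : ℂˣ) : ℂ) * ((ψ w : ℂˣ) : ℂ))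
      (fun w => 1 - ((φ' w : ℂˣ) : ℂ) - ((ψ' w : ℂˣ) : ℂ)
        + ((φ' w : ℂˣ) : ℂ) * ((ψ' w : ℂˣ) : ℂ)) =
      ((if (1 : A →* ℂˣ) = 1 then 1 else 0) - (if φ = 1 then 1 else 0) - (if ψ = 1 then 1 else 0)
        + (if φ * ψ = 1 then 1 else 0))
      - ((if (1 : A →* ℂˣ) = φ' then 1 else 0) - (if φ = φ' then 1 else 0)
        - (if ψ = φ' then 1 else 0) + (if φ * ψ = φ' then 1 else 0))
      - ((if (1 : A →* ℂˣ) = ψ' then 1 else 0) - (if φ = ψ' then 1 else 0)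
        - (if ψ = ψ' then 1 else 0) + (if φ * ψ = ψ' then 1 else 0))
      + ((if (1 : A →* ℂˣ) = φ' * ψ' then 1 else 0) - (if φ = φ' * ψ' then 1 else 0)
        - (if ψ = φ' * ψ' then 1 else 0) + (if φ * ψ = φ' * ψ' then 1 else 0)) := by
  have e : (fun w : A => 1 - ((φ' w : ℂˣ) : ℂ) - ((ψ' w : ℂˣ) : ℂ)
        + ((φ' w : ℂˣ) : ℂ) * ((ψ' w : ℂˣ) : ℂ)) =
      (fun w : A => (((1 : A →* ℂˣ) w : ℂˣ) : ℂ) - ((φ' w : ℂˣ) : ℂ) - ((ψ' w : ℂˣ) : ℂ)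
        + (((φ' * ψ') w : ℂˣ) : ℂ)) := by
    funext w; simp
  rw [e, classInner_add_right _
      (fun w : A => (((1 : A →* ℂˣ) w : ℂˣ) : ℂ) - ((φ' w : ℂˣ) : ℂ) - ((ψ' w : ℂˣ) : ℂ))
      (fun w : A => (((φ' * ψ') w : ℂˣ) : ℂ)),
    classInner_sub_right _ (fun w : A => (((1 : A →* ℂˣ) w : ℂˣ) : ℂ) - ((φ' w : ℂˣ) : ℂ))
      (fun w : A => ((ψ' w : ℂˣ) : ℂ)),
    classInner_sub_right _ (fun w : A => (((1 : A →* ℂˣ) w : ℂˣ) : ℂ))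
      (fun w : A => ((φ' w : ℂˣ) : ℂ)),
    classInner_alpha_hom, classInner_alpha_hom, classInner_alpha_hom, classInner_alpha_hom]

section

variable {G : Type*} [Group G] (W₁ W₂ : Subgroup G) (hdisj : W₁ ⊓ W₂ = ⊥)
  (hcomm : ∀ a ∈ W₁, ∀ b ∈ W₂, a * b = b * a)

theorem res₁_lift₁ (u : W₁ →* ℂˣ) : res₁ W₁ W₂ (lift₁ W₁ W₂ hdisj hcomm u) = u := by
  ext a
  show ((lift₁ W₁ W₂ hdisj hcomm u (Subgroup.inclusion le_sup_left a) : ℂˣ) : ℂ) = u a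
  rw [lift₁_of_mem_left W₁ W₂ hdisj hcomm u _ a.2]
  rfl

theorem res₂_lift₁ (u : W₁ →* ℂˣ) : res₂ W₁ W₂ (lift₁ W₁ W₂ hdisj hcomm u) = 1 := by
  ext b
  show ((lift₁ W₁ W₂ hdisj hcomm u (Subgroup.inclusion le_sup_right b) : ℂˣ) : ℂ) =
    (((1 : W₂ →* ℂˣ) b : ℂˣ) : ℂ)
  rw [lift₁_of_mem_right W₁ W₂ hdisj hcomm u _ b.2]
  rfl

theorem res₁_lift₂ (v : W₂ →* ℂˣ) : res₁ W₁ W₂ (lift₂ W₁ W₂ hdisj hcomm v) = 1 := by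
  ext a
  show ((lift₂ W₁ W₂ hdisj hcomm v (Subgroup.inclusion le_sup_left a) : ℂˣ) : ℂ) =
    (((1 : W₁ →* ℂˣ) a : ℂˣ) : ℂ)
  rw [lift₂_of_mem_left W₁ W₂ hdisj hcomm v _ a.2]
  rfl

theorem res₂_lift₂ (v : W₂ →* ℂˣ) : res₂ W₁ W₂ (lift₂ W₁ W₂ hdisj hcomm v) = v := by
  ext b
  show ((lift₂ W₁ W₂ hdisj hcomm v (Subgroup.inclusion le_sup_right b) : ℂˣ) : ℂ) = v b
  rw [lift₂_of_mem_right W₁ W₂ hdisj hcomm v _ b.2]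
  rfl

theorem hom_mul_one' {A : Type*} [Group A] (u : A →* ℂˣ) : u * 1 = u := mul_one u

theorem hom_one_mul' {A : Type*} [Group A] (u : A →* ℂˣ) : 1 * u = u := one_mul u

theorem res₁_mul (ω ω' : ↥(W₁ ⊔ W₂) →* ℂˣ) :
    res₁ W₁ W₂ (ω * ω') = res₁ W₁ W₂ ω * res₁ W₁ W₂ ω' := rfl

theorem res₂_mul (ω ω' : ↥(W₁ ⊔ W₂) →* ℂˣ) :
    res₂ W₁ W₂ (ω * ω') = res₂ W₁ W₂ ω * res₂ W₁ W₂ ω' := rfl

theorem res₁_one : res₁ W₁ W₂ (1 : ↥(W₁ ⊔ W₂) →* ℂˣ) = 1 := rfl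

theorem res₂_one : res₂ W₁ W₂ (1 : ↥(W₁ ⊔ W₂) →* ℂˣ) = 1 := rfl

include hdisj hcomm in
theorem hom_eq_iff_res (ω ω' : ↥(W₁ ⊔ W₂) →* ℂˣ) :
    ω = ω' ↔ res₁ W₁ W₂ ω = res₁ W₁ W₂ ω' ∧ res₂ W₁ W₂ ω = res₂ W₁ W₂ ω' := by
  constructor
  · rintro rfl; exact ⟨rfl, rfl⟩
  · rintro ⟨h1, h2⟩
    rw [← lift_res W₁ W₂ hdisj hcomm ω, ← lift_res W₁ W₂ hdisj hcomm ω', h1, h2]

open Classical in
theorem gramW [Fintype ↥(W₁ ⊔ W₂)] (u u' : W₁ →* ℂˣ) (v v' : W₂ →* ℂˣ) (hu : u ≠ 1)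
    (hv : v ≠ 1) (hu' : u' ≠ 1) (hv' : v' ≠ 1) :
    classInner (fun w : ↥(W₁ ⊔ W₂) => 1 - ((lift₁ W₁ W₂ hdisj hcomm u w : ℂˣ) : ℂ)
        - ((lift₂ W₁ W₂ hdisj hcomm v w : ℂˣ) : ℂ)
        + ((lift₁ W₁ W₂ hdisj hcomm u w : ℂˣ) : ℂ) * ((lift₂ W₁ W₂ hdisj hcomm v w : ℂˣ) : ℂ))
      (fun w : ↥(W₁ ⊔ W₂) => 1 - ((lift₁ W₁ W₂ hdisj hcomm u' w : ℂˣ) : ℂ)
        - ((lift₂ W₁ W₂ hdisj hcomm v' w : ℂˣ) : ℂ)
        + ((lift₁ W₁ W₂ hdisj hcomm u' w : ℂˣ) : ℂ) * ((lift₂ W₁ W₂ hdisj hcomm v' w : ℂˣ) : ℂ)) =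
      1 + ind01 (u = u') + ind01 (v = v') + ind01 (u = u' ∧ v = v') := by
  rw [classInner_alpha_alpha]
  simp only [hom_eq_iff_res W₁ W₂ hdisj hcomm, res₁_mul, res₂_mul, res₁_one, res₂_one,
    res₁_lift₁, res₂_lift₁, res₁_lift₂, res₂_lift₂, hom_mul_one', hom_one_mul']
  by_cases h1 : u = u'
  · subst h1
    by_cases h2 : v = v'
    · subst h2
      simp [ind01, hu, hv, Ne.symm hu, Ne.symm hv] <;> norm_num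
    · simp [ind01, hu, hv, hv', Ne.symm hu, Ne.symm hv, Ne.symm hv', h2, Ne.symm h2] <;> norm_num
  · by_cases h2 : v = v'
    · subst h2
      simp [ind01, hu, hv, hu', Ne.symm hu, Ne.symm hv, Ne.symm hu', h1, Ne.symm h1] <;> norm_num
    · simp [ind01, hu, hv, hu', hv', Ne.symm hu, Ne.symm hv, Ne.symm hu', Ne.symm hv', h1, h2,
        Ne.symm h1, Ne.symm h2] <;> norm_num

theorem alpha_vanish (u : W₁ →* ℂˣ) (v : W₂ →* ℂˣ) (x : ↥(W₁ ⊔ W₂))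
    (hx : (x : G) ∉ ((↑(W₁ ⊔ W₂) : Set G) \ (↑W₁ ∪ ↑W₂))) :
    1 - ((lift₁ W₁ W₂ hdisj hcomm u x : ℂˣ) : ℂ) - ((lift₂ W₁ W₂ hdisj hcomm v x : ℂˣ) : ℂ)
      + ((lift₁ W₁ W₂ hdisj hcomm u x : ℂˣ) : ℂ) * ((lift₂ W₁ W₂ hdisj hcomm v x : ℂˣ) : ℂ) = 0 := by
  have hx' : (x : G) ∈ W₁ ∨ (x : G) ∈ W₂ := by
    by_contra hcon
    push Not at hcon
    exact hx ⟨x.2, fun h => by
      rcases h with h | h
      · exact hcon.1 h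
      · exact hcon.2 h⟩
  rcases hx' with h | h
  · rw [lift₂_of_mem_left W₁ W₂ hdisj hcomm v x h]
    simp only [Units.val_one]; ring
  · rw [lift₁_of_mem_right W₁ W₂ hdisj hcomm u x h]
    simp only [Units.val_one]; ring

include hdisj in
theorem exists_mem_T (h1 : W₁ ≠ ⊥) (h2 : W₂ ≠ ⊥) :
    ((↑(W₁ ⊔ W₂) : Set G) \ (↑W₁ ∪ ↑W₂)).Nonempty := by
  have e1 : ∃ a ∈ W₁, a ≠ 1 := by
    by_contra hcon
    push Not at hcon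
    exact h1 ((Subgroup.eq_bot_iff_forall _).mpr hcon)
  have e2 : ∃ b ∈ W₂, b ≠ 1 := by
    by_contra hcon
    push Not at hcon
    exact h2 ((Subgroup.eq_bot_iff_forall _).mpr hcon)
  obtain ⟨a, ha, ha1⟩ := e1
  obtain ⟨b, hb, hb1⟩ := e2
  refine ⟨a * b, Subgroup.mul_mem_sup ha hb, ?_⟩
  rintro (h | h)
  · have hb' : b ∈ W₁ := by
      have h5 := W₁.mul_mem (W₁.inv_mem ha) h
      rwa [inv_mul_cancel_left] at h5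
    have h6 : b ∈ W₁ ⊓ W₂ := ⟨hb', hb⟩
    rw [hdisj] at h6
    exact hb1 (Subgroup.mem_bot.mp h6)
  · have ha' : a ∈ W₂ := by
      have h5 := W₂.mul_mem h (W₂.inv_mem hb)
      rwa [mul_inv_cancel_right] at h5
    have h6 : a ∈ W₁ ⊓ W₂ := ⟨ha, ha'⟩
    rw [hdisj] at h6
    exact ha1 (Subgroup.mem_bot.mp h6)

end

open Classical in
/-- The inner products of the functions induced from `(1-φ)(1-ψ)`. -/
theorem classInner_ind_alpha {G : Type*} [Group G] [Fintype G] (W₁ W₂ : Subgroup G)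
    (hW : IsSelfNormalizingCyclic W₁ W₂) [Fintype ↥(W₁ ⊔ W₂)]
    (hdisj : W₁ ⊓ W₂ = ⊥) (hcomm : ∀ a ∈ W₁, ∀ b ∈ W₂, a * b = b * a)
    (hab : ∀ a b : ↥(W₁ ⊔ W₂), a * b = b * a)
    (u u' : W₁ →* ℂˣ) (v v' : W₂ →* ℂˣ) (hu : u ≠ 1)
    (hv : v ≠ 1) (hu' : u' ≠ 1) (hv' : v' ≠ 1) :
    classInner (indFun (W₁ ⊔ W₂) (fun w : ↥(W₁ ⊔ W₂) =>
        1 - ((lift₁ W₁ W₂ hdisj hcomm u w : ℂˣ) : ℂ)
        - ((lift₂ W₁ W₂ hdisj hcomm v w : ℂˣ) : ℂ)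
        + ((lift₁ W₁ W₂ hdisj hcomm u w : ℂˣ) : ℂ) * ((lift₂ W₁ W₂ hdisj hcomm v w : ℂˣ) : ℂ)))
      (indFun (W₁ ⊔ W₂) (fun w : ↥(W₁ ⊔ W₂) => 1 - ((lift₁ W₁ W₂ hdisj hcomm u' w : ℂˣ) : ℂ)
        - ((lift₂ W₁ W₂ hdisj hcomm v' w : ℂˣ) : ℂ)
        + ((lift₁ W₁ W₂ hdisj hcomm u' w : ℂˣ) : ℂ) * ((lift₂ W₁ W₂ hdisj hcomm v' w : ℂˣ) : ℂ))) =
      1 + ind01 (u = u') + ind01 (v = v') + ind01 (u = u' ∧ v = v') := by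
  have hT := exists_mem_T W₁ W₂ hdisj hW.1 hW.2.1
  obtain ⟨hN, hTI⟩ := selfNormCyclic_ti W₁ W₂ hW hT
  rw [classInner_indFun_ti' (W₁ ⊔ W₂) _ hN hTI _ _ ?_ ?_ ?_ ?_]
  · exact gramW W₁ W₂ hdisj hcomm u u' v v' hu hv hu' hv'
  · intro g h
    have h5 : h * g * h⁻¹ = g := by rw [hab h g, mul_inv_cancel_right]
    rw [h5]
  · intro x hx
    exact alpha_vanish W₁ W₂ hdisj hcomm u v x hx
  · intro x hx
    exact alpha_vanish W₁ W₂ hdisj hcomm u' v' x hx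
  · simp

theorem ind_alpha_int {G : Type*} [Group G] [Fintype G] (H : Subgroup G) [Fintype H]
    (φ ψ : H →* ℂˣ) (χ : IrrCharacter G) :
    ∃ m : ℤ, classInner (indFun H (fun w => 1 - ((φ w : ℂˣ) : ℂ) - ((ψ w : ℂˣ) : ℂ)
      + ((φ w : ℂˣ) : ℂ) * ((ψ w : ℂˣ) : ℂ))) (χ : G → ℂ) = (m : ℂ) := by
  rw [Cfsg.Agent.Helper2.frobenius_reciprocity H _ (χ : G → ℂ)
    (Cfsg.Agent.Helper1.isClassFunction_irr χ)]
  have hres : IsCharacter H (fun h : H => (χ : G → ℂ) h) :=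
    Cfsg.Agent.Helper2.isCharacter_restrict H (Cfsg.Agent.Helper2.isCharacter_of_isIrrCharacter χ.2)
  have e : (fun w : H => 1 - ((φ w : ℂˣ) : ℂ) - ((ψ w : ℂˣ) : ℂ)
        + ((φ w : ℂˣ) : ℂ) * ((ψ w : ℂˣ) : ℂ)) =
      (fun w : H => (((1 : H →* ℂˣ) w : ℂˣ) : ℂ) - ((φ w : ℂˣ) : ℂ) - ((ψ w : ℂˣ) : ℂ)
        + (((φ * ψ) w : ℂˣ) : ℂ)) := by
    funext w; simp
  obtain ⟨m1, h1⟩ := Cfsg.Agent.Helper2.classInner_char_nat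
    (Cfsg.Agent.Helper7.isCharacter_of_hom (1 : H →* ℂˣ)) hres
  obtain ⟨m2, h2⟩ := Cfsg.Agent.Helper2.classInner_char_nat
    (Cfsg.Agent.Helper7.isCharacter_of_hom φ) hres
  obtain ⟨m3, h3⟩ := Cfsg.Agent.Helper2.classInner_char_nat
    (Cfsg.Agent.Helper7.isCharacter_of_hom ψ) hres
  obtain ⟨m4, h4⟩ := Cfsg.Agent.Helper2.classInner_char_nat
    (Cfsg.Agent.Helper7.isCharacter_of_hom (φ * ψ)) hres
  refine ⟨(m1 : ℤ) - m2 - m3 + m4, ?_⟩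
  rw [e, classInner_add_left
      (fun w : H => (((1 : H →* ℂˣ) w : ℂˣ) : ℂ) - ((φ w : ℂˣ) : ℂ) - ((ψ w : ℂˣ) : ℂ))
      (fun w : H => (((φ * ψ) w : ℂˣ) : ℂ)),
    classInner_sub_left (fun w : H => (((1 : H →* ℂˣ) w : ℂˣ) : ℂ) - ((φ w : ℂˣ) : ℂ))
      (fun w : H => ((ψ w : ℂˣ) : ℂ)),
    classInner_sub_left (fun w : H => (((1 : H →* ℂˣ) w : ℂˣ) : ℂ))
      (fun w : H => ((φ w : ℂˣ) : ℂ)), h1, h2, h3, h4]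
  push_cast; ring

open Classical in
theorem ind_alpha_one {G : Type*} [Group G] [Fintype G] (H : Subgroup G) [Fintype H]
    (φ ψ : H →* ℂˣ) (hφ : φ ≠ 1) (hψ : ψ ≠ 1) (hφψ : φ * ψ ≠ 1) :
    classInner (indFun H (fun w => 1 - ((φ w : ℂˣ) : ℂ) - ((ψ w : ℂˣ) : ℂ)
      + ((φ w : ℂˣ) : ℂ) * ((ψ w : ℂˣ) : ℂ))) (fun _ : G => (1 : ℂ)) = 1 := by
  have key := classInner_alpha_hom φ ψ (1 : H →* ℂˣ)
  rw [if_pos rfl, if_neg hφ, if_neg hψ, if_neg hφψ] at key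
  have e2 : (fun a : H => (((1 : H →* ℂˣ) a : ℂˣ) : ℂ)) = fun _ => 1 := by
    funext a; simp
  rw [e2] at key
  rw [Cfsg.Agent.Helper2.frobenius_reciprocity H _ (fun _ : G => (1 : ℂ)) (fun g h => rfl)]
  exact key.trans (by ring)

end Cfsg.Agent.Helper11
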