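import Mathlib
import Cfsg.Agent.Helper1.Burnside
import Cfsg.Agent.Helper11.CTId
import Cfsg.Agent.Helper11.CTIe

/-!
# Existence of a cyclic TI family: assembly (helper11)
-/

set_option autoImplicit false
set_option linter.unusedSimpArgs false
set_option linter.unusedTactic false
set_option linter.unreachableTactic false

namespace Cfsg.Agent.Helper11

open Cfsg Finset

/-- The function `(1 - φ)(1 - ψ)` on `W₁ ⊔ W₂` for `φ`, `ψ` lifted from `W₁`, `W₂`. -/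
noncomputable def alphaW {G : Type*} [Group G] (W₁ W₂ : Subgroup G) (hdisj : W₁ ⊓ W₂ = ⊥)
    (hcomm : ∀ a ∈ W₁, ∀ b ∈ W₂, a * b = b * a) (u : W₁ →* ℂˣ) (v : W₂ →* ℂˣ) :
    ↥(W₁ ⊔ W₂) → ℂ :=
  fun w => 1 - ((lift₁ W₁ W₂ hdisj hcomm u w : ℂˣ) : ℂ) - ((lift₂ W₁ W₂ hdisj hcomm v w : ℂˣ) : ℂ)
    + ((lift₁ W₁ W₂ hdisj hcomm u w : ℂˣ) : ℂ) * ((lift₂ W₁ W₂ hdisj hcomm v w : ℂˣ) : ℂ)

theorem sum_three {X : Type*} [Fintype X] [DecidableEq X] (c : X → ℤ) (F : X → ℂ) (p q r : X)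
    (hpq : p ≠ q) (hpr : p ≠ r) (hqr : q ≠ r) (hsupp : ∀ χ, c χ ≠ 0 → χ = p ∨ χ = q ∨ χ = r) :
    ∑ χ, (c χ : ℂ) * F χ = (c p : ℂ) * F p + (c q : ℂ) * F q + (c r : ℂ) * F r := by
  have key : ∀ χ, (c χ : ℂ) * F χ = (if χ = p then (c χ : ℂ) * F χ else 0)
      + (if χ = q then (c χ : ℂ) * F χ else 0) + (if χ = r then (c χ : ℂ) * F χ else 0) := by
    intro χ
    by_cases h1 : χ = p
    · have h2 : χ ≠ q := fun h => hpq (h1.symm.trans h)
      have h3 : χ ≠ r := fun h => hpr (h1.symm.trans h)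
      rw [if_pos h1, if_neg h2, if_neg h3]; ring
    · by_cases h2 : χ = q
      · have h3 : χ ≠ r := fun h => hqr (h2.symm.trans h)
        rw [if_neg h1, if_pos h2, if_neg h3]; ring
      · by_cases h3 : χ = r
        · rw [if_neg h1, if_neg h2, if_pos h3]; ring
        · have h0 : c χ = 0 := by
            by_contra h
            rcases hsupp χ h with h' | h' | h'
            · exact h1 h'
            · exact h2 h'
            · exact h3 h'
          rw [if_neg h1, if_neg h2, if_neg h3, h0]; simp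
  rw [Finset.sum_congr rfl (fun χ _ => key χ), Finset.sum_add_distrib, Finset.sum_add_distrib,
    Finset.sum_ite_eq', Finset.sum_ite_eq', Finset.sum_ite_eq']
  simp

theorem card_ne_one_subtype {A : Type*} [Group A] [Finite A] (h : ∀ a b : A, a * b = b * a) :
    Nat.card {u : A →* ℂˣ // u ≠ 1} = Nat.card A - 1 := by
  have hfin : Finite (A →* ℂˣ) :=
    Nat.finite_of_card_ne_zero (by rw [card_hom_of_comm h]; exact Nat.card_pos.ne')
  have h1 := Set.ncard_add_ncard_compl ({1} : Set (A →* ℂˣ))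
  rw [Set.ncard_singleton, card_hom_of_comm h] at h1
  have h2 : Nat.card {u : A →* ℂˣ // u ≠ 1} = ({1}ᶜ : Set (A →* ℂˣ)).ncard :=
    Nat.card_coe_set_eq ({1}ᶜ : Set (A →* ℂˣ))
  omega

theorem exists_inj4' {I : Type*} (h : 4 ≤ Nat.card I) :
    ∃ ι : Fin 4 → I, Function.Injective ι := by
  have hfin : Finite I := Nat.finite_of_card_ne_zero (by omega)
  have _i : Fintype I := Fintype.ofFinite I
  exact exists_inj4 (by rw [← Nat.card_eq_fintype_card]; exact h)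

theorem exists_two' {I : Type*} (h : Nat.card I = 2) :
    ∃ i1 i2 : I, i1 ≠ i2 ∧ ∀ i, i = i1 ∨ i = i2 := by
  classical
  have hfin : Finite I := Nat.finite_of_card_ne_zero (by omega)
  have _i : Fintype I := Fintype.ofFinite I
  exact exists_two (by rw [← Nat.card_eq_fintype_card]; exact h)

/-- In a cyclic `W₁ × W₂` the factors cannot both have order three. -/
theorem not_both_three {G : Type*} [Group G] [Finite G] (W₁ W₂ : Subgroup G)
    (hdisj : W₁ ⊓ W₂ = ⊥) (hcomm : ∀ a ∈ W₁, ∀ b ∈ W₂, a * b = b * a)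
    (hcyc : IsCyclic ↥(W₁ ⊔ W₂)) (h1 : Nat.card W₁ = 3) (h2 : Nat.card W₂ = 3) : False := by
  obtain ⟨g, hg⟩ := IsCyclic.exists_generator (α := ↥(W₁ ⊔ W₂))
  have h9 : orderOf g = Nat.card ↥(W₁ ⊔ W₂) := orderOf_eq_card_of_forall_mem_zpowers hg
  have hcard : Nat.card ↥(W₁ ⊔ W₂) = 9 := by
    rw [← Nat.card_congr (prodEquiv W₁ W₂ hdisj hcomm).toEquiv, Nat.card_prod, h1, h2]
  have hp3 : ((prodEquiv W₁ W₂ hdisj hcomm).symm g) ^ 3 = 1 := by
    apply Prod.ext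
    · rw [Prod.pow_fst, Prod.fst_one, ← h1]; exact pow_card_eq_one'
    · rw [Prod.pow_snd, Prod.snd_one, ← h2]; exact pow_card_eq_one'
  have hg3 : g ^ 3 = 1 := by
    have h5 := congrArg (prodEquiv W₁ W₂ hdisj hcomm) hp3
    rwa [map_pow, MulEquiv.apply_symm_apply, map_one] at h5
  have h6 := Nat.le_of_dvd (by norm_num) (orderOf_dvd_of_pow_eq_one hg3)
  omega

open Classical in
/-- The coefficient vectors of the `Ind((1-φ)(1-ψ)) - 1`. -/
theorem exists_coeffs {G : Type*} [Group G] [Fintype G] (W₁ W₂ : Subgroup G)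
    (hW : IsSelfNormalizingCyclic W₁ W₂)
    (hdisj : W₁ ⊓ W₂ = ⊥) (hcomm : ∀ a ∈ W₁, ∀ b ∈ W₂, a * b = b * a)
    (hab : ∀ a b : ↥(W₁ ⊔ W₂), a * b = b * a) :
    ∃ b : {u : W₁ →* ℂˣ // u ≠ 1} → {v : W₂ →* ℂˣ // v ≠ 1} → IrrCharacter G → ℤ,
      GramCond b ∧
      (∀ i j, b i j ⟨fun _ => 1, Cfsg.Agent.Helper1.isIrrCharacter_one G⟩ = 0) ∧
      ∀ i j, indFun (W₁ ⊔ W₂) (alphaW W₁ W₂ hdisj hcomm i.1 j.1) =
        fun g => 1 + ∑ χ : IrrCharacter G, (b i j χ : ℂ) * (χ : G → ℂ) g := by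
  have _instW : Fintype ↥(W₁ ⊔ W₂) := Fintype.ofFinite _
  have hint : ∀ (i : {u : W₁ →* ℂˣ // u ≠ 1}) (j : {v : W₂ →* ℂˣ // v ≠ 1})
      (χ : IrrCharacter G), ∃ m : ℤ,
      classInner (indFun (W₁ ⊔ W₂) (alphaW W₁ W₂ hdisj hcomm i.1 j.1)) (χ : G → ℂ) = (m : ℂ) :=
    fun i j χ => ind_alpha_int (W₁ ⊔ W₂) (lift₁ W₁ W₂ hdisj hcomm i.1)
      (lift₂ W₁ W₂ hdisj hcomm j.1) χ
  choose a ha using hint
  obtain ⟨triv, htriv⟩ : ∃ t : IrrCharacter G,
      t = ⟨fun _ => 1, Cfsg.Agent.Helper1.isIrrCharacter_one G⟩ := ⟨_, rfl⟩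
  have hl1 : ∀ i : {u : W₁ →* ℂˣ // u ≠ 1}, lift₁ W₁ W₂ hdisj hcomm i.1 ≠ 1 := by
    intro i h
    apply i.2
    rw [← res₁_lift₁ W₁ W₂ hdisj hcomm i.1, h]
    rfl
  have hl2 : ∀ j : {v : W₂ →* ℂˣ // v ≠ 1}, lift₂ W₁ W₂ hdisj hcomm j.1 ≠ 1 := by
    intro j h
    apply j.2
    rw [← res₂_lift₂ W₁ W₂ hdisj hcomm j.1, h]
    rfl
  have hl12 : ∀ (i : {u : W₁ →* ℂˣ // u ≠ 1}) (j : {v : W₂ →* ℂˣ // v ≠ 1}),
      lift₁ W₁ W₂ hdisj hcomm i.1 * lift₂ W₁ W₂ hdisj hcomm j.1 ≠ 1 := by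
    intro i j h
    apply i.2
    rw [← res₁_lift W₁ W₂ hdisj hcomm i.1 j.1, h]
    rfl
  have hatriv : ∀ i j, a i j triv = 1 := by
    intro i j
    have h1 := ind_alpha_one (W₁ ⊔ W₂) (lift₁ W₁ W₂ hdisj hcomm i.1)
      (lift₂ W₁ W₂ hdisj hcomm j.1) (hl1 i) (hl2 j) (hl12 i j)
    have h2 := ha i j triv
    rw [htriv] at h2
    have h3 : ((a i j ⟨fun _ => 1, Cfsg.Agent.Helper1.isIrrCharacter_one G⟩ : ℤ) : ℂ) = 1 :=
      h2.symm.trans h1
    rw [htriv]
    exact_mod_cast h3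
  have hGa : ∀ i j i' j', ((∑ χ, a i j χ * a i' j' χ : ℤ) : ℂ) =
      1 + ind01 (i.1 = i'.1) + ind01 (j.1 = j'.1) + ind01 (i.1 = i'.1 ∧ j.1 = j'.1) := by
    intro i j i' j'
    have key := classInner_ind_alpha W₁ W₂ hW hdisj hcomm hab i.1 i'.1 j.1 j'.1 i.2 j.2 i'.2 j'.2
    rw [Cfsg.Agent.Helper2.classInner_eq_sum_mul
      (Cfsg.Agent.Helper2.indFun_isClassFunction _ _)] at key
    rw [← key]
    push_cast
    apply Finset.sum_congr rfl
    intro χ _
    have e1 := ha i j χ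
    have e2 := ha i' j' χ
    unfold alphaW at e1 e2
    rw [e1, e2, map_intCast]
  obtain ⟨b, hb⟩ : ∃ b : {u : W₁ →* ℂˣ // u ≠ 1} → {v : W₂ →* ℂˣ // v ≠ 1} →
      IrrCharacter G → ℤ, ∀ i j χ, b i j χ = a i j χ - (if χ = triv then 1 else 0) :=
    ⟨_, fun _ _ _ => rfl⟩
  refine ⟨b, ?_, ?_, ?_⟩
  · intro i j i' j'
    have e : ∀ χ, b i j χ * b i' j' χ = a i j χ * a i' j' χ
        - (if χ = triv then a i j χ else 0) - (if χ = triv then a i' j' χ else 0)
        + (if χ = triv then 1 else 0) := by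
      intro χ
      rw [hb, hb]
      split_ifs <;> ring
    have hsum : vip (b i j) (b i' j') = ∑ χ, a i j χ * a i' j' χ - 1 := by
      unfold vip
      rw [Finset.sum_congr rfl (fun χ _ => e χ), Finset.sum_add_distrib, Finset.sum_sub_distrib,
        Finset.sum_sub_distrib, Finset.sum_ite_eq', Finset.sum_ite_eq', Finset.sum_ite_eq']
      simp only [Finset.mem_univ, if_true]
      rw [hatriv, hatriv]
      ring
    rw [hsum]
    have h5 := hGa i j i' j'
    by_cases h1 : i = i'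
    · by_cases h2 : j = j'
      · have h6 : ∑ χ, a i j χ * a i' j' χ = 4 := by
          rw [ind01_pos (congrArg Subtype.val h1), ind01_pos (congrArg Subtype.val h2),
            ind01_pos ⟨congrArg Subtype.val h1, congrArg Subtype.val h2⟩] at h5
          have h7 : ((∑ χ, a i j χ * a i' j' χ : ℤ) : ℂ) = ((4 : ℤ) : ℂ) := by
            rw [h5]; norm_num
          exact_mod_cast h7
        rw [h6, if_pos h1, if_pos h2, if_pos ⟨h1, h2⟩]; norm_num
      · have h2' : ¬ j.1 = j'.1 := fun h => h2 (Subtype.ext h)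
        have h6 : ∑ χ, a i j χ * a i' j' χ = 2 := by
          rw [ind01_pos (congrArg Subtype.val h1), ind01_neg h2',
            ind01_neg (fun h => h2' h.2)] at h5
          have h7 : ((∑ χ, a i j χ * a i' j' χ : ℤ) : ℂ) = ((2 : ℤ) : ℂ) := by
            rw [h5]; norm_num
          exact_mod_cast h7
        rw [h6, if_pos h1, if_neg h2, if_neg (fun h => h2 h.2)]; norm_num
    · have h1' : ¬ i.1 = i'.1 := fun h => h1 (Subtype.ext h)
      by_cases h2 : j = j'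
      · have h6 : ∑ χ, a i j χ * a i' j' χ = 2 := by
          rw [ind01_neg h1', ind01_pos (congrArg Subtype.val h2),
            ind01_neg (fun h => h1' h.1)] at h5
          have h7 : ((∑ χ, a i j χ * a i' j' χ : ℤ) : ℂ) = ((2 : ℤ) : ℂ) := by
            rw [h5]; norm_num
          exact_mod_cast h7
        rw [h6, if_neg h1, if_pos h2, if_neg (fun h => h1 h.1)]; norm_num
      · have h2' : ¬ j.1 = j'.1 := fun h => h2 (Subtype.ext h)
        have h6 : ∑ χ, a i j χ * a i' j' χ = 1 := by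
          rw [ind01_neg h1', ind01_neg h2', ind01_neg (fun h => h1' h.1)] at h5
          have h7 : ((∑ χ, a i j χ * a i' j' χ : ℤ) : ℂ) = ((1 : ℤ) : ℂ) := by
            rw [h5]; norm_num
          exact_mod_cast h7
        rw [h6, if_neg h1, if_neg h2, if_neg (fun h => h1 h.1)]; norm_num
  · intro i j
    rw [← htriv, hb, if_pos rfl, hatriv]; norm_num
  · intro i j
    funext g
    have h1 := congrFun (Cfsg.Agent.Helper2.classFun_eq_sum_classInner
      (Cfsg.Agent.Helper2.indFun_isClassFunction (W₁ ⊔ W₂)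
        (alphaW W₁ W₂ hdisj hcomm i.1 j.1))) g
    rw [Finset.sum_apply] at h1
    rw [h1]
    have e : ∀ χ : IrrCharacter G,
        (classInner (indFun (W₁ ⊔ W₂) (alphaW W₁ W₂ hdisj hcomm i.1 j.1)) (χ : G → ℂ) •
          (χ : G → ℂ)) g =
        (b i j χ : ℂ) * (χ : G → ℂ) g + (if χ = triv then (χ : G → ℂ) g else 0) := by
      intro χ
      rw [Pi.smul_apply, smul_eq_mul, ha, hb]
      split_ifs with h
      · push_cast; ring
      · push_cast; ring
    rw [Finset.sum_congr rfl (fun χ _ => e χ), Finset.sum_add_distrib, Finset.sum_ite_eq']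
    simp only [Finset.mem_univ, if_true]
    rw [htriv]
    show _ + (1 : ℂ) = _
    ring

end Cfsg.Agent.Helper11
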