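import Mathlib
import Cfsg.Agent.Helper11.CTIf

/-!
# Existence of a cyclic TI family: the family (helper11)
-/

set_option autoImplicit false
set_option linter.unusedSimpArgs false
set_option linter.unusedTactic false
set_option linter.unreachableTactic false

namespace Cfsg.Agent.Helper11

open Cfsg Finset

set_option maxHeartbeats 1600000 in
/-- From the standard form of the coefficient vectors to a cyclic TI family. -/
theorem cyclicTI_of_std {G : Type*} [Group G] [Fintype G] (W₁ W₂ : Subgroup G)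
    (hdisj : W₁ ⊓ W₂ = ⊥) (hcomm : ∀ a ∈ W₁, ∀ b ∈ W₂, a * b = b * a)
    (hab : ∀ a b : ↥(W₁ ⊔ W₂), a * b = b * a)
    (b : {u : W₁ →* ℂˣ // u ≠ 1} → {v : W₂ →* ℂˣ // v ≠ 1} → IrrCharacter G → ℤ)
    (hb0 : ∀ i j, b i j ⟨fun _ => 1, Cfsg.Agent.Helper1.isIrrCharacter_one G⟩ = 0)
    (hbind : ∀ i j, indFun (W₁ ⊔ W₂) (alphaW W₁ W₂ hdisj hcomm i.1 j.1) =
      fun g => 1 + ∑ χ : IrrCharacter G, (b i j χ : ℂ) * (χ : G → ℂ) g)
    (ξ : {u : W₁ →* ℂˣ // u ≠ 1} → IrrCharacter G)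
    (υ : {v : W₂ →* ℂˣ // v ≠ 1} → IrrCharacter G)
    (ζ : {u : W₁ →* ℂˣ // u ≠ 1} → {v : W₂ →* ℂˣ // v ≠ 1} → IrrCharacter G)
    (hstd : StdForm b ξ υ ζ)
    (i0 : {u : W₁ →* ℂˣ // u ≠ 1}) (j0 : {v : W₂ →* ℂˣ // v ≠ 1}) :
    ∃ χ : (↥(W₁ ⊔ W₂) →* ℂˣ) → (G → ℂ), IsCyclicTIFamily W₁ W₂ χ := by
  classical
  obtain ⟨triv, htriv⟩ : ∃ t : IrrCharacter G,
      t = ⟨fun _ => 1, Cfsg.Agent.Helper1.isIrrCharacter_one G⟩ := ⟨_, rfl⟩
  have hb0' : ∀ i j, b i j triv = 0 := by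
    intro i j; rw [htriv]; exact hb0 i j
  obtain ⟨T, hT⟩ : ∃ T : (W₁ →* ℂˣ) → (W₂ →* ℂˣ) → IrrCharacter G, ∀ u v, T u v =
      if hu : u = 1 then (if hv : v = 1 then triv else υ ⟨v, hv⟩)
      else (if hv : v = 1 then ξ ⟨u, hu⟩ else ζ ⟨u, hu⟩ ⟨v, hv⟩) := ⟨_, fun _ _ => rfl⟩
  obtain ⟨s, hs⟩ : ∃ s : (W₁ →* ℂˣ) → (W₂ →* ℂˣ) → ℤ, ∀ u v, s u v =
      if hu : u = 1 then (if hv : v = 1 then 1 else - b i0 ⟨v, hv⟩ (υ ⟨v, hv⟩))
      else (if hv : v = 1 then - b ⟨u, hu⟩ j0 (ξ ⟨u, hu⟩)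
        else b ⟨u, hu⟩ ⟨v, hv⟩ (ζ ⟨u, hu⟩ ⟨v, hv⟩)) := ⟨_, fun _ _ => rfl⟩
  have T11 : T 1 1 = triv := by rw [hT, dif_pos rfl, dif_pos rfl]
  have T1v : ∀ v (hv : v ≠ 1), T 1 v = υ ⟨v, hv⟩ := by
    intro v hv; rw [hT, dif_pos rfl, dif_neg hv]
  have Tu1 : ∀ u (hu : u ≠ 1), T u 1 = ξ ⟨u, hu⟩ := by
    intro u hu; rw [hT, dif_neg hu, dif_pos rfl]
  have Tuv : ∀ u v (hu : u ≠ 1) (hv : v ≠ 1), T u v = ζ ⟨u, hu⟩ ⟨v, hv⟩ := by
    intro u v hu hv; rw [hT, dif_neg hu, dif_neg hv]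
  have s11 : s 1 1 = 1 := by rw [hs, dif_pos rfl, dif_pos rfl]
  have s1v : ∀ v (hv : v ≠ 1), s 1 v = - b i0 ⟨v, hv⟩ (υ ⟨v, hv⟩) := by
    intro v hv; rw [hs, dif_pos rfl, dif_neg hv]
  have su1 : ∀ u (hu : u ≠ 1), s u 1 = - b ⟨u, hu⟩ j0 (ξ ⟨u, hu⟩) := by
    intro u hu; rw [hs, dif_neg hu, dif_pos rfl]
  have suv : ∀ u v (hu : u ≠ 1) (hv : v ≠ 1),
      s u v = b ⟨u, hu⟩ ⟨v, hv⟩ (ζ ⟨u, hu⟩ ⟨v, hv⟩) := by
    intro u v hu hv; rw [hs, dif_neg hu, dif_neg hv]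
  have hpm : ∀ i j χ, b i j χ ≠ 0 → b i j χ = 1 ∨ b i j χ = -1 := by
    intro i j χ h
    rcases hstd.range i j χ with h' | h' | h'
    · exact absurd h' h
    · exact Or.inl h'
    · exact Or.inr h'
  have hs_pm : ∀ u v, s u v = 1 ∨ s u v = -1 := by
    intro u v
    by_cases hu : u = 1
    · subst hu
      by_cases hv : v = 1
      · subst hv; left; exact s11
      · rw [s1v v hv]
        rcases hpm _ _ _ (hstd.hυ i0 ⟨v, hv⟩) with h | h <;> rw [h] <;> norm_num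
    · by_cases hv : v = 1
      · subst hv
        rw [su1 u hu]
        rcases hpm _ _ _ (hstd.hξ ⟨u, hu⟩ j0) with h | h <;> rw [h] <;> norm_num
      · rw [suv u v hu hv]
        exact hpm _ _ _ (hstd.hζ _ _)
  have hξt : ∀ i, ξ i ≠ triv := by
    intro i h
    have h5 := hstd.hξ i j0
    rw [h] at h5
    exact h5 (hb0' i j0)
  have hυt : ∀ j, υ j ≠ triv := by
    intro j h
    have h5 := hstd.hυ i0 j
    rw [h] at h5
    exact h5 (hb0' i0 j)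
  have hζt : ∀ i j, ζ i j ≠ triv := by
    intro i j h
    have h5 := hstd.hζ i j
    rw [h] at h5
    exact h5 (hb0' i j)
  have Tinj : ∀ u v u' v', T u v = T u' v' → u = u' ∧ v = v' := by
    intro u v u' v' h
    by_cases hu : u = 1
    · subst hu
      by_cases hv : v = 1
      · subst hv
        by_cases hu' : u' = 1
        · subst hu'
          by_cases hv' : v' = 1
          · subst hv'; exact ⟨rfl, rfl⟩
          · rw [T11, T1v v' hv'] at h; exact absurd h.symm (hυt _)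
        · by_cases hv' : v' = 1
          · subst hv'; rw [T11, Tu1 u' hu'] at h; exact absurd h.symm (hξt _)
          · rw [T11, Tuv u' v' hu' hv'] at h; exact absurd h.symm (hζt _ _)
      · by_cases hu' : u' = 1
        · subst hu'
          by_cases hv' : v' = 1
          · subst hv'; rw [T1v v hv, T11] at h; exact absurd h (hυt _)
          · rw [T1v v hv, T1v v' hv'] at h
            have h5 := hstd.υinj h
            exact ⟨rfl, congrArg Subtype.val h5⟩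
        · by_cases hv' : v' = 1
          · subst hv'; rw [T1v v hv, Tu1 u' hu'] at h; exact absurd h.symm (hstd.ξυ _ _)
          · rw [T1v v hv, Tuv u' v' hu' hv'] at h; exact absurd h (hstd.υζ _ _ _)
    · by_cases hv : v = 1
      · subst hv
        by_cases hu' : u' = 1
        · subst hu'
          by_cases hv' : v' = 1
          · subst hv'; rw [Tu1 u hu, T11] at h; exact absurd h (hξt _)
          · rw [Tu1 u hu, T1v v' hv'] at h; exact absurd h (hstd.ξυ _ _)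
        · by_cases hv' : v' = 1
          · subst hv'; rw [Tu1 u hu, Tu1 u' hu'] at h
            have h5 := hstd.ξinj h
            exact ⟨congrArg Subtype.val h5, rfl⟩
          · rw [Tu1 u hu, Tuv u' v' hu' hv'] at h; exact absurd h (hstd.ξζ _ _ _)
      · by_cases hu' : u' = 1
        · subst hu'
          by_cases hv' : v' = 1
          · subst hv'; rw [Tuv u v hu hv, T11] at h; exact absurd h (hζt _ _)
          · rw [Tuv u v hu hv, T1v v' hv'] at h; exact absurd h.symm (hstd.υζ _ _ _)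
        · by_cases hv' : v' = 1
          · subst hv'; rw [Tuv u v hu hv, Tu1 u' hu'] at h; exact absurd h.symm (hstd.ξζ _ _ _)
          · rw [Tuv u v hu hv, Tuv u' v' hu' hv'] at h
            have h5 := hstd.ζinj _ _ _ _ h
            exact ⟨congrArg Subtype.val h5.1, congrArg Subtype.val h5.2⟩
  -- the family
  obtain ⟨χ, hχ⟩ : ∃ χ : (↥(W₁ ⊔ W₂) →* ℂˣ) → (G → ℂ), ∀ ω g, χ ω g =
      (s (res₁ W₁ W₂ ω) (res₂ W₁ W₂ ω) : ℂ) * (T (res₁ W₁ W₂ ω) (res₂ W₁ W₂ ω) : G → ℂ) g :=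
    ⟨_, fun _ _ => rfl⟩
  have hχ' : ∀ ω, χ ω = fun g => (s (res₁ W₁ W₂ ω) (res₂ W₁ W₂ ω) : ℂ) *
      (T (res₁ W₁ W₂ ω) (res₂ W₁ W₂ ω) : G → ℂ) g := fun ω => funext (hχ ω)
  have hcf : ∀ ω, IsClassFunction G (χ ω) := by
    intro ω g h
    rw [hχ, hχ, Cfsg.Agent.Helper1.isClassFunction_irr _ g h]
  have hss : ∀ u v, ((s u v : ℤ) : ℂ) * ((s u v : ℤ) : ℂ) = 1 := by
    intro u v
    rcases hs_pm u v with h | h <;> rw [h] <;> norm_num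
  have horth1 : ∀ ω, classInner (χ ω) (χ ω) = 1 := by
    intro ω
    rw [hχ' ω, classInner_int_smul, Cfsg.Agent.Helper2.classInner_irr_irr, if_pos rfl, mul_one,
      hss]
  have horth0 : ∀ ω ω', ω ≠ ω' → classInner (χ ω) (χ ω') = 0 := by
    intro ω ω' hne
    rw [hχ' ω, hχ' ω', classInner_int_smul, Cfsg.Agent.Helper2.classInner_irr_irr, if_neg,
      mul_zero]
    intro h
    have h5 := Tinj _ _ _ _ h
    exact hne ((hom_eq_iff_res W₁ W₂ hdisj hcomm ω ω').mpr h5)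
  have hone : χ 1 = fun _ => 1 := by
    funext g
    rw [hχ]
    show ((s 1 1 : ℤ) : ℂ) * (T 1 1 : G → ℂ) g = 1
    rw [s11, T11, htriv]
    show ((1 : ℤ) : ℂ) * 1 = 1
    norm_num
  have hind : ∀ φ ψ : ↥(W₁ ⊔ W₂) →* ℂˣ, φ ≠ 1 → ψ ≠ 1 →
      (∀ w : ↥(W₁ ⊔ W₂), (w : G) ∈ W₂ → φ w = 1) → (∀ w : ↥(W₁ ⊔ W₂), (w : G) ∈ W₁ → ψ w = 1) →
      indFun (W₁ ⊔ W₂) (fun w => 1 - (φ w : ℂ) - (ψ w : ℂ) + (φ w : ℂ) * (ψ w : ℂ)) =
        fun g => 1 - χ φ g - χ ψ g + χ (φ * ψ) g := by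
    intro φ ψ hφ hψ hφ2 hψ1
    have hr2φ : res₂ W₁ W₂ φ = 1 := by
      ext b'
      show ((φ (Subgroup.inclusion le_sup_right b') : ℂˣ) : ℂ) = (((1 : W₂ →* ℂˣ) b' : ℂˣ) : ℂ)
      rw [hφ2 (Subgroup.inclusion le_sup_right b') b'.2]
      rfl
    have hr1ψ : res₁ W₁ W₂ ψ = 1 := by
      ext a'
      show ((ψ (Subgroup.inclusion le_sup_left a') : ℂˣ) : ℂ) = (((1 : W₁ →* ℂˣ) a' : ℂˣ) : ℂ)
      rw [hψ1 (Subgroup.inclusion le_sup_left a') a'.2]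
      rfl
    obtain ⟨u, hu_def⟩ : ∃ u, u = res₁ W₁ W₂ φ := ⟨_, rfl⟩
    obtain ⟨v, hv_def⟩ : ∃ v, v = res₂ W₁ W₂ ψ := ⟨_, rfl⟩
    have hu : u ≠ 1 := by
      intro h
      apply hφ
      rw [hom_eq_iff_res W₁ W₂ hdisj hcomm]
      exact ⟨hu_def.symm.trans h, hr2φ⟩
    have hv : v ≠ 1 := by
      intro h
      apply hψ
      rw [hom_eq_iff_res W₁ W₂ hdisj hcomm]
      exact ⟨hr1ψ, hv_def.symm.trans h⟩
    have eφ : lift₁ W₁ W₂ hdisj hcomm u = φ := by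
      have h5 := lift_res W₁ W₂ hdisj hcomm φ
      rw [hr2φ, ← hu_def] at h5
      exact (hom_mul_one' _).symm.trans h5
    have eψ : lift₂ W₁ W₂ hdisj hcomm v = ψ := by
      have h5 := lift_res W₁ W₂ hdisj hcomm ψ
      rw [hr1ψ, ← hv_def] at h5
      exact (hom_one_mul' _).symm.trans h5
    have eL : (fun w : ↥(W₁ ⊔ W₂) => 1 - ((φ w : ℂˣ) : ℂ) - ((ψ w : ℂˣ) : ℂ)
        + ((φ w : ℂˣ) : ℂ) * ((ψ w : ℂˣ) : ℂ)) = alphaW W₁ W₂ hdisj hcomm u v := by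
      funext w
      unfold alphaW
      rw [eφ, eψ]
    rw [eL, hbind ⟨u, hu⟩ ⟨v, hv⟩]
    funext g
    have r1 : res₁ W₁ W₂ (φ * ψ) = u := by
      rw [res₁_mul, hr1ψ, ← hu_def]; exact hom_mul_one' _
    have r2 : res₂ W₁ W₂ (φ * ψ) = v := by
      rw [res₂_mul, hr2φ, ← hv_def]; exact hom_one_mul' _
    rw [hχ φ g, hχ ψ g, hχ (φ * ψ) g, r1, r2, hr2φ, hr1ψ, ← hu_def, ← hv_def, su1 u hu,
      Tu1 u hu, s1v v hv, T1v v hv, suv u v hu hv, Tuv u v hu hv]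
    rw [sum_three (b ⟨u, hu⟩ ⟨v, hv⟩) (fun χ => (χ : G → ℂ) g) (ξ ⟨u, hu⟩) (υ ⟨v, hv⟩)
      (ζ ⟨u, hu⟩ ⟨v, hv⟩) (hstd.ξυ _ _) (hstd.ξζ _ _ _) (hstd.υζ _ _ _) (hstd.supp _ _)]
    rw [hstd.ξc ⟨u, hu⟩ ⟨v, hv⟩ j0, hstd.υc ⟨u, hu⟩ i0 ⟨v, hv⟩]
    push_cast
    ring
  refine ⟨χ, ?_⟩
  refine { irr_or_neg := ?_, orthonormal := ?_, map_one := hone, eq_on := ?_, induced_eq := hind }
  · intro ω
    rcases hs_pm (res₁ W₁ W₂ ω) (res₂ W₁ W₂ ω) with h | h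
    · left
      have e : χ ω = (T (res₁ W₁ W₂ ω) (res₂ W₁ W₂ ω) : G → ℂ) := by
        funext g; rw [hχ, h]; simp
      rw [e]
      exact (T (res₁ W₁ W₂ ω) (res₂ W₁ W₂ ω)).2
    · right
      have e : -χ ω = (T (res₁ W₁ W₂ ω) (res₂ W₁ W₂ ω) : G → ℂ) := by
        funext g; rw [Pi.neg_apply, hχ, h]; simp
      rw [e]
      exact (T (res₁ W₁ W₂ ω) (res₂ W₁ W₂ ω)).2
  · intro ω ω'
    by_cases h : ω = ω'
    · rw [if_pos h, h]; exact horth1 ω'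
    · rw [if_neg h]; exact horth0 ω ω' h
  · intro ω w h1 h2
    exact cyclicTI_eq_on W₁ W₂ hdisj hcomm hab χ hcf horth1 horth0 hone hind ω w h1 h2

/-- Existence of a cyclic TI family (Peterfalvi (3.2), Feit–Thompson §13). -/
theorem cyclicTI_exists {G : Type*} [Group G] [Fintype G] (W₁ W₂ : Subgroup G)
    (hW : IsSelfNormalizingCyclic W₁ W₂) (hodd : Odd (Nat.card ↥(W₁ ⊔ W₂))) :
    ∃ χ : (↥(W₁ ⊔ W₂) →* ℂˣ) → (G → ℂ), IsCyclicTIFamily W₁ W₂ χ := by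
  classical
  obtain ⟨hW1, hW2, hdisj, hcomm, hcyc, -⟩ := id hW
  have hWcomm : ∀ a b : ↥(W₁ ⊔ W₂), a * b = b * a := fun a b =>
    (IsCyclic.isMulCommutative (α := ↥(W₁ ⊔ W₂))).is_comm.comm a b
  have hab₁ : ∀ a b : W₁, a * b = b * a := by
    intro a b
    have h5 := hWcomm ⟨a, le_sup_left (b := W₂) a.2⟩ ⟨b, le_sup_left (b := W₂) b.2⟩
    have h' : (a : G) * (b : G) = (b : G) * (a : G) := congrArg Subtype.val h5
    exact Subtype.ext h'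
  have hab₂ : ∀ a b : W₂, a * b = b * a := by
    intro a b
    have h5 := hWcomm ⟨a, le_sup_right (a := W₁) a.2⟩ ⟨b, le_sup_right (a := W₁) b.2⟩
    have h' : (a : G) * (b : G) = (b : G) * (a : G) := congrArg Subtype.val h5
    exact Subtype.ext h'
  have three : ∀ K : Subgroup G, K ≤ W₁ ⊔ W₂ → K ≠ ⊥ → 3 ≤ Nat.card K ∧ Odd (Nat.card K) := by
    intro K hK hne
    have h1 : Nat.card K ≠ 1 := fun h => hne (Subgroup.eq_bot_of_card_eq K h)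
    have h2 : Odd (Nat.card K) := Odd.of_dvd_nat hodd (Subgroup.card_dvd_of_le hK)
    have h3 : 0 < Nat.card K := Nat.card_pos
    refine ⟨?_, h2⟩
    obtain ⟨k, hk⟩ := h2
    omega
  obtain ⟨h31, ho1⟩ := three W₁ le_sup_left hW1
  obtain ⟨h32, ho2⟩ := three W₂ le_sup_right hW2
  have hc1 := card_ne_one_subtype hab₁
  have hc2 := card_ne_one_subtype hab₂
  have hnb : ¬ (Nat.card W₁ = 3 ∧ Nat.card W₂ = 3) := fun h =>
    not_both_three W₁ W₂ hdisj hcomm hcyc h.1 h.2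
  obtain ⟨b, hG, hb0, hbind⟩ := exists_coeffs W₁ W₂ hW hdisj hcomm hWcomm
  obtain ⟨⟨i0⟩, -⟩ := Nat.card_ne_zero.mp (show Nat.card {u : W₁ →* ℂˣ // u ≠ 1} ≠ 0 by
    rw [hc1]; omega)
  obtain ⟨⟨j0⟩, -⟩ := Nat.card_ne_zero.mp (show Nat.card {v : W₂ →* ℂˣ // v ≠ 1} ≠ 0 by
    rw [hc2]; omega)
  obtain ⟨k1, hk1⟩ := ho1
  obtain ⟨k2, hk2⟩ := ho2
  have hsize : ((∃ ι : Fin 4 → {u : W₁ →* ℂˣ // u ≠ 1}, Function.Injective ι) ∧
        ((∃ κ : Fin 4 → {v : W₂ →* ℂˣ // v ≠ 1}, Function.Injective κ) ∨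
          ∃ j1 j2 : {v : W₂ →* ℂˣ // v ≠ 1}, j1 ≠ j2 ∧ ∀ j, j = j1 ∨ j = j2)) ∨
      ((∃ κ : Fin 4 → {v : W₂ →* ℂˣ // v ≠ 1}, Function.Injective κ) ∧
        ∃ i1 i2 : {u : W₁ →* ℂˣ // u ≠ 1}, i1 ≠ i2 ∧ ∀ i, i = i1 ∨ i = i2) := by
    by_cases h5 : 5 ≤ Nat.card W₁
    · left
      refine ⟨exists_inj4' (by rw [hc1]; omega), ?_⟩
      by_cases h6 : 5 ≤ Nat.card W₂
      · left; exact exists_inj4' (by rw [hc2]; omega)
      · right; exact exists_two' (by rw [hc2]; omega)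
    · right
      have h13 : Nat.card W₁ = 3 := by omega
      have h25 : 5 ≤ Nat.card W₂ := by
        by_contra hcon
        exact hnb ⟨h13, by omega⟩
      exact ⟨exists_inj4' (by rw [hc2]; omega), exists_two' (by rw [hc1]; omega)⟩
  obtain ⟨ξ, υ, ζ, hstd⟩ := gram_std' b hG hsize
  exact cyclicTI_of_std W₁ W₂ hdisj hcomm hWcomm b hb0 hbind ξ υ ζ hstd i0 j0

end Cfsg.Agent.Helper11
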