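import Mathlib
import Cfsg.Prelude.Def_Characters
import Cfsg.Prelude.Def_OddOrderLocal
import Cfsg.Agent.Helper1.CharCentral
import Cfsg.Agent.Helper1.CharComplete
import Cfsg.Agent.Helper1.NC
import Cfsg.Agent.Helper2.CharExtra

set_option autoImplicit false

/-!
Helper library (seat helper11): class-sum congruences for characters constant on a central
subgroup of a TI Sylow subgroup (Peterfalvi (6.7)).
-/

namespace Cfsg.Agent.Helper11

open scoped ComplexConjugate

/-- A function with algebraic-integer values, invariant under an action which is free wherever the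
function is non-zero, has sum divisible by the order of the acting group. -/
theorem sum_free_action {Γ α : Type*} [Group Γ] [Fintype Γ] [Fintype α] (act : Γ → α → α)
    (h1 : ∀ x, act 1 x = x) (hmul : ∀ γ γ' x, act (γ * γ') x = act γ (act γ' x)) (F : α → ℂ)
    (hF : ∀ (γ : Γ) (x : α), F (act γ x) = F x)
    (hfree : ∀ x, F x ≠ 0 → ∀ γ : Γ, act γ x = x → γ = 1)
    (hint : ∀ x, IsIntegral ℤ (F x)) :
    ∃ A : ℂ, IsIntegral ℤ A ∧ ∑ x, F x = (Fintype.card Γ : ℂ) * A := by
  classical
  let _inst : MulAction Γ α := { smul := act, one_smul := h1, mul_smul := hmul }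
  have hsm : ∀ (γ : Γ) (x : α), γ • x = act γ x := fun _ _ => rfl
  let Q := MulAction.orbitRel.Quotient Γ α
  have _instQ : Fintype Q := Fintype.ofFinite _
  refine ⟨∑ q : Q, F q.out, IsIntegral.sum _ (fun q _ => hint _), ?_⟩
  rw [← Finset.sum_fiberwise (Finset.univ) (fun x : α => (Quotient.mk'' x : Q)) F, Finset.mul_sum]
  apply Finset.sum_congr rfl
  intro q _
  have hmem : ∀ x : α, (Quotient.mk'' x : Q) = q → ∃ γ : Γ, act γ q.out = x := by
    intro x hx
    have h1 : (Quotient.mk'' x : Q) = Quotient.mk'' q.out := by rw [hx, Quotient.out_eq']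
    have h2 := Quotient.exact' h1
    have h3 : x ∈ MulAction.orbit Γ q.out := h2
    obtain ⟨γ, hγ⟩ := h3
    exact ⟨γ, hγ⟩
  have hq : ∀ x ∈ Finset.univ.filter (fun x : α => (Quotient.mk'' x : Q) = q), F x = F q.out := by
    intro x hx
    rw [Finset.mem_filter] at hx
    obtain ⟨γ, rfl⟩ := hmem x hx.2
    exact hF γ _
  rw [Finset.sum_congr rfl hq, Finset.sum_const, nsmul_eq_mul]
  by_cases h0 : F q.out = 0
  · rw [h0]; simp
  · congr 1
    have hset : Finset.univ.filter (fun x : α => (Quotient.mk'' x : Q) = q) =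
        Finset.univ.image (fun γ : Γ => act γ q.out) := by
      ext x
      simp only [Finset.mem_filter, Finset.mem_univ, true_and, Finset.mem_image]
      constructor
      · intro hx
        exact hmem x hx
      · rintro ⟨γ, rfl⟩
        have h5 : (Quotient.mk'' (act γ q.out) : Q) = Quotient.mk'' q.out := by
          apply Quotient.sound'
          show act γ q.out ∈ MulAction.orbit Γ q.out
          exact ⟨γ, rfl⟩
        rw [h5, Quotient.out_eq']
    rw [hset, Finset.card_image_of_injective, Finset.card_univ]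
    intro γ γ' h
    have h6 : act (γ'⁻¹ * γ) q.out = q.out := by
      rw [hmul]
      have h7 : act γ q.out = act γ' q.out := h
      rw [h7, ← hmul, inv_mul_cancel, h1]
    have h8 := hfree _ h0 _ h6
    exact (inv_mul_eq_one.mp h8).symm

/-- A rational algebraic integer is an integer. -/
theorem int_of_rat_isIntegral (x : ℂ) (hx : IsIntegral ℤ x) (q : ℚ) (hq : x = (q : ℂ)) :
    ∃ k : ℤ, x = (k : ℂ) := by
  have h1 : x = algebraMap ℚ ℂ q := by rw [hq]; rfl
  rw [h1, isIntegral_algebraMap_iff (algebraMap ℚ ℂ).injective] at hx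
  obtain ⟨k, hk⟩ := IsIntegrallyClosed.isIntegral_iff.mp hx
  refine ⟨k, ?_⟩
  rw [hq, ← hk]; simp

/-- The class sum of `z` twisted by `w`: `∑_{x ~ z} χ(x w) = ω(z) χ(w)`. -/
theorem class_sum_char_mul {G : Type*} [Group G] [Fintype G] {V : Type*} [AddCommGroup V]
    [Module ℂ V] [FiniteDimensional ℂ V]
    (ρ : Representation ℂ G V) [ρ.IsIrreducible] (z w : G)
    [DecidablePred fun x : G => IsConj x z] :
    ∑ x : G, (if IsConj x z then ρ.character (x * w) else 0) =
      (((Subgroup.centralizer ({z} : Set G)).index : ℂ) * ρ.character z /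
        (Module.finrank ℂ V : ℂ)) * ρ.character w := by
  have h := Cfsg.Agent.Helper1.classSum_eq_smul ρ z
  have h2 := congrArg (fun T : Module.End ℂ V => LinearMap.trace ℂ V (T * ρ w)) h
  simp only [Finset.sum_mul, map_sum] at h2
  rw [← Module.End.one_eq_id, smul_mul_assoc, one_mul, map_smul, smul_eq_mul] at h2
  have h3 : (LinearMap.trace ℂ V) (ρ w) = ρ.character w := rfl
  rw [h3] at h2
  rw [← h2]
  apply Finset.sum_congr rfl
  intro x _
  by_cases hx : IsConj x z
  · rw [if_pos hx, if_pos hx, ← map_mul]; rfl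
  · rw [if_neg hx, if_neg hx, zero_mul, map_zero]


/-- Peterfalvi (6.7): an irreducible character constant on `Z ∖ 1`, `Z` central in a TI Sylow
subgroup `P` with normaliser of odd order, has an integer value `n` there with `|P| ∣ ψ(1) - n`. -/
theorem central_ti_congruence {G : Type*} [Group G] [Fintype G] (p : ℕ) [Fact p.Prime]
    (P : Sylow p G)
    (hTI : Cfsg.IsTISubset ((P : Subgroup G) : Set G))
    (hodd : Odd (Nat.card (Subgroup.normalizer ((P : Subgroup G) : Set G))))
    (Z : Subgroup G) (hZ1 : Z ≠ ⊥) (hZP : Z ≤ P)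
    (hZn : ∀ x ∈ Subgroup.normalizer ((P : Subgroup G) : Set G), ∀ z ∈ Z, x * z * x⁻¹ ∈ Z)
    (hZc : ∀ z ∈ Z, ∀ y ∈ (P : Subgroup G), z * y = y * z)
    (ψ : G → ℂ) (hψ : Cfsg.IsIrrCharacter G ψ)
    (hconst : ∀ z ∈ Z, ∀ z' ∈ Z, z ≠ 1 → z' ≠ 1 → ψ z = ψ z') (z : G) (hz : z ∈ Z)
    (hz1 : z ≠ 1) :
    ∃ n d : ℤ, ψ z = n ∧ ψ 1 = d ∧ (Nat.card (P : Subgroup G) : ℤ) ∣ d - n := by
  classical
  obtain ⟨m, ρ, hirr, rfl⟩ := hψ
  have _hirr := hirr
  set L := Subgroup.normalizer ((P : Subgroup G) : Set G) with hL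
  have hint : ∀ g, IsIntegral ℤ (ρ.character g) := fun g => Cfsg.Agent.Helper1.isIntegral_char ρ g
  have hcf : ∀ g h : G, ρ.character (h * g * h⁻¹) = ρ.character g :=
    Cfsg.Agent.Helper1.isClassFunction_character ρ
  have hd : ρ.character 1 = (m : ℂ) := by
    simp [Representation.character]
  have hPL : (P : Subgroup G) ≤ L := Subgroup.le_normalizer
  have hzP : z ∈ (P : Subgroup G) := hZP hz
  -- the value at `z` is an integer
  have hn : ∃ n : ℤ, ρ.character z = (n : ℂ) := by
    have hres : Cfsg.IsCharacter Z (fun y : Z => ρ.character y) :=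
      Cfsg.Agent.Helper2.isCharacter_restrict Z ⟨m, ρ, rfl⟩
    obtain ⟨N, hN⟩ := Cfsg.Agent.Helper2.classInner_char_nat hres
      (Cfsg.Agent.Helper2.isCharacter_one (G := Z))
    unfold Cfsg.classInner at hN
    simp only [map_one, mul_one] at hN
    have hcard : 1 < Nat.card Z := Z.one_lt_card_iff_ne_bot.mpr hZ1
    have hsum : ∑ y : Z, ρ.character (y : G) =
        ρ.character 1 + ((Nat.card Z : ℂ) - 1) * ρ.character z := by
      rw [← Finset.add_sum_erase Finset.univ _ (Finset.mem_univ (1 : Z))]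
      congr 1
      rw [Finset.sum_congr rfl (fun (y : Z) hy => hconst (y : G) y.2 z hz (by
            intro h; exact (Finset.ne_of_mem_erase hy) (Subtype.ext h)) hz1)]
      rw [Finset.sum_const, Finset.card_erase_of_mem (Finset.mem_univ _), Finset.card_univ,
        nsmul_eq_mul, ← Nat.card_eq_fintype_card]
      congr 1
      have h1 : 1 ≤ Nat.card Z := hcard.le
      rw [Nat.cast_sub h1, Nat.cast_one]
    rw [hsum, hd] at hN
    have hc1 : ((Nat.card Z : ℂ) - 1) ≠ 0 := by
      have : (1 : ℝ) < (Nat.card Z : ℝ) := by exact_mod_cast hcard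
      have h2 : ((Nat.card Z : ℂ) - 1) = (((Nat.card Z : ℝ) - 1 : ℝ) : ℂ) := by push_cast; ring
      rw [h2]
      exact_mod_cast (sub_pos.mpr this).ne'
    have hc0 : (Nat.card Z : ℂ) ≠ 0 := by
      have : Nat.card Z ≠ 0 := by omega
      exact_mod_cast this
    apply int_of_rat_isIntegral _ (hint z) (((Nat.card Z : ℚ) * N - m) / ((Nat.card Z : ℚ) - 1))
    push_cast
    rw [eq_div_iff hc1]
    have h3 : (m : ℂ) + ((Nat.card Z : ℂ) - 1) * ρ.character z = (Nat.card Z : ℂ) * N := by
      rw [← hN, ← mul_assoc, mul_inv_cancel₀ hc0, one_mul]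
    linear_combination h3
  obtain ⟨n, hn⟩ := hn
  have hzi : z⁻¹ ∈ Z := Z.inv_mem hz
  have hzi1 : z⁻¹ ≠ 1 := by simpa using hz1
  have hzinv : ρ.character z⁻¹ = ρ.character z := hconst _ hzi _ hz hzi1 hz1
  have hS1 := class_sum_char_mul ρ z z
  have hS2 := class_sum_char_mul ρ z z⁻¹
  have hSeq : ∑ x : G, (if IsConj x z then ρ.character (x * z) else 0) =
      ∑ x : G, (if IsConj x z then ρ.character (x * z⁻¹) else 0) := by
    rw [hS1, hS2, hzinv]
  -- conjugates of `z` inside `P`
  have hkey : ∀ x : G, IsConj x z → x ∈ (P : Subgroup G) → ∃ c ∈ L, c * x * c⁻¹ = z := by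
    intro x hx hxP
    obtain ⟨c, hc⟩ := isConj_iff.mp hx
    refine ⟨c, ?_, hc⟩
    by_contra hcL
    have h1 := hTI c hcL x hxP (by rw [hc]; exact hzP)
    rw [h1] at hc
    apply hz1
    rw [← hc]; group
  have hxZ : ∀ x : G, IsConj x z → x ∈ (P : Subgroup G) → x ∈ Z := by
    intro x hx hxP
    obtain ⟨c, hcL, hc⟩ := hkey x hx hxP
    have h1 := hZn c⁻¹ (L.inv_mem hcL) z hz
    rw [← hc] at h1
    have h2 : c⁻¹ * (c * x * c⁻¹) * c⁻¹⁻¹ = x := by group
    rwa [h2] at h1
  have hoddL : ∀ c ∈ L, Odd (orderOf c) := by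
    intro c hcL
    have h1 : orderOf c ∣ Nat.card L := by
      have h2 := orderOf_dvd_natCard (⟨c, hcL⟩ : L)
      rwa [Subgroup.orderOf_mk] at h2
    exact Odd.of_dvd_nat hodd h1
  have hxne : ∀ x : G, IsConj x z → x ∈ (P : Subgroup G) → x ≠ z⁻¹ := by
    intro x hx hxP hxz
    obtain ⟨c, hcL, hc⟩ := hkey x hx hxP
    rw [hxz] at hc
    have h1 : c * z * c⁻¹ = z⁻¹ := by
      have h0 : (c * z⁻¹ * c⁻¹)⁻¹ = z⁻¹ := congrArg (fun t => t⁻¹) hc
      rw [← h0]; group
    have h2 : (c * c) * z = z * (c * c) := by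
      calc c * c * z = c * (c * z * c⁻¹) * c := by group
        _ = c * z⁻¹ * c := by rw [h1]
        _ = (c * z⁻¹ * c⁻¹) * (c * c) := by group
        _ = z * (c * c) := by rw [hc]
    obtain ⟨k, hk⟩ := hoddL c hcL
    have h3 : c = (c * c) ^ (k + 1) := by
      rw [← pow_two, ← pow_mul, show 2 * (k + 1) = orderOf c + 1 by omega, pow_succ,
        pow_orderOf_eq_one, one_mul]
    have h4 : c * z = z * c := by
      have h5 : Commute (c * c) z := h2
      have h6 := h5.pow_left (k + 1)
      rw [← h3] at h6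
      exact h6
    have h5 : z = z⁻¹ := by
      rw [← h1, h4]; group
    have h6 : z ^ 2 = 1 := by
      rw [pow_two]; nth_rewrite 2 [h5]; exact mul_inv_cancel z
    have h7 : orderOf z ∣ 2 := orderOf_dvd_of_pow_eq_one h6
    have hzo := hoddL z (hPL hzP)
    have h8 : orderOf z = 1 := by
      rcases (Nat.dvd_prime Nat.prime_two).mp h7 with h | h
      · exact h
      · rw [h] at hzo; exact absurd hzo (by decide)
    exact hz1 (orderOf_eq_one_iff.mp h8)
  -- splitting the class sums
  set T : Finset G := Finset.univ.filter (fun x : G => IsConj x z ∧ x ∈ (P : Subgroup G)) with hT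
  have hsplit : ∀ w : G, ∑ x : G, (if IsConj x z then ρ.character (x * w) else 0) =
      ∑ x ∈ T, ρ.character (x * w) + ∑ x : G,
        (if IsConj x z ∧ x ∉ (P : Subgroup G) then ρ.character (x * w) else 0) := by
    intro w
    rw [hT, Finset.sum_filter, ← Finset.sum_add_distrib]
    apply Finset.sum_congr rfl
    intro x _
    by_cases h1 : IsConj x z <;> by_cases h2 : x ∈ (P : Subgroup G) <;> simp [h1, h2]
  -- the free action of `P` by conjugation
  have hfreeSum : ∀ w ∈ Z, ∃ A : ℂ, IsIntegral ℤ A ∧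
      ∑ x : G, (if IsConj x z ∧ x ∉ (P : Subgroup G) then ρ.character (x * w) else 0) =
        (Nat.card (P : Subgroup G) : ℂ) * A := by
    intro w hw
    have h := sum_free_action (Γ := (P : Subgroup G)) (α := G)
      (fun u x => (u : G) * x * (u : G)⁻¹) (by intro x; simp)
      (by intro u v x; simp [mul_assoc])
      (fun x => if IsConj x z ∧ x ∉ (P : Subgroup G) then ρ.character (x * w) else 0)
      (by
        intro u x
        have hc1 : IsConj ((u : G) * x * (u : G)⁻¹) z ↔ IsConj x z := by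
          have h0 : IsConj x ((u : G) * x * (u : G)⁻¹) := isConj_iff.mpr ⟨u, rfl⟩
          exact ⟨fun h => h0.trans h, fun h => h0.symm.trans h⟩
        have hc2 : (u : G) * x * (u : G)⁻¹ ∈ (P : Subgroup G) ↔ x ∈ (P : Subgroup G) := by
          rw [Subgroup.mul_mem_cancel_right _ (Subgroup.inv_mem _ u.2),
            Subgroup.mul_mem_cancel_left _ u.2]
        have hc3 : ρ.character ((u : G) * x * (u : G)⁻¹ * w) = ρ.character (x * w) := by
          have h0 : w * (u : G) = (u : G) * w := hZc w hw u u.2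
          have h1 : (u : G) * x * (u : G)⁻¹ * w = (u : G) * (x * w) * (u : G)⁻¹ := by
            have h2 : (u : G)⁻¹ * w = w * (u : G)⁻¹ := by
              rw [eq_mul_inv_iff_mul_eq, mul_assoc, h0, ← mul_assoc, inv_mul_cancel, one_mul]
            rw [mul_assoc, h2]; group
          rw [h1, hcf]
        simp only [hc1, hc2, hc3])
      (by
        intro x hx u hu
        have hx' : IsConj x z ∧ x ∉ (P : Subgroup G) := by
          by_contra h0
          exact hx (if_neg h0)
        obtain ⟨hxc, hxP⟩ := hx'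
        obtain ⟨c, hc⟩ := isConj_iff.mp hxc
        have hu' : (u : G) * x * (u : G)⁻¹ = x := hu
        -- `u' = c u c⁻¹` centralises `z`
        have hcz : (c * (u : G) * c⁻¹) * z * (c * (u : G) * c⁻¹)⁻¹ = z := by
          calc (c * (u : G) * c⁻¹) * z * (c * (u : G) * c⁻¹)⁻¹
              = (c * (u : G) * c⁻¹) * (c * x * c⁻¹) * (c * (u : G) * c⁻¹)⁻¹ := by rw [hc]
            _ = c * ((u : G) * x * (u : G)⁻¹) * c⁻¹ := by group
            _ = z := by rw [hu', hc]
        have hu'L : c * (u : G) * c⁻¹ ∈ L := by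
          by_contra h0
          exact hz1 (hTI _ h0 z hzP (by rw [hcz]; exact hzP))
        obtain ⟨k, hk⟩ := P.isPGroup' u
        have hk' : (u : G) ^ p ^ k = 1 := by
          have h0 := congrArg Subtype.val hk
          rwa [SubmonoidClass.coe_pow, OneMemClass.coe_one] at h0
        have hu'P : c * (u : G) * c⁻¹ ∈ (P : Subgroup G) := by
          apply Cfsg.Agent.Helper1.mem_sylow_of_mem_normalizer_of_pow_eq_one P _ hu'L k
          rw [conj_pow, hk']; group
        by_cases hu1 : c * (u : G) * c⁻¹ = 1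
        · apply Subtype.ext
          have h0 : (u : G) = c⁻¹ * (c * (u : G) * c⁻¹) * c := by group
          rw [h0, hu1]; simp
        · exfalso
          have hcL : c⁻¹ ∈ L := by
            by_contra h0
            apply hu1
            apply hTI c⁻¹ h0 _ hu'P
            have h1 : c⁻¹ * (c * (u : G) * c⁻¹) * c⁻¹⁻¹ = (u : G) := by group
            rw [h1]; exact u.2
          apply hxP
          have h1 : x = c⁻¹ * z * c⁻¹⁻¹ := by rw [← hc]; group
          rw [h1]
          exact (Subgroup.mem_normalizer_iff.mp hcL z).mp hzP)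
      (by
        intro x
        by_cases h0 : IsConj x z ∧ x ∉ (P : Subgroup G)
        · rw [if_pos h0]; exact hint _
        · rw [if_neg h0]; exact isIntegral_zero)
    obtain ⟨A, hA, hsum⟩ := h
    refine ⟨A, hA, ?_⟩
    rw [hsum, Nat.card_eq_fintype_card]
  obtain ⟨A1, hA1, hs1⟩ := hfreeSum z hz
  obtain ⟨A2, hA2, hs2⟩ := hfreeSum z⁻¹ hzi
  -- the part inside `P`
  have hzT : z ∈ T := by
    rw [hT, Finset.mem_filter]
    exact ⟨Finset.mem_univ _, IsConj.refl z, hzP⟩
  have hT1 : ∑ x ∈ T, ρ.character (x * z) = (T.card : ℂ) * (n : ℂ) := by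
    have h0 : ∀ x ∈ T, ρ.character (x * z) = (n : ℂ) := by
      intro x hx
      rw [hT, Finset.mem_filter] at hx
      rw [← hn]
      apply hconst _ (Z.mul_mem (hxZ x hx.2.1 hx.2.2) hz) _ hz _ hz1
      intro h1
      exact hxne x hx.2.1 hx.2.2 (eq_inv_of_mul_eq_one_left h1)
    rw [Finset.sum_congr rfl h0, Finset.sum_const, nsmul_eq_mul]
  have hT2 : ∑ x ∈ T, ρ.character (x * z⁻¹) = (m : ℂ) + ((T.card : ℂ) - 1) * (n : ℂ) := by
    rw [← Finset.add_sum_erase T _ hzT, mul_inv_cancel, hd]
    congr 1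
    have h0 : ∀ x ∈ T.erase z, ρ.character (x * z⁻¹) = (n : ℂ) := by
      intro x hx
      have hxT := Finset.mem_of_mem_erase hx
      rw [hT, Finset.mem_filter] at hxT
      rw [← hn]
      apply hconst _ (Z.mul_mem (hxZ x hxT.2.1 hxT.2.2) hzi) _ hz _ hz1
      intro h1
      exact (Finset.ne_of_mem_erase hx) (mul_inv_eq_one.mp h1)
    rw [Finset.sum_congr rfl h0, Finset.sum_const, nsmul_eq_mul,
      Finset.card_erase_of_mem hzT]
    congr 1
    have h1 : 1 ≤ T.card := Finset.card_pos.mpr ⟨z, hzT⟩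
    rw [Nat.cast_sub h1, Nat.cast_one]
  rw [hsplit z, hsplit z⁻¹, hT1, hT2, hs1, hs2] at hSeq
  have hPc : (Nat.card (P : Subgroup G) : ℂ) ≠ 0 := by
    have : Nat.card (P : Subgroup G) ≠ 0 := Nat.card_pos.ne'
    exact_mod_cast this
  have hfin : (m : ℂ) - (n : ℂ) = (Nat.card (P : Subgroup G) : ℂ) * (A1 - A2) := by
    linear_combination (-1 : ℂ) * hSeq
  have hA : IsIntegral ℤ (A1 - A2) := hA1.sub hA2
  obtain ⟨k, hk⟩ := int_of_rat_isIntegral (A1 - A2) hA
    (((m : ℚ) - (n : ℚ)) / (Nat.card (P : Subgroup G) : ℚ)) (by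
      push_cast
      rw [eq_div_iff hPc, mul_comm, hfin])
  refine ⟨n, (m : ℤ), hn, by rw [hd]; simp, ⟨k, ?_⟩⟩
  have h9 : ((m : ℤ) - n : ℂ) = ((Nat.card (P : Subgroup G) : ℤ) * k : ℂ) := by
    push_cast
    rw [← hk, ← hfin]
  exact_mod_cast h9

end Cfsg.Agent.Helper11
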