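import Mathlib
import Cfsg.Agent.Helper11.CliffCorr
import Cfsg.Agent.Helper7.DetChar
import Cfsg.Agent.Helper2.Artin
import Cfsg.Agent.Helper2.IndExtra

/-!
# Clifford theory over an abelian inertia quotient (helper11)

`H ⊴ G`, `θ ∈ Irr(H)` with inertia group `T`, `T / H` abelian.  Then all irreducible characters
of `T` over `θ` have the same ramification `e`, and `θ^G = e ∑ χ` over a set of
`|T:H| / e²` irreducible characters of `G`, each of degree `[G:T] e θ(1)`.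
-/

set_option autoImplicit false

namespace Cfsg.Agent.Helper11

open Cfsg
open scoped ComplexConjugate

universe u

/-- Characters of a finite abelian group sum to zero at a non-identity element. -/
theorem sum_hom_apply_ne_one (A : Type*) [CommGroup A] [Finite A] [Fintype (A →* ℂˣ)] (a : A)
    (ha : a ≠ 1) : ∑ φ : A →* ℂˣ, ((φ a : ℂˣ) : ℂ) = 0 := by
  obtain ⟨φ₀, hφ₀⟩ := CommGroup.exists_apply_ne_one_of_hasEnoughRootsOfUnity A ℂ ha
  have h1 : ∑ φ : A →* ℂˣ, ((φ₀ a : ℂˣ) : ℂ) * ((φ a : ℂˣ) : ℂ)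
      = ∑ φ : A →* ℂˣ, ((φ a : ℂˣ) : ℂ) :=
    Fintype.sum_equiv (Equiv.mulLeft φ₀) _ _ (fun φ => by simp)
  rw [← Finset.mul_sum] at h1
  have h2 : ((φ₀ a : ℂˣ) : ℂ) ≠ 1 := fun h => hφ₀ (Units.ext h)
  have h3 : (((φ₀ a : ℂˣ) : ℂ) - 1) * ∑ φ : A →* ℂˣ, ((φ a : ℂˣ) : ℂ) = 0 := by
    rw [sub_mul, h1, one_mul, sub_self]
  rcases mul_eq_zero.mp h3 with h | h
  · exact absurd (sub_eq_zero.mp h) h2
  · exact h

/-- Two irreducible characters of `T` whose product has nonzero sum over the kernel of a map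
onto a finite abelian group differ by a linear character of that abelian group. -/
theorem exists_twist {T : Type u} [Group T] [Fintype T] {A : Type*} [CommGroup A] [Finite A]
    [DecidableEq A] (π : T →* A) (ψ₁ ψ₂ : T → ℂ) (h₁ : IsIrrCharacter T ψ₁)
    (h₂ : IsIrrCharacter T ψ₂)
    (hne : ∑ t : T, (if π t = 1 then ψ₁ t * conj (ψ₂ t) else 0) ≠ 0) :
    ∃ φ : A →* ℂˣ, ψ₂ = fun t => ((φ (π t) : ℂˣ) : ℂ) * ψ₁ t := by
  classical
  have : Fintype (A →* ℂˣ) := Fintype.ofFinite _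
  by_contra hno
  push Not at hno
  have hz : ∀ φ : A →* ℂˣ, classInner (fun t => ((φ (π t) : ℂˣ) : ℂ) * ψ₁ t) ψ₂ = 0 := by
    intro φ
    have hirr : IsIrrCharacter T (fun t => (((φ.comp π) t : ℂˣ) : ℂ) * ψ₁ t) :=
      Cfsg.Agent.Helper7.isIrrCharacter_hom_mul (φ.comp π) ψ₁ h₁
    have h3 := Cfsg.Agent.Helper2.classInner_irr_irr (⟨_, hirr⟩ : IrrCharacter T) ⟨ψ₂, h₂⟩
    rw [if_neg] at h3
    · exact h3
    · intro h
      apply hno φ
      have := congrArg Subtype.val h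
      exact this.symm
  have hsum : ∑ φ : A →* ℂˣ, classInner (fun t => ((φ (π t) : ℂˣ) : ℂ) * ψ₁ t) ψ₂ = 0 :=
    Finset.sum_eq_zero (fun φ _ => hz φ)
  apply hne
  have hcomp : ∑ φ : A →* ℂˣ, classInner (fun t => ((φ (π t) : ℂˣ) : ℂ) * ψ₁ t) ψ₂
      = (Nat.card T : ℂ)⁻¹ * ((Fintype.card (A →* ℂˣ) : ℂ) *
          ∑ t : T, (if π t = 1 then ψ₁ t * conj (ψ₂ t) else 0)) := by
    unfold classInner
    rw [← Finset.mul_sum, Finset.sum_comm]
    congr 1
    rw [Finset.mul_sum]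
    apply Finset.sum_congr rfl
    intro t _
    show ∑ φ : A →* ℂˣ, ((φ (π t) : ℂˣ) : ℂ) * ψ₁ t * conj (ψ₂ t) = _
    have e1 : ∑ φ : A →* ℂˣ, ((φ (π t) : ℂˣ) : ℂ) * ψ₁ t * conj (ψ₂ t)
        = (∑ φ : A →* ℂˣ, ((φ (π t) : ℂˣ) : ℂ)) * (ψ₁ t * conj (ψ₂ t)) := by
      rw [Finset.sum_mul]
      apply Finset.sum_congr rfl
      intro φ _
      ring
    rw [e1]
    by_cases ht : π t = 1
    · rw [if_pos ht, ht]
      simp
    · rw [if_neg ht, sum_hom_apply_ne_one A (π t) ht, zero_mul, mul_zero]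
  rw [hcomp] at hsum
  have hT : (Nat.card T : ℂ)⁻¹ ≠ 0 := inv_ne_zero (Nat.cast_ne_zero.mpr Nat.card_pos.ne')
  have hN : (Fintype.card (A →* ℂˣ) : ℂ) ≠ 0 := Nat.cast_ne_zero.mpr Fintype.card_ne_zero
  rcases mul_eq_zero.mp hsum with h | h
  · exact absurd h hT
  · rcases mul_eq_zero.mp h with h | h
    · exact absurd h hN
    · exact h

section CA

variable {G : Type u} [Group G] [Fintype G] (H T : Subgroup G) [hN : H.Normal] [Fintype H]
  [Fintype T] (θ : H → ℂ) (hHT : H ≤ T)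
  (hT : ∀ g : G, g ∈ T ↔ ∀ h : H, θ ⟨g * h * g⁻¹, hN.conj_mem h h.2 g⟩ = θ h)

include hT in
/-- With `T / H` abelian, two irreducible characters of `T` over `θ` have the same restriction
to `H`. -/
theorem cc_abelian_const (hab : ∀ x ∈ T, ∀ y ∈ T, x * y * x⁻¹ * y⁻¹ ∈ H)
    (hθ : IsIrrCharacter H θ) (ψ₁ ψ₂ : T → ℂ) (h₁ : IsIrrCharacter T ψ₁)
    (h₂ : IsIrrCharacter T ψ₂)
    (hne₁ : classInner (fun n : H => ψ₁ ⟨(n : G), hHT n.2⟩) θ ≠ 0)
    (hne₂ : classInner (fun n : H => ψ₂ ⟨(n : G), hHT n.2⟩) θ ≠ 0) :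
    (fun n : H => ψ₂ ⟨(n : G), hHT n.2⟩) = (fun n : H => ψ₁ ⟨(n : G), hHT n.2⟩) := by
  classical
  have hKn : (H.subgroupOf T).Normal := inferInstance
  let _ : CommGroup (T ⧸ H.subgroupOf T) :=
    { (inferInstance : Group (T ⧸ H.subgroupOf T)) with
      mul_comm := by
        intro a b
        obtain ⟨x, rfl⟩ := QuotientGroup.mk_surjective a
        obtain ⟨y, rfl⟩ := QuotientGroup.mk_surjective b
        rw [← QuotientGroup.mk_mul, ← QuotientGroup.mk_mul, QuotientGroup.eq]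
        rw [Subgroup.mem_subgroupOf]
        have := hab (y : G)⁻¹ (T.inv_mem y.2) (x : G)⁻¹ (T.inv_mem x.2)
        have e : (((x * y)⁻¹ * (y * x) : T) : G) = (y : G)⁻¹ * (x : G)⁻¹ * (y : G)⁻¹⁻¹ * (x : G)⁻¹⁻¹ := by
          simp [mul_assoc]
        rw [e]
        exact this }
  let π : T →* T ⧸ H.subgroupOf T := QuotientGroup.mk' (H.subgroupOf T)
  have hπ : ∀ t : T, π t = 1 ↔ (t : G) ∈ H := fun t =>
    (QuotientGroup.eq_one_iff t).trans Subgroup.mem_subgroupOf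
  have hr₁ := cc_restrict H T θ hHT hT hθ ψ₁ h₁ hne₁
  have hr₂ := cc_restrict H T θ hHT hT hθ ψ₂ h₂ hne₂
  have hne : ∑ t : T, (if π t = 1 then ψ₁ t * conj (ψ₂ t) else 0) ≠ 0 := by
    have e1 : ∑ t : T, (if π t = 1 then ψ₁ t * conj (ψ₂ t) else 0)
        = ∑ n : H, ψ₁ ⟨(n : G), hHT n.2⟩ * conj (ψ₂ ⟨(n : G), hHT n.2⟩) := by
      rw [← Finset.sum_filter]
      symm
      refine Finset.sum_bij (fun (n : H) _ => (⟨(n : G), hHT n.2⟩ : T)) ?_ ?_ ?_ ?_
      · intro n _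
        rw [Finset.mem_filter]
        exact ⟨Finset.mem_univ _, (hπ _).mpr n.2⟩
      · intro a _ b _ hab'
        exact Subtype.ext (congrArg (fun t : T => (t : G)) hab')
      · intro t ht
        rw [Finset.mem_filter] at ht
        exact ⟨⟨(t : G), (hπ t).mp ht.2⟩, Finset.mem_univ _, Subtype.ext rfl⟩
      · intro n _
        rfl
    rw [e1]
    have e2 : ∑ n : H, ψ₁ ⟨(n : G), hHT n.2⟩ * conj (ψ₂ ⟨(n : G), hHT n.2⟩)
        = classInner (fun n : H => ψ₁ ⟨(n : G), hHT n.2⟩) θ *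
          conj (classInner (fun n : H => ψ₂ ⟨(n : G), hHT n.2⟩) θ) *
          ∑ n : H, θ n * conj (θ n) := by
      rw [Finset.mul_sum]
      apply Finset.sum_congr rfl
      intro n _
      rw [hr₁ n, hr₂ n, map_mul]
      ring
    rw [e2]
    have e3 : ∑ n : H, θ n * conj (θ n) = (Nat.card H : ℂ) := by
      have := Cfsg.Agent.Helper2.classInner_irr_irr (⟨θ, hθ⟩ : IrrCharacter H) ⟨θ, hθ⟩
      rw [if_pos rfl] at this
      unfold classInner at this
      have hH : (Nat.card H : ℂ) ≠ 0 := Nat.cast_ne_zero.mpr Nat.card_pos.ne'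
      field_simp at this
      exact this
    rw [e3]
    exact mul_ne_zero (mul_ne_zero hne₁ ((map_ne_zero _).mpr hne₂))
      (Nat.cast_ne_zero.mpr Nat.card_pos.ne')
  obtain ⟨φ, hφ⟩ := exists_twist π ψ₁ ψ₂ h₁ h₂ hne
  funext n
  rw [hφ]
  have h1 : π ⟨(n : G), hHT n.2⟩ = 1 := (hπ _).mpr n.2
  show ((φ (π ⟨(n : G), hHT n.2⟩) : ℂˣ) : ℂ) * ψ₁ ⟨(n : G), hHT n.2⟩ = ψ₁ ⟨(n : G), hHT n.2⟩
  rw [h1, map_one, Units.val_one, one_mul]

include hT in
/-- **Clifford theory with abelian inertia quotient.** -/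
theorem cc_abelian (hab : ∀ x ∈ T, ∀ y ∈ T, x * y * x⁻¹ * y⁻¹ ∈ H)
    (hθ : IsIrrCharacter H θ) :
    ∃ (e : ℕ) (C : Finset (G → ℂ)), 0 < e ∧ (∀ χ ∈ C, IsIrrCharacter G χ) ∧
      e ^ 2 * C.card * Nat.card H = Nat.card T ∧ indFun H θ = (e : ℂ) • ∑ χ ∈ C, χ ∧
      (∀ χ ∈ C, χ 1 = (T.index : ℂ) * e * θ 1) ∧
      ∀ ψ : T → ℂ, IsIrrCharacter T ψ →
        classInner (fun n : H => ψ ⟨(n : G), hHT n.2⟩) θ ≠ 0 →
        classInner (fun n : H => ψ ⟨(n : G), hHT n.2⟩) θ = e := by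
  classical
  have hθch : IsCharacter H θ := Cfsg.Agent.Helper2.isCharacter_of_isIrrCharacter hθ
  have hbnat : ∀ ψ' : IrrCharacter T, ∃ m : ℕ,
      classInner (fun n : H => (ψ' : T → ℂ) ⟨(n : G), hHT n.2⟩) θ = m := fun ψ' =>
    cc_b_nat H T θ hHT hθ _ (Cfsg.Agent.Helper2.isCharacter_of_isIrrCharacter ψ'.2)
  choose b hb using hbnat
  -- the decomposition of `θ^G`
  have hF3 : indFun H θ = ∑ ψ : IrrCharacter T, (b ψ : ℂ) • indFun T (ψ : T → ℂ) := by
    have : Fintype (H.subgroupOf T) := Fintype.ofFinite _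
    rw [← Cfsg.Agent.Helper2.indFun_trans H T hHT θ]
    have hcl := Cfsg.Agent.Helper2.indFun_isClassFunction (H.subgroupOf T)
      (fun x => θ ⟨(x : T), Subgroup.mem_subgroupOf.mp x.2⟩)
    have hexp := Cfsg.Agent.Helper2.classFun_eq_sum_classInner hcl
    have hco : ∀ ψ : IrrCharacter T, classInner (indFun (H.subgroupOf T)
        (fun x => θ ⟨(x : T), Subgroup.mem_subgroupOf.mp x.2⟩)) (ψ : T → ℂ) = (b ψ : ℂ) := by
      intro ψ
      rw [Cfsg.Agent.Helper2.frobenius_reciprocity (H.subgroupOf T) _ (ψ : T → ℂ)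
        (Cfsg.Agent.Helper2.isClassFunction_of_isCharacter
          (Cfsg.Agent.Helper2.isCharacter_of_isIrrCharacter ψ.2)),
        Cfsg.Agent.Helper2.classInner_conj_symm (fun n : H.subgroupOf T => (ψ : T → ℂ) n)
          (fun x => θ ⟨(x : T), Subgroup.mem_subgroupOf.mp x.2⟩)]
      have hinner : classInner (fun n : H.subgroupOf T => (ψ : T → ℂ) n)
          (fun x => θ ⟨(x : T), Subgroup.mem_subgroupOf.mp x.2⟩)
          = classInner (fun n : H => (ψ : T → ℂ) ⟨(n : G), hHT n.2⟩) θ :=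
        Cfsg.Agent.S0854.classInner_equiv (Subgroup.subgroupOfEquivOfLe hHT).toEquiv
          (fun n : H => (ψ : T → ℂ) ⟨(n : G), hHT n.2⟩) θ
      rw [hinner, hb, Complex.conj_natCast]
    conv_lhs => rw [hexp]
    rw [Cfsg.Agent.Helper2.indFun_sum]
    apply Finset.sum_congr rfl
    intro ψ _
    rw [Cfsg.Agent.Helper2.indFun_smul, hco]
  have hθ1 : θ 1 ≠ 0 := Cfsg.Agent.Helper25.irr_one_ne_zero (⟨θ, hθ⟩ : IrrCharacter H)
  -- some ψ lies over θ
  obtain ⟨ψ₀, hψ₀⟩ : ∃ ψ₀ : IrrCharacter T, b ψ₀ ≠ 0 := by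
    by_contra hno
    push Not at hno
    have h0 : indFun H θ = 0 := by
      rw [hF3]
      apply Finset.sum_eq_zero
      intro ψ _
      rw [hno ψ, Nat.cast_zero, zero_smul]
    have h1 := Cfsg.Agent.Helper2.indFun_one_apply H θ
    rw [h0] at h1
    have hidx : (H.index : ℂ) ≠ 0 := Nat.cast_ne_zero.mpr (Nat.pos_of_ne_zero Subgroup.index_ne_zero_of_finite).ne'
    exact (mul_ne_zero hidx hθ1) h1.symm
  have hne_of : ∀ ψ : IrrCharacter T, b ψ ≠ 0 →
      classInner (fun n : H => (ψ : T → ℂ) ⟨(n : G), hHT n.2⟩) θ ≠ 0 := by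
    intro ψ h
    rw [hb]
    exact_mod_cast h
  have hconst : ∀ ψ : IrrCharacter T, b ψ ≠ 0 → b ψ = b ψ₀ := by
    intro ψ h
    have h1 := cc_abelian_const H T θ hHT hT hab hθ (ψ₀ : T → ℂ) (ψ : T → ℂ) ψ₀.2 ψ.2
      (hne_of ψ₀ hψ₀) (hne_of ψ h)
    have h2 : (b ψ : ℂ) = (b ψ₀ : ℂ) := by rw [← hb, ← hb, h1]
    exact_mod_cast h2
  set e := b ψ₀ with he
  let S : Finset (IrrCharacter T) := Finset.univ.filter (fun ψ => b ψ ≠ 0)
  have hSmem : ∀ ψ : IrrCharacter T, ψ ∈ S ↔ b ψ ≠ 0 := fun ψ => by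
    simp only [S, Finset.mem_filter, Finset.mem_univ, true_and]
  have hinj : Set.InjOn (fun ψ : IrrCharacter T => indFun T (ψ : T → ℂ)) (S : Set (IrrCharacter T)) := by
    intro ψ hψ ψ' hψ' heq
    have h1 := (hSmem ψ).mp hψ
    have h2 := (hSmem ψ').mp hψ'
    apply Subtype.ext
    exact cc_inj H T θ hHT hT hθ (ψ : T → ℂ) (ψ' : T → ℂ) ψ.2 ψ'.2 (hne_of ψ h1) (hne_of ψ' h2) heq
  let C : Finset (G → ℂ) := S.image (fun ψ : IrrCharacter T => indFun T (ψ : T → ℂ))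
  have hCsum : ∑ χ ∈ C, χ = ∑ ψ ∈ S, indFun T (ψ : T → ℂ) := Finset.sum_image hinj
  have hCcard : C.card = S.card := Finset.card_image_of_injOn hinj
  have hind : indFun H θ = (e : ℂ) • ∑ χ ∈ C, χ := by
    rw [hF3, hCsum, Finset.smul_sum]
    rw [← Finset.sum_filter_add_sum_filter_not Finset.univ (fun ψ : IrrCharacter T => b ψ ≠ 0)]
    have hz : ∑ ψ ∈ Finset.univ.filter (fun ψ : IrrCharacter T => ¬ b ψ ≠ 0),
        (b ψ : ℂ) • indFun T (ψ : T → ℂ) = 0 := by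
      apply Finset.sum_eq_zero
      intro ψ hψ
      rw [Finset.mem_filter] at hψ
      have : b ψ = 0 := not_not.mp hψ.2
      rw [this, Nat.cast_zero, zero_smul]
    rw [hz, add_zero]
    apply Finset.sum_congr rfl
    intro ψ hψ
    rw [hconst ψ ((hSmem ψ).mp hψ)]
  have hdeg : ∀ ψ ∈ S, indFun T (ψ : T → ℂ) 1 = (T.index : ℂ) * e * θ 1 := by
    intro ψ hψ
    have h1 := (hSmem ψ).mp hψ
    rw [Cfsg.Agent.Helper2.indFun_one_apply]
    have h2 := cc_restrict H T θ hHT hT hθ (ψ : T → ℂ) ψ.2 (hne_of ψ h1) 1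
    have h3 : (ψ : T → ℂ) 1 = (e : ℂ) * θ 1 := by
      rw [hb, hconst ψ h1] at h2
      exact h2
    rw [h3, mul_assoc]
  refine ⟨e, C, Nat.pos_of_ne_zero hψ₀, ?_, ?_, hind, ?_, ?_⟩
  · intro χ hχ
    obtain ⟨ψ, hψ, rfl⟩ := Finset.mem_image.mp hχ
    exact cc_irr H T θ hHT hT hθ (ψ : T → ℂ) ψ.2 (hne_of ψ ((hSmem ψ).mp hψ))
  · -- the count, by evaluating at 1
    have h1 := Cfsg.Agent.Helper2.indFun_one_apply H θ
    have h2 : indFun H θ 1 = (e : ℂ) * ((S.card : ℂ) * ((T.index : ℂ) * e * θ 1)) := by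
      rw [hind, hCsum, Pi.smul_apply, Finset.sum_apply, smul_eq_mul,
        Finset.sum_congr rfl hdeg, Finset.sum_const, nsmul_eq_mul]
    rw [h1] at h2
    have h3 : (H.index : ℂ) = ((e ^ 2 * S.card * T.index : ℕ) : ℂ) := by
      have := mul_right_cancel₀ hθ1 (show (H.index : ℂ) * θ 1
        = ((e : ℂ) ^ 2 * (S.card : ℂ) * (T.index : ℂ)) * θ 1 by rw [h2]; ring)
      rw [this]
      push_cast
      ring
    have h4 : H.index = e ^ 2 * S.card * T.index := by exact_mod_cast h3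
    have h5 := Subgroup.card_mul_index H
    have h6 := Subgroup.card_mul_index T
    have hG : 0 < Nat.card G := Nat.card_pos
    rw [hCcard]
    have h7 : (e ^ 2 * S.card * Nat.card H) * T.index = Nat.card T * T.index := by
      have : Nat.card H * (e ^ 2 * S.card * T.index) = Nat.card T * T.index := by
        rw [← h4, h5, h6]
      rw [← this]
      ring
    have hTi : 0 < T.index := Nat.pos_of_ne_zero Subgroup.index_ne_zero_of_finite
    exact Nat.eq_of_mul_eq_mul_right hTi h7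
  · intro χ hχ
    obtain ⟨ψ, hψ, rfl⟩ := Finset.mem_image.mp hχ
    exact hdeg ψ hψ
  · intro ψ hψ hne
    have h1 : b ⟨ψ, hψ⟩ ≠ 0 := by
      intro h
      apply hne
      have := hb ⟨ψ, hψ⟩
      rw [h, Nat.cast_zero] at this
      exact this
    have := hb ⟨ψ, hψ⟩
    rw [hconst _ h1] at this
    exact this

end CA

end Cfsg.Agent.Helper11
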