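import Mathlib
import Cfsg.Agent.Helper7.DetChar
import Cfsg.Agent.Helper7.LinChar
import Cfsg.Agent.Helper25.CharArith
import Cfsg.Agent.S0863
import Cfsg.Agent.S0865

/-!
# Extension of invariant characters over a coprime solvable quotient (helper11)
-/

set_option autoImplicit false

namespace Cfsg.Agent.Helper11

open Cfsg

universe u

/-- An invariant irreducible character of a normal subgroup `K` of `T` with `T / K` solvable and
`|K|` coprime to `|T : K|` extends to `T`. -/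
theorem exists_ext_of_solvable_coprime {T : Type u} [Group T] [Finite T] (K : Subgroup T)
    [hK : K.Normal] (hsolv : Group.IsSolvable (T ⧸ K)) (ϑ : K → ℂ) (hϑ : IsIrrCharacter K ϑ)
    (hinv : ∀ (g : T) (n : K), ϑ ⟨g * n * g⁻¹, hK.conj_mem (n : T) n.2 g⟩ = ϑ n)
    (hcop : Nat.Coprime (Nat.card K) K.index) :
    ∃ χ : T → ℂ, IsIrrCharacter T χ ∧ ∀ n : K, χ n = ϑ n := by
  have hϑch : IsCharacter K ϑ := Cfsg.Agent.Helper2.isCharacter_of_isIrrCharacter hϑ
  have hd : ϑ 1 = (charDegree ϑ : ℂ) :=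
    Cfsg.Agent.Helper25.irr_one_eq_degree (⟨ϑ, hϑ⟩ : IrrCharacter K)
  have hdvd : charDegree ϑ ∣ Nat.card K :=
    Cfsg.Agent.Helper25.irr_degree_dvd_card (⟨ϑ, hϑ⟩ : IrrCharacter K)
  have hcopd : Nat.Coprime K.index (charDegree ϑ) := hcop.symm.coprime_dvd_right hdvd
  apply (Cfsg.Agent.S0863.result K hsolv ϑ hϑ hinv (charDegree ϑ) hd hcopd).mpr
  obtain ⟨δ, hδ⟩ := Cfsg.Agent.Helper7.exists_hom_detChar ϑ hϑch
  have hlam : IsCharacter K (detChar ϑ) ∧ detChar ϑ 1 = 1 := by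
    rw [hδ]
    exact ⟨Cfsg.Agent.Helper7.isCharacter_of_hom δ, by simp⟩
  have hinvd : ∀ (g : T) (n : K),
      detChar ϑ ⟨g * n * g⁻¹, hK.conj_mem (n : T) n.2 g⟩ = detChar ϑ n := by
    intro g n
    have h1 := Cfsg.Agent.Helper7.detChar_comp (MulAut.conjNormal g : K ≃* K).toMonoidHom ϑ hϑch
    have h2 : (fun h : K => ϑ ((MulAut.conjNormal g : K ≃* K).toMonoidHom h)) = ϑ := by
      funext h
      rw [← hinv g h]
      congr 1
    rw [h2] at h1
    have h3 := congrFun h1 n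
    rw [h3]
    congr 1
  have hcopo : Nat.Coprime K.index (orderOf (detChar ϑ)) := by
    rw [hδ, Cfsg.Agent.Helper7.orderOf_hom_fun]
    have : orderOf δ ∣ Nat.card K :=
      orderOf_dvd_of_pow_eq_one (Cfsg.Agent.Helper7.hom_pow_card_eq_one δ)
    exact hcop.symm.coprime_dvd_right this
  obtain ⟨μ, ⟨hμ, hμ1, hμN, -⟩, -⟩ := Cfsg.Agent.S0865.result K (detChar ϑ) hlam hinvd hcopo
  exact ⟨μ, hμ, hμ1, hμN⟩

end Cfsg.Agent.Helper11
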