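import Mathlib
import Cfsg.Prelude.Def_Characters
import Cfsg.Prelude.Def_OddOrderChar
import Cfsg.Agent.Helper2.CharExtra
import Cfsg.Agent.Helper7.BrauerChar
import Cfsg.Agent.Helper25.CharBasic

set_option autoImplicit false

/-!
Helper library (seat helper11): generic tools for coherence arguments — orthogonal projections onto
finite orthogonal families, integer spans, and linear isometries defined on integer spans.
-/

namespace Cfsg.Agent.Helper11

open Cfsg
open Cfsg.Agent.Helper2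

section

variable {L : Type*} [Group L] [Fintype L]

/-- The orthogonal projection onto the span of a finite orthogonal family. -/
noncomputable def cohProj (T : Finset (L → ℂ)) (f : L → ℂ) : L → ℂ :=
  ∑ ξ ∈ T, (classInner f ξ / classInner ξ ξ) • ξ

omit [Group L] [Fintype L] in
theorem zsmul_fun_eq (n : ℤ) (f : L → ℂ) : (n • f : L → ℂ) = (n : ℂ) • f := by
  funext x
  simp

theorem cohProj_add (T : Finset (L → ℂ)) (f g : L → ℂ) :
    cohProj T (f + g) = cohProj T f + cohProj T g := by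
  unfold cohProj
  rw [← Finset.sum_add_distrib]
  apply Finset.sum_congr rfl
  intro ξ _
  rw [classInner_add_left, add_div, add_smul]

theorem cohProj_zsmul (T : Finset (L → ℂ)) (n : ℤ) (f : L → ℂ) :
    cohProj T (n • f) = n • cohProj T f := by
  unfold cohProj
  rw [Finset.smul_sum]
  apply Finset.sum_congr rfl
  intro ξ _
  rw [zsmul_fun_eq n f, classInner_smul_left, mul_div_assoc, ← smul_smul, ← zsmul_fun_eq]

theorem cohProj_zero (T : Finset (L → ℂ)) : cohProj T (0 : L → ℂ) = 0 := by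
  unfold cohProj
  apply Finset.sum_eq_zero
  intro ξ _
  rw [classInner_zero_left, zero_div, zero_smul]

theorem cohProj_self {T : Finset (L → ℂ)}
    (horth : ∀ ξ ∈ T, ∀ ξ' ∈ T, ξ ≠ ξ' → classInner ξ ξ' = 0)
    (hne : ∀ ξ ∈ T, classInner ξ ξ ≠ 0) {ξ₀ : L → ℂ} (h : ξ₀ ∈ T) : cohProj T ξ₀ = ξ₀ := by
  unfold cohProj
  rw [Finset.sum_eq_single ξ₀]
  · rw [div_self (hne ξ₀ h), one_smul]
  · intro ξ hξ hne'
    rw [horth ξ₀ h ξ hξ (Ne.symm hne'), zero_div, zero_smul]
  · intro h'
    exact absurd h h'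

theorem cohProj_of_mem_zspan {T : Finset (L → ℂ)}
    (horth : ∀ ξ ∈ T, ∀ ξ' ∈ T, ξ ≠ ξ' → classInner ξ ξ' = 0)
    (hne : ∀ ξ ∈ T, classInner ξ ξ ≠ 0) {x : L → ℂ} (hx : x ∈ zspan (↑T : Set (L → ℂ))) :
    cohProj T x = x := by
  refine Submodule.span_induction (p := fun x _ => cohProj T x = x) ?_ ?_ ?_ ?_ hx
  · intro x h
    exact cohProj_self horth hne (Finset.mem_coe.mp h)
  · exact cohProj_zero T
  · intro x y _ _ hx hy
    rw [cohProj_add, hx, hy]
  · intro a x _ hx
    rw [cohProj_zsmul, hx]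

theorem cohProj_of_orth {T : Finset (L → ℂ)} {y : L → ℂ} (h : ∀ ξ ∈ T, classInner y ξ = 0) :
    cohProj T y = 0 := by
  unfold cohProj
  apply Finset.sum_eq_zero
  intro ξ hξ
  rw [h ξ hξ, zero_div, zero_smul]

/-- Orthogonality of two sets passes to their integer spans. -/
theorem classInner_zspan_orth {X Y : Set (L → ℂ)}
    (h : ∀ χ ∈ X, ∀ η ∈ Y, classInner χ η = 0) :
    ∀ x ∈ zspan X, ∀ y ∈ zspan Y, classInner x y = 0 := by
  intro x hx y hy
  refine Submodule.span_induction (p := fun x _ => classInner x y = 0) ?_ ?_ ?_ ?_ hx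
  · intro x hxX
    refine Submodule.span_induction (p := fun y _ => classInner x y = 0) ?_ ?_ ?_ ?_ hy
    · intro y hyY
      exact h x hxX y hyY
    · exact classInner_zero_right _
    · intro y y' _ _ h1 h2
      rw [classInner_add_right, h1, h2, add_zero]
    · intro a y _ h1
      rw [zsmul_fun_eq, classInner_smul_right, h1, mul_zero]
  · exact classInner_zero_left _
  · intro x x' _ _ h1 h2
    rw [classInner_add_left, h1, h2, add_zero]
  · intro a x _ h1
    rw [zsmul_fun_eq, classInner_smul_left, h1, mul_zero]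

end

section

variable {L : Type*} [Group L] [Fintype L] {G : Type*} [Group G] [Fintype G]

theorem isLinIso_map_zero {X : Set (L → ℂ)} {σ : (L → ℂ) → (G → ℂ)}
    (hσ : IsLinearIsometryOn (zspan X) σ) : σ 0 = 0 := by
  have h0 : (0 : L → ℂ) ∈ zspan X := Submodule.zero_mem _
  have h := hσ.2.1 0 h0 0
  rwa [zero_smul, zero_smul] at h

/-- Orthogonality of the images of two sets under maps that are linear on the integer spans passes
to the images of the spans. -/
theorem classInner_map_zspan_orth {X Y : Set (L → ℂ)} {σ τ : (L → ℂ) → (G → ℂ)}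
    (hσ : IsLinearIsometryOn (zspan X) σ) (hτ : IsLinearIsometryOn (zspan Y) τ)
    (h : ∀ χ ∈ X, ∀ η ∈ Y, classInner (σ χ) (τ η) = 0) :
    ∀ x ∈ zspan X, ∀ y ∈ zspan Y, classInner (σ x) (τ y) = 0 := by
  intro x hx y hy
  refine Submodule.span_induction (p := fun x _ => classInner (σ x) (τ y) = 0) ?_ ?_ ?_ ?_ hx
  · intro x hxX
    refine Submodule.span_induction (p := fun y _ => classInner (σ x) (τ y) = 0) ?_ ?_ ?_ ?_ hy
    · intro y hyY
      exact h x hxX y hyY
    · rw [isLinIso_map_zero hτ]; exact classInner_zero_right _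
    · intro y y' hy1 hy2 h1 h2
      rw [hτ.1 y hy1 y' hy2, classInner_add_right, h1, h2, add_zero]
    · intro a y hy1 h1
      rw [hτ.2.1 y hy1 a, zsmul_fun_eq, classInner_smul_right, h1, mul_zero]
  · rw [isLinIso_map_zero hσ]; exact classInner_zero_left _
  · intro x x' hx1 hx2 h1 h2
    rw [hσ.1 x hx1 x' hx2, classInner_add_left, h1, h2, add_zero]
  · intro a x hx1 h1
    rw [hσ.2.1 x hx1 a, zsmul_fun_eq, classInner_smul_left, h1, mul_zero]

/-- The value at `1` of an integer combination of characters is an integer. -/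
theorem zspan_apply_one_int {X : Set (L → ℂ)} (hX : ∀ χ ∈ X, IsCharacter L χ) {x : L → ℂ}
    (hx : x ∈ zspan X) : ∃ k : ℤ, x 1 = (k : ℂ) := by
  refine Submodule.span_induction (p := fun x _ => ∃ k : ℤ, x 1 = (k : ℂ)) ?_ ?_ ?_ ?_ hx
  · intro x hxX
    exact ⟨(charDegree x : ℤ), by
      rw [Cfsg.Agent.Helper25.char_one_eq_degree (hX x hxX)]; simp⟩
  · exact ⟨0, by simp⟩
  · intro x y _ _ h1 h2
    obtain ⟨a, ha⟩ := h1
    obtain ⟨b, hb⟩ := h2
    exact ⟨a + b, by rw [Pi.add_apply, ha, hb]; push_cast; ring⟩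
  · intro a x _ h1
    obtain ⟨b, hb⟩ := h1
    exact ⟨a * b, by rw [Pi.smul_apply, hb, zsmul_eq_mul]; push_cast; ring⟩

theorem zspanOn_mono {X S : Set (L → ℂ)} (h : X ⊆ S) (A : Set L) :
    zspanOn X A ⊆ zspanOn S A := by
  intro θ hθ
  exact ⟨Submodule.span_mono h hθ.1, hθ.2⟩

theorem mem_zspanOn_compl_one {X : Set (L → ℂ)} {θ : L → ℂ} (h : θ ∈ zspan X) (h1 : θ 1 = 0) :
    θ ∈ zspanOn X {1}ᶜ := by
  refine ⟨h, ?_⟩
  intro x hx
  have : x = 1 := by
    by_contra hne
    exact hx hne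
  rw [this, h1]

theorem zspanOn_compl_one_apply {X : Set (L → ℂ)} {θ : L → ℂ} (h : θ ∈ zspanOn X {1}ᶜ) :
    θ 1 = 0 :=
  h.2 1 (by simp)

theorem zspanOn_add_mem {X : Set (L → ℂ)} {A : Set L} {f g : L → ℂ} (hf : f ∈ zspanOn X A)
    (hg : g ∈ zspanOn X A) : f + g ∈ zspanOn X A := by
  refine ⟨Submodule.add_mem _ hf.1 hg.1, ?_⟩
  intro x hx
  rw [Pi.add_apply, hf.2 x hx, hg.2 x hx, add_zero]

theorem zspanOn_zsmul_mem {X : Set (L → ℂ)} {A : Set L} (n : ℤ) {f : L → ℂ}
    (hf : f ∈ zspanOn X A) : n • f ∈ zspanOn X A := by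
  refine ⟨Submodule.smul_mem _ _ hf.1, ?_⟩
  intro x hx
  rw [Pi.smul_apply, hf.2 x hx, smul_zero]

/-- Cancellation of a nonzero integer scalar. -/
theorem zsmul_fun_cancel {n : ℤ} (hn : n ≠ 0) {f g : G → ℂ} (h : n • f = n • g) : f = g := by
  funext x
  have h1 := congrFun h x
  rw [Pi.smul_apply, Pi.smul_apply, zsmul_eq_mul, zsmul_eq_mul] at h1
  have hn' : (n : ℂ) ≠ 0 := by exact_mod_cast hn
  exact mul_left_cancel₀ hn' h1

end

end Cfsg.Agent.Helper11
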