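import Mathlib
import Cfsg.Prelude.Def_OddOrderChar
import Cfsg.Agent.Helper2.CharExtra

set_option autoImplicit false

namespace Cfsg.Agent.Helper11

open Cfsg

universe u

theorem classInner_conjFun_conjFun {G : Type u} [Group G] [Fintype G] (f g : G → ℂ) :
    classInner (conjFun f) (conjFun g) = (starRingEnd ℂ) (classInner f g) := by
  unfold classInner conjFun
  rw [map_mul, map_inv₀, Complex.conj_natCast, map_sum]
  congr 1
  apply Finset.sum_congr rfl
  intro x _
  rw [map_mul]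

theorem classInner_conjFun_left {G : Type u} [Group G] [Fintype G] (f g : G → ℂ) :
    classInner (conjFun f) g = (starRingEnd ℂ) (classInner f (conjFun g)) := by
  unfold classInner conjFun
  rw [map_mul, map_inv₀, Complex.conj_natCast, map_sum]
  congr 1
  apply Finset.sum_congr rfl
  intro x _
  rw [map_mul, Complex.conj_conj]

theorem irr_generalized {G : Type u} [Group G] (ψ : IrrCharacter G) :
    IsGeneralizedCharacter G (ψ : G → ℂ) :=
  ⟨ψ, 0, Cfsg.Agent.Helper2.isCharacter_of_isIrrCharacter ψ.2,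
    Cfsg.Agent.Helper2.isCharacter_zero, by simp⟩

theorem neg_irr_generalized {G : Type u} [Group G] (ψ : IrrCharacter G) :
    IsGeneralizedCharacter G (-(ψ : G → ℂ)) :=
  ⟨0, ψ, Cfsg.Agent.Helper2.isCharacter_zero,
    Cfsg.Agent.Helper2.isCharacter_of_isIrrCharacter ψ.2, by simp⟩

theorem irr_ne_neg_irr {G : Type u} [Group G] (ψ₁ ψ₂ : IrrCharacter G) :
    (ψ₁ : G → ℂ) ≠ -(ψ₂ : G → ℂ) := by
  intro h
  have h1 := congrFun h 1
  rw [Pi.neg_apply, Cfsg.Agent.Helper25.irr_one_eq_degree ψ₁,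
    Cfsg.Agent.Helper25.irr_one_eq_degree ψ₂] at h1
  have hp1 := Cfsg.Agent.Helper25.irr_degree_pos ψ₁
  have hp2 := Cfsg.Agent.Helper25.irr_degree_pos ψ₂
  have h2 : ((charDegree (ψ₁ : G → ℂ) : ℤ)) = -((charDegree (ψ₂ : G → ℂ) : ℤ)) := by
    exact_mod_cast h1
  omega

end Cfsg.Agent.Helper11

namespace Cfsg.Agent.Helper11

open Cfsg

universe u

/-- The inner product of two virtual characters is an integer. -/
theorem classInner_virtual_int {G : Type u} [Group G] [Fintype G] {θ θ' : G → ℂ}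
    (h : IsGeneralizedCharacter G θ) (h' : IsGeneralizedCharacter G θ') :
    ∃ k : ℤ, classInner θ θ' = (k : ℂ) := by
  obtain ⟨a, b, ha, hb, rfl⟩ := h
  obtain ⟨c, d, hc, hd, rfl⟩ := h'
  obtain ⟨n1, e1⟩ := Cfsg.Agent.Helper2.classInner_char_nat ha hc
  obtain ⟨n2, e2⟩ := Cfsg.Agent.Helper2.classInner_char_nat ha hd
  obtain ⟨n3, e3⟩ := Cfsg.Agent.Helper2.classInner_char_nat hb hc
  obtain ⟨n4, e4⟩ := Cfsg.Agent.Helper2.classInner_char_nat hb hd
  refine ⟨(n1 : ℤ) - n2 - n3 + n4, ?_⟩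
  rw [Cfsg.Agent.Helper2.classInner_sub_left, Cfsg.Agent.Helper2.classInner_sub_right,
    Cfsg.Agent.Helper2.classInner_sub_right, e1, e2, e3, e4]
  push_cast
  ring

end Cfsg.Agent.Helper11
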