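import Mathlib
import Cfsg.Agent.Helper11.Coh
import Cfsg.Agent.Helper11.ConjFun

set_option autoImplicit false

/-!
Helper library (seat helper11): Bessel-type decompositions along orthonormal families of virtual
characters with integer coefficients.
-/

namespace Cfsg.Agent.Helper11

open Cfsg
open Cfsg.Agent.Helper2

section

variable {G : Type*} [Group G] [Fintype G]

omit [Fintype G] in
theorem isGeneralizedCharacter_finset_sum {ι : Type*} (s : Finset ι) (F : ι → G → ℂ)
    (h : ∀ i ∈ s, IsGeneralizedCharacter G (F i)) : IsGeneralizedCharacter G (∑ i ∈ s, F i) := by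
  classical
  induction s using Finset.induction_on with
  | empty => simpa using Cfsg.Agent.Helper7.isGeneralizedCharacter_zero (G := G)
  | insert a s ha ih =>
    rw [Finset.sum_insert ha]
    exact Cfsg.Agent.Helper7.isGeneralizedCharacter_add (h a (Finset.mem_insert_self a s))
      (ih (fun i hi => h i (Finset.mem_insert_of_mem hi)))

omit [Fintype G] in
theorem isGeneralizedCharacter_sub' {θ φ : G → ℂ} (h1 : IsGeneralizedCharacter G θ)
    (h2 : IsGeneralizedCharacter G φ) : IsGeneralizedCharacter G (θ - φ) := by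
  rw [sub_eq_add_neg]
  exact Cfsg.Agent.Helper7.isGeneralizedCharacter_add h1
    (Cfsg.Agent.Helper7.isGeneralizedCharacter_neg h2)

/-- Removing the components of `v` along an orthonormal family with integer coefficients. -/
theorem bessel_decomp {ι : Type*} [DecidableEq ι] (T : Finset ι) (e : ι → G → ℂ)
    (horth : ∀ i ∈ T, ∀ j ∈ T, classInner (e i) (e j) = if i = j then 1 else 0)
    (v : G → ℂ) (m : ι → ℤ) (hm : ∀ i ∈ T, classInner v (e i) = (m i : ℂ)) :
    (∀ j ∈ T, classInner (v - ∑ i ∈ T, (m i) • e i) (e j) = 0) ∧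
      classInner (v - ∑ i ∈ T, (m i) • e i) (v - ∑ i ∈ T, (m i) • e i) =
        classInner v v - ((∑ i ∈ T, (m i) ^ 2 : ℤ) : ℂ) := by
  have h1 : ∀ j ∈ T, classInner (v - ∑ i ∈ T, (m i) • e i) (e j) = 0 := by
    intro j hj
    rw [classInner_sub_left, classInner_sum_left, hm j hj, Finset.sum_eq_single j]
    · rw [zsmul_fun_eq, classInner_smul_left, horth j hj j hj, if_pos rfl, mul_one, sub_self]
    · intro i hi hij
      rw [zsmul_fun_eq, classInner_smul_left, horth i hi j hj, if_neg hij, mul_zero]
    · intro h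
      exact absurd hj h
  refine ⟨h1, ?_⟩
  have h2 : classInner (v - ∑ i ∈ T, (m i) • e i) (∑ i ∈ T, (m i) • e i) = 0 := by
    rw [classInner_sum_right]
    apply Finset.sum_eq_zero
    intro i hi
    rw [zsmul_fun_eq, classInner_smul_right, h1 i hi, mul_zero]
  have h3 : classInner (∑ i ∈ T, (m i) • e i) v = ((∑ i ∈ T, (m i) ^ 2 : ℤ) : ℂ) := by
    rw [classInner_sum_left]
    push_cast
    apply Finset.sum_congr rfl
    intro i hi
    rw [zsmul_fun_eq, classInner_smul_left, classInner_conj_symm v (e i), hm i hi, map_intCast]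
    ring
  rw [classInner_sub_right, h2, sub_zero, classInner_sub_left, h3]

/-- The squared norm of a function, as an integer, is non-negative. -/
theorem classInner_self_int_nonneg {θ : G → ℂ} {k : ℤ} (hk : classInner θ θ = (k : ℂ)) :
    0 ≤ k := by
  rw [classInner_self_eq] at hk
  have h1 : ((Nat.card G : ℝ)⁻¹ * ∑ g : G, Complex.normSq (θ g)) = (k : ℝ) := by
    exact_mod_cast hk
  have h2 : (0 : ℝ) ≤ (Nat.card G : ℝ)⁻¹ * ∑ g : G, Complex.normSq (θ g) := by
    apply mul_nonneg
    · positivity
    · exact Finset.sum_nonneg (fun g _ => Complex.normSq_nonneg _)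
  rw [h1] at h2
  exact_mod_cast h2

end

end Cfsg.Agent.Helper11
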