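import Mathlib
import Cfsg.Agent.Helper11.Coh2

set_option autoImplicit false

/-!
Helper library (seat helper11): finiteness of orthogonal families, extension of an assignment on an
orthogonal family to a linear isometry on its integer span, and the two-family decomposition used
in coherence arguments.
-/

namespace Cfsg.Agent.Helper11

open Cfsg
open Cfsg.Agent.Helper2

section

variable {L : Type*} [Group L] [Fintype L]

/-- A pairwise orthogonal family of functions with nonzero norms is finite. -/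
theorem orth_set_finite {S : Set (L → ℂ)}
    (horth : ∀ χ ∈ S, ∀ φ ∈ S, χ ≠ φ → classInner χ φ = 0)
    (hne : ∀ χ ∈ S, classInner χ χ ≠ 0) : S.Finite := by
  classical
  apply LinearIndependent.setFinite (R := ℂ)
  rw [linearIndependent_iff']
  intro s g hg j hj
  have h1 : classInner (∑ i ∈ s, g i • (i : L → ℂ)) (j : L → ℂ) = 0 := by
    rw [hg]; exact classInner_zero_left _
  rw [classInner_sum_left, Finset.sum_eq_single j] at h1
  · rw [classInner_smul_left] at h1
    rcases mul_eq_zero.mp h1 with h | h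
    · exact h
    · exact absurd h (hne j j.2)
  · intro i _ hij
    rw [classInner_smul_left, horth i i.2 j j.2 (fun h => hij (Subtype.ext h)), mul_zero]
  · intro h
    exact absurd hj h

end

section

variable {G : Type*} [Group G] [Fintype G]

/-- Inner product of two combinations of an orthogonal family. -/
theorem classInner_sum_smul_orth {ι : Type*} [DecidableEq ι] (T : Finset ι) (e : ι → G → ℂ)
    (w : ι → ℂ) (horth : ∀ i ∈ T, ∀ j ∈ T, classInner (e i) (e j) = if i = j then w i else 0)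
    (a b : ι → ℂ) :
    classInner (∑ i ∈ T, a i • e i) (∑ j ∈ T, b j • e j) =
      ∑ i ∈ T, a i * (starRingEnd ℂ) (b i) * w i := by
  rw [classInner_sum_left]
  apply Finset.sum_congr rfl
  intro i hi
  rw [classInner_sum_right, Finset.sum_eq_single i]
  · rw [classInner_smul_left, classInner_smul_right, horth i hi i hi, if_pos rfl]
    ring
  · intro j hj hji
    rw [classInner_smul_left, classInner_smul_right, horth i hi j hj, if_neg (Ne.symm hji)]
    ring
  · intro h
    exact absurd hi h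

end

section

variable {L : Type*} [Group L] [Fintype L] {G : Type*} [Group G] [Fintype G]

/-- An assignment on a finite orthogonal family which preserves inner products and takes virtual
character values extends to a linear isometry on the integer span. -/
theorem exists_isLinIso_extension {S : Set (L → ℂ)} (hfin : S.Finite)
    (horth : ∀ χ ∈ S, ∀ φ ∈ S, χ ≠ φ → classInner χ φ = 0)
    (hne : ∀ χ ∈ S, classInner χ χ ≠ 0)
    (t : (L → ℂ) → (G → ℂ)) (ht1 : ∀ χ ∈ S, IsGeneralizedCharacter G (t χ))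
    (ht2 : ∀ χ ∈ S, ∀ φ ∈ S, classInner (t χ) (t φ) = classInner χ φ) :
    ∃ τ₁ : (L → ℂ) → (G → ℂ), IsLinearIsometryOn (zspan S) τ₁ ∧ (∀ χ ∈ S, τ₁ χ = t χ) ∧
      (∀ f g, τ₁ (f + g) = τ₁ f + τ₁ g) ∧ (∀ (n : ℤ) f, τ₁ (n • f) = n • τ₁ f) := by
  classical
  set T := hfin.toFinset with hT
  have hTmem : ∀ ξ, ξ ∈ T ↔ ξ ∈ S := fun ξ => hfin.mem_toFinset
  have hTc : (↑T : Set (L → ℂ)) = S := hfin.coe_toFinset
  set τ₁ : (L → ℂ) → (G → ℂ) := fun f => ∑ χ ∈ T, (classInner f χ / classInner χ χ) • t χ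
    with hτ₁
  have hadd : ∀ f g, τ₁ (f + g) = τ₁ f + τ₁ g := by
    intro f g
    show ∑ χ ∈ T, (classInner (f + g) χ / classInner χ χ) • t χ =
      ∑ χ ∈ T, (classInner f χ / classInner χ χ) • t χ +
        ∑ χ ∈ T, (classInner g χ / classInner χ χ) • t χ
    rw [← Finset.sum_add_distrib]
    apply Finset.sum_congr rfl
    intro ξ _
    rw [classInner_add_left, add_div, add_smul]
  have hsmul : ∀ (n : ℤ) f, τ₁ (n • f) = n • τ₁ f := by
    intro n f
    show ∑ χ ∈ T, (classInner (n • f) χ / classInner χ χ) • t χ =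
      n • ∑ χ ∈ T, (classInner f χ / classInner χ χ) • t χ
    rw [Finset.smul_sum]
    apply Finset.sum_congr rfl
    intro ξ _
    rw [zsmul_fun_eq n f, classInner_smul_left, mul_div_assoc, ← smul_smul, ← zsmul_fun_eq]
  have hS : ∀ χ ∈ S, τ₁ χ = t χ := by
    intro χ hχ
    show ∑ ξ ∈ T, (classInner χ ξ / classInner ξ ξ) • t ξ = t χ
    rw [Finset.sum_eq_single χ]
    · rw [div_self (hne χ hχ), one_smul]
    · intro ξ hξ hξχ
      rw [horth χ hχ ξ ((hTmem ξ).mp hξ) (Ne.symm hξχ), zero_div, zero_smul]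
    · intro h
      exact absurd ((hTmem χ).mpr hχ) h
  have hzero : τ₁ 0 = 0 := by
    have := hsmul 0 0
    rwa [zero_smul, zero_smul] at this
  have horthT : ∀ ξ ∈ T, ∀ ξ' ∈ T, ξ ≠ ξ' → classInner ξ ξ' = 0 :=
    fun ξ hξ ξ' hξ' h => horth ξ ((hTmem ξ).mp hξ) ξ' ((hTmem ξ').mp hξ') h
  have hneT : ∀ ξ ∈ T, classInner ξ ξ ≠ 0 := fun ξ hξ => hne ξ ((hTmem ξ).mp hξ)
  have hw1 : ∀ i ∈ T, ∀ j ∈ T, classInner (t i) (t j) = if i = j then classInner i i else 0 := by
    intro i hi j hj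
    rw [ht2 i ((hTmem i).mp hi) j ((hTmem j).mp hj)]
    by_cases hij : i = j
    · rw [if_pos hij, hij]
    · rw [if_neg hij]; exact horthT i hi j hj hij
  have hw2 : ∀ i ∈ T, ∀ j ∈ T, classInner (id i : L → ℂ) (id j) =
      if i = j then classInner i i else 0 := by
    intro i hi j hj
    by_cases hij : i = j
    · rw [if_pos hij, hij]; rfl
    · rw [if_neg hij]; exact horthT i hi j hj hij
  refine ⟨τ₁, ⟨fun f _ g _ => hadd f g, fun f _ n => hsmul n f, ?_, ?_⟩, hS, hadd, hsmul⟩
  · intro f hf g hg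
    have hf' : cohProj T f = f := cohProj_of_mem_zspan horthT hneT (by rw [hTc]; exact hf)
    have hg' : cohProj T g = g := cohProj_of_mem_zspan horthT hneT (by rw [hTc]; exact hg)
    have h1 := classInner_sum_smul_orth T t (fun i => classInner i i) hw1
      (fun χ => classInner f χ / classInner χ χ) (fun χ => classInner g χ / classInner χ χ)
    have h2 := classInner_sum_smul_orth T (fun i => (id i : L → ℂ)) (fun i => classInner i i) hw2
      (fun χ => classInner f χ / classInner χ χ) (fun χ => classInner g χ / classInner χ χ)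
    have h3 : classInner (τ₁ f) (τ₁ g) = classInner (cohProj T f) (cohProj T g) := by
      show classInner (∑ χ ∈ T, (classInner f χ / classInner χ χ) • t χ)
        (∑ χ ∈ T, (classInner g χ / classInner χ χ) • t χ) = _
      rw [h1]
      unfold cohProj
      exact h2.symm
    rw [h3, hf', hg']
  · intro f hf
    refine Submodule.span_induction (p := fun f _ => IsGeneralizedCharacter G (τ₁ f)) ?_ ?_ ?_ ?_ hf
    · intro χ hχ
      rw [hS χ hχ]; exact ht1 χ hχ
    · rw [hzero]; exact Cfsg.Agent.Helper7.isGeneralizedCharacter_zero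
    · intro x y _ _ h1 h2
      rw [hadd]; exact Cfsg.Agent.Helper7.isGeneralizedCharacter_add h1 h2
    · intro a x _ h1
      rw [hsmul]; exact Cfsg.Agent.Helper7.isGeneralizedCharacter_zsmul a h1

end

section

variable {G : Type*} [Group G] [Fintype G]

/-- A virtual character `v` with `⟨v, ∑ A⟩ = -n₀`, `⟨v, ∑ B⟩ = n₁` and `‖v‖² = n₀ + n₁`, for two
mutually orthogonal orthonormal families `A`, `B` of virtual characters, is minus the sum of `n₀`
members of `A` plus the sum of `n₁` members of `B`. -/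
theorem coh_two_family (A B : Finset (G → ℂ)) (v : G → ℂ) (hv : IsGeneralizedCharacter G v)
    (hA : ∀ α ∈ A, ∀ α' ∈ A, classInner α α' = if α = α' then 1 else 0)
    (hB : ∀ β ∈ B, ∀ β' ∈ B, classInner β β' = if β = β' then 1 else 0)
    (hAB : ∀ α ∈ A, ∀ β ∈ B, classInner α β = 0)
    (hAg : ∀ α ∈ A, IsGeneralizedCharacter G α) (hBg : ∀ β ∈ B, IsGeneralizedCharacter G β)
    (n₀ n₁ : ℕ) (h1 : classInner v (∑ α ∈ A, α) = -(n₀ : ℂ))
    (h2 : classInner v (∑ β ∈ B, β) = (n₁ : ℂ))
    (h3 : classInner v v = (n₀ : ℂ) + (n₁ : ℂ)) :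
    ∃ m : (G → ℂ) → ℤ, (∀ α ∈ A, classInner v α = (m α : ℂ)) ∧
      (∀ β ∈ B, classInner v β = (m β : ℂ)) ∧
      (∀ α ∈ A, m α = 0 ∨ m α = -1) ∧ (∀ β ∈ B, m β = 0 ∨ m β = 1) ∧
      (∑ α ∈ A, m α = -(n₀ : ℤ)) ∧ (∑ β ∈ B, m β = (n₁ : ℤ)) ∧
      v = ∑ α ∈ A, (m α) • α + ∑ β ∈ B, (m β) • β := by
  classical
  have hmex : ∀ γ ∈ A ∪ B, ∃ k : ℤ, classInner v γ = (k : ℂ) := by
    intro γ hγ
    rcases Finset.mem_union.mp hγ with h | h
    · exact classInner_virtual_int hv (hAg γ h)
    · exact classInner_virtual_int hv (hBg γ h)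
  choose! m hm using hmex
  have hdisj : Disjoint A B := by
    rw [Finset.disjoint_left]
    intro α hα hαB
    have h4 := hAB α hα α hαB
    rw [hA α hα α hα, if_pos rfl] at h4
    exact one_ne_zero h4
  have horth : ∀ i ∈ A ∪ B, ∀ j ∈ A ∪ B, classInner (id i : G → ℂ) (id j) =
      if i = j then 1 else 0 := by
    intro i hi j hj
    rcases Finset.mem_union.mp hi with hiA | hiB <;> rcases Finset.mem_union.mp hj with hjA | hjB
    · exact hA i hiA j hjA
    · rw [if_neg]
      · exact hAB i hiA j hjB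
      · intro h
        exact (Finset.disjoint_left.mp hdisj hiA) (h ▸ hjB)
    · rw [if_neg]
      · show classInner i j = 0
        rw [classInner_conj_symm, hAB j hjA i hiB, map_zero]
      · intro h
        exact (Finset.disjoint_left.mp hdisj hjA) (h ▸ hiB)
    · exact hB i hiB j hjB
  obtain ⟨-, hΔnorm⟩ := bessel_decomp (A ∪ B) (fun i => (id i : G → ℂ)) horth v m hm
  have hsumA : ∑ α ∈ A, m α = -(n₀ : ℤ) := by
    rw [classInner_sum_right] at h1
    have h4 : ((∑ α ∈ A, m α : ℤ) : ℂ) = ((-(n₀ : ℤ) : ℤ) : ℂ) := by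
      push_cast
      rw [← h1]
      exact Finset.sum_congr rfl (fun α hα => (hm α (Finset.mem_union_left B hα)).symm)
    exact_mod_cast h4
  have hsumB : ∑ β ∈ B, m β = (n₁ : ℤ) := by
    rw [classInner_sum_right] at h2
    have h4 : ((∑ β ∈ B, m β : ℤ) : ℂ) = (((n₁ : ℤ) : ℤ) : ℂ) := by
      push_cast
      rw [← h2]
      exact Finset.sum_congr rfl (fun β hβ => (hm β (Finset.mem_union_right A hβ)).symm)
    exact_mod_cast h4
  have hsq : ∑ i ∈ A ∪ B, (m i) ^ 2 = ∑ α ∈ A, (m α) ^ 2 + ∑ β ∈ B, (m β) ^ 2 :=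
    Finset.sum_union hdisj
  rw [hsq] at hΔnorm
  have hnorm' : classInner (v - ∑ i ∈ A ∪ B, (m i) • (id i : G → ℂ))
      (v - ∑ i ∈ A ∪ B, (m i) • (id i : G → ℂ)) =
      (((n₀ : ℤ) + n₁ - ∑ α ∈ A, (m α) ^ 2 - ∑ β ∈ B, (m β) ^ 2 : ℤ) : ℂ) := by
    rw [hΔnorm, h3]
    push_cast
    ring
  have hnn := classInner_self_int_nonneg hnorm'
  have hA2 : 0 ≤ ∑ α ∈ A, ((m α) ^ 2 + m α) :=
    Finset.sum_nonneg (fun α _ => by nlinarith [sq_nonneg (2 * m α + 1)])
  have hB2 : 0 ≤ ∑ β ∈ B, ((m β) ^ 2 - m β) :=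
    Finset.sum_nonneg (fun β _ => by nlinarith [sq_nonneg (2 * m β - 1)])
  rw [Finset.sum_add_distrib, hsumA] at hA2
  rw [Finset.sum_sub_distrib, hsumB] at hB2
  have hAeq : ∑ α ∈ A, (m α) ^ 2 = (n₀ : ℤ) := by linarith
  have hBeq : ∑ β ∈ B, (m β) ^ 2 = (n₁ : ℤ) := by linarith
  have hΔ0 : v - ∑ i ∈ A ∪ B, (m i) • (id i : G → ℂ) = 0 := by
    rw [← classInner_self_eq_zero_iff, hnorm', hAeq, hBeq]
    simp
  have hmA : ∀ α ∈ A, m α = 0 ∨ m α = -1 := by
    have h5 : ∑ α ∈ A, ((m α) ^ 2 + m α) = 0 := by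
      rw [Finset.sum_add_distrib, hsumA, hAeq]; ring
    have h6 := (Finset.sum_eq_zero_iff_of_nonneg
      (fun α _ => by nlinarith [sq_nonneg (2 * m α + 1)])).mp h5
    intro α hα
    have h7 : m α * (m α + 1) = 0 := by have := h6 α hα; nlinarith
    rcases mul_eq_zero.mp h7 with h | h
    · left; exact h
    · right; omega
  have hmB : ∀ β ∈ B, m β = 0 ∨ m β = 1 := by
    have h5 : ∑ β ∈ B, ((m β) ^ 2 - m β) = 0 := by
      rw [Finset.sum_sub_distrib, hsumB, hBeq]; ring
    have h6 := (Finset.sum_eq_zero_iff_of_nonneg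
      (fun β _ => by nlinarith [sq_nonneg (2 * m β - 1)])).mp h5
    intro β hβ
    have h7 : m β * (m β - 1) = 0 := by have := h6 β hβ; nlinarith
    rcases mul_eq_zero.mp h7 with h | h
    · left; exact h
    · right; omega
  refine ⟨m, fun α hα => hm α (Finset.mem_union_left B hα),
    fun β hβ => hm β (Finset.mem_union_right A hβ), hmA, hmB, hsumA, hsumB, ?_⟩
  have h8 := sub_eq_zero.mp hΔ0
  rw [h8, Finset.sum_union hdisj]
  rfl

end

end Cfsg.Agent.Helper11
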