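import Mathlib
import Cfsg.Agent.Helper11.Coh3

set_option autoImplicit false

/-!
Helper library (seat helper11): Bessel decomposition along an orthogonal family with real weights,
and small facts on characters used in coherence arguments.
-/

namespace Cfsg.Agent.Helper11

open Cfsg
open Cfsg.Agent.Helper2

section

variable {G : Type*} [Group G] [Fintype G]

omit [Fintype G] in
/-- A nonzero character has nonzero degree. -/
theorem char_one_ne_zero_of_ne_zero {χ : G → ℂ} (hχ : IsCharacter G χ) (h0 : χ ≠ 0) : χ 1 ≠ 0 := by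
  obtain ⟨n, ρ, hρ⟩ := hχ
  have h1 : χ 1 = (n : ℂ) := by rw [← hρ]; exact Cfsg.Agent.Helper25.rep_char_one ρ
  rw [h1]
  intro hn
  have hn0 : n = 0 := by exact_mod_cast hn
  subst hn0
  apply h0
  rw [← hρ]
  funext g
  have h2 : ρ g = 0 := LinearMap.ext (fun x => Subsingleton.elim _ _)
  show LinearMap.trace ℂ _ (ρ g) = 0
  rw [h2, map_zero]

/-- The squared norm of a function, if equal to a real number, is non-negative. -/
theorem classInner_self_real_nonneg {θ : G → ℂ} {r : ℝ} (hr : classInner θ θ = (r : ℂ)) :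
    0 ≤ r := by
  rw [classInner_self_eq] at hr
  have h1 : ((Nat.card G : ℝ)⁻¹ * ∑ g : G, Complex.normSq (θ g)) = r := by
    exact_mod_cast hr
  rw [← h1]
  apply mul_nonneg
  · positivity
  · exact Finset.sum_nonneg (fun g _ => Complex.normSq_nonneg _)

/-- Removing the components of `v` along an orthogonal family with real norms and real
coefficients. -/
theorem bessel_decomp_real {ι : Type*} [DecidableEq ι] (T : Finset ι) (e : ι → G → ℂ) (w : ι → ℝ)
    (hw : ∀ i ∈ T, w i ≠ 0)
    (horth : ∀ i ∈ T, ∀ j ∈ T, classInner (e i) (e j) = if i = j then (w i : ℂ) else 0)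
    (v : G → ℂ) (r : ι → ℝ) (hr : ∀ i ∈ T, classInner v (e i) = (r i : ℂ)) :
    (∀ j ∈ T, classInner (v - ∑ i ∈ T, ((r i / w i : ℝ) : ℂ) • e i) (e j) = 0) ∧
      classInner (v - ∑ i ∈ T, ((r i / w i : ℝ) : ℂ) • e i)
          (v - ∑ i ∈ T, ((r i / w i : ℝ) : ℂ) • e i) =
        classInner v v - ((∑ i ∈ T, (r i) ^ 2 / w i : ℝ) : ℂ) := by
  have h1 : ∀ j ∈ T, classInner (v - ∑ i ∈ T, ((r i / w i : ℝ) : ℂ) • e i) (e j) = 0 := by
    intro j hj
    rw [classInner_sub_left, classInner_sum_left, hr j hj, Finset.sum_eq_single j]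
    · rw [classInner_smul_left, horth j hj j hj, if_pos rfl]
      have hwj : (w j : ℂ) ≠ 0 := by exact_mod_cast hw j hj
      push_cast
      field_simp
      ring
    · intro i hi hij
      rw [classInner_smul_left, horth i hi j hj, if_neg hij, mul_zero]
    · intro h
      exact absurd hj h
  refine ⟨h1, ?_⟩
  have h2 : classInner (v - ∑ i ∈ T, ((r i / w i : ℝ) : ℂ) • e i)
      (∑ i ∈ T, ((r i / w i : ℝ) : ℂ) • e i) = 0 := by
    rw [classInner_sum_right]
    apply Finset.sum_eq_zero
    intro i hi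
    rw [classInner_smul_right, h1 i hi, mul_zero]
  have h3 : classInner (∑ i ∈ T, ((r i / w i : ℝ) : ℂ) • e i) v =
      ((∑ i ∈ T, (r i) ^ 2 / w i : ℝ) : ℂ) := by
    rw [classInner_sum_left]
    push_cast
    apply Finset.sum_congr rfl
    intro i hi
    rw [classInner_smul_left, classInner_conj_symm v (e i), hr i hi, Complex.conj_ofReal]
    ring
  rw [classInner_sub_right, h2, sub_zero, classInner_sub_left, h3]

end

end Cfsg.Agent.Helper11
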