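import Mathlib
import Cfsg.Agent.Helper2.CosetAvg
import Cfsg.Agent.Helper2.IndNormal
import Cfsg.Agent.Helper2.IndExtra
import Cfsg.Agent.Helper7.Clifford
import Cfsg.Agent.Helper2.ChiefFactor
import Cfsg.Agent.Helper25.CharOrth
import Cfsg.Agent.Helper25.CharKer
import Cfsg.Agent.Helper24.InvConst
import Cfsg.Agent.Helper11.AbelChar
import Cfsg.Agent.Helper11.Coh4

/-!
# Characters induced from a normal subgroup: degrees and the regular character of a quotient
(helper11)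

* `sum_irr_le_ker`: `∑_{N ≤ ker θ} θ(1) θ(k) = [k ∈ N] |Γ : N|`.
* `irr_one_of_commutator_le_ker`: an irreducible character whose kernel contains all commutators
  is linear.
* `irr_degree_bound`: if `D ⊴ Γ`, `D ≤ C` and the commutators of `D` with `C` lie in `ker θ`,
  then `θ(1)² |D| |C| ≤ |Γ|²`.
-/

set_option autoImplicit false

namespace Cfsg.Agent.Helper11

open Cfsg
open scoped ComplexConjugate

universe u

section Quot

variable {Γ : Type u} [Group Γ] [Fintype Γ]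

open Classical in
/-- The regular character of `Γ / N`, inflated to `Γ`. -/
theorem sum_irr_le_ker (N : Subgroup Γ) [N.Normal] (k : Γ) :
    ∑ θ : IrrCharacter Γ,
        (if N ≤ Cfsg.Agent.Helper25.irrKer θ then (θ : Γ → ℂ) 1 * (θ : Γ → ℂ) k else 0)
      = if k ∈ N then (N.index : ℂ) else 0 := by
  have hN0 : (Nat.card N : ℂ) ≠ 0 := Nat.cast_ne_zero.mpr Nat.card_pos.ne'
  have h1 : ∀ θ : IrrCharacter Γ,
      (if N ≤ Cfsg.Agent.Helper25.irrKer θ then (θ : Γ → ℂ) 1 * (θ : Γ → ℂ) k else 0)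
        = (θ : Γ → ℂ) 1 * Cfsg.Agent.Helper2.cosetAvg N (θ : Γ → ℂ) k := by
    intro θ
    rw [Cfsg.Agent.Helper2.cosetAvg_irr]
    split_ifs
    · rfl
    · simp
  rw [Finset.sum_congr rfl (fun θ _ => h1 θ)]
  simp only [Cfsg.Agent.Helper2.cosetAvg_apply]
  have h2 : ∀ θ : IrrCharacter Γ,
      (θ : Γ → ℂ) 1 * ((Nat.card N : ℂ)⁻¹ * ∑ x : Γ, if x ∈ N then (θ : Γ → ℂ) (x * k) else 0)
        = (Nat.card N : ℂ)⁻¹ * ∑ x : Γ, if x ∈ N then (θ : Γ → ℂ) 1 * (θ : Γ → ℂ) (x * k) else 0 := by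
    intro θ
    rw [mul_left_comm, Finset.mul_sum]
    congr 1
    apply Finset.sum_congr rfl
    intro x _
    split_ifs
    · rfl
    · rw [mul_zero]
  rw [Finset.sum_congr rfl (fun θ _ => h2 θ), ← Finset.mul_sum, Finset.sum_comm]
  have h3 : ∀ x : Γ, ∑ θ : IrrCharacter Γ,
      (if x ∈ N then (θ : Γ → ℂ) 1 * (θ : Γ → ℂ) (x * k) else 0)
        = if x = k⁻¹ then (if k ∈ N then (Nat.card Γ : ℂ) else 0) else 0 := by
    intro x
    by_cases hx : x ∈ N
    · simp only [if_pos hx]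
      rw [Cfsg.Agent.Helper25.sum_irr_one_mul]
      by_cases hxk : x = k⁻¹
      · have hk : k ∈ N := by
          have := N.inv_mem hx
          rw [hxk, inv_inv] at this
          exact this
        rw [if_pos hxk, if_pos hk, if_pos (by rw [hxk, inv_mul_cancel])]
      · rw [if_neg hxk, if_neg]
        intro h
        exact hxk (eq_inv_of_mul_eq_one_left h)
    · simp only [if_neg hx, Finset.sum_const_zero]
      by_cases hxk : x = k⁻¹
      · rw [if_pos hxk, if_neg]
        intro hk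
        apply hx
        rw [hxk]
        exact N.inv_mem hk
      · rw [if_neg hxk]
  rw [Finset.sum_congr rfl (fun x _ => h3 x), Finset.sum_ite_eq' Finset.univ k⁻¹,
    if_pos (Finset.mem_univ _)]
  by_cases hk : k ∈ N
  · rw [if_pos hk, if_pos hk, ← Subgroup.card_mul_index N]
    push_cast
    field_simp
  · rw [if_neg hk, if_neg hk, mul_zero]

end Quot

section Deg

/-- Character values are bounded by the degree. -/
theorem char_norm_le_one {D : Type u} [Group D] [Finite D] {ξ : D → ℂ} (h : IsCharacter D ξ)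
    (x : D) : ‖ξ x‖ ≤ (ξ 1).re := by
  obtain ⟨n, ρ, rfl⟩ := h
  have h1 := Cfsg.Agent.Helper1.norm_char_le ρ x
  rw [Cfsg.Agent.Helper25.rep_char_one]
  simpa using h1

/-- If the real part of `ξ(x)` is at least `ξ(1)`, then `ξ(x) = ξ(1)`. -/
theorem char_eq_one_of_re {D : Type u} [Group D] [Finite D] {ξ : D → ℂ} (h : IsCharacter D ξ)
    (x : D) (hre : (ξ 1).re ≤ (ξ x).re) : ξ x = ξ 1 := by
  have h1 := char_norm_le_one h x
  have h2 : (ξ 1).im = 0 := by
    obtain ⟨n, ρ, rfl⟩ := h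
    rw [Cfsg.Agent.Helper25.rep_char_one]
    simp
  have h3 : (ξ x).re ≤ ‖ξ x‖ := Complex.re_le_norm (ξ x)
  have h4 : (ξ x).re = (ξ 1).re := le_antisymm (le_trans h3 h1) hre
  have h5 : (ξ x).im = 0 := by
    have h6 : ‖ξ x‖ = (ξ x).re := le_antisymm (by rw [h4]; exact h1) h3
    have h7 := Complex.sq_norm (ξ x)
    rw [Complex.normSq_apply, h6] at h7
    nlinarith
  exact Complex.ext h4 (by rw [h5, h2])

/-- An irreducible character whose kernel contains all commutators is linear. -/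
theorem irr_one_of_commutator_le_ker {D : Type u} [Group D] [Finite D] (μ : IrrCharacter D)
    (h : ∀ a b : D, (μ : D → ℂ) (a * b * a⁻¹ * b⁻¹) = (μ : D → ℂ) 1) : (μ : D → ℂ) 1 = 1 := by
  have hle : commutator D ≤ Cfsg.Agent.Helper25.irrKer μ := by
    rw [commutator_eq_closure, Subgroup.closure_le]
    rintro _ ⟨a, b, rfl⟩
    exact h a b
  obtain ⟨ψ, hψ⟩ := Cfsg.Agent.Helper25.exists_deflate μ (commutator D) hle
  have hcomm : ∀ x y : D ⧸ commutator D, x * y = y * x := by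
    intro x y
    exact mul_comm (G := Abelianization D) x y
  have h1 := irr_one_of_comm hcomm ψ
  rw [← hψ 1]
  exact h1

open Classical in
/-- Degree bound: if `D ⊴ Γ`, `D ≤ C` and the commutators of `D` with `C` lie in the kernel of
the irreducible character `θ`, then `θ(1)² |D| |C| ≤ |Γ|²`. -/
theorem irr_degree_bound {Γ : Type u} [Group Γ] [Fintype Γ] (θ : IrrCharacter Γ)
    (D C : Subgroup Γ) [hD : D.Normal] (hDC : D ≤ C)
    (hker : ∀ d ∈ D, ∀ c ∈ C, (θ : Γ → ℂ) (c * d * c⁻¹ * d⁻¹) = (θ : Γ → ℂ) 1) :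
    charDegree (θ : Γ → ℂ) ^ 2 * Nat.card D * Nat.card C ≤ Nat.card Γ ^ 2 := by
  let _instD : Fintype D := Fintype.ofFinite D
  have hθchar := Cfsg.Agent.Helper2.isCharacter_of_isIrrCharacter θ.2
  have hres : IsCharacter D (fun n : D => (θ : Γ → ℂ) n) :=
    Cfsg.Agent.Helper2.isCharacter_restrict D hθchar
  have hres1 : (fun n : D => (θ : Γ → ℂ) n) 1 ≠ 0 := Cfsg.Agent.Helper25.irr_one_ne_zero θ
  obtain ⟨lam, hlam⟩ := Cfsg.Agent.Helper24.exists_constituent hres hres1
  obtain ⟨a, ha, hdec⟩ := Cfsg.Agent.Helper2.clifford_orbit D θ lam hlam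
  obtain ⟨O, hO⟩ : ∃ O : Finset (IrrCharacter D), O = Finset.univ.filter (fun ξ : IrrCharacter D =>
      ∃ k : Γ, (ξ : D → ℂ) = Cfsg.Agent.Helper2.conjChar D (lam : D → ℂ) k) := ⟨_, rfl⟩
  rw [← hO] at hdec
  have haC : (a : ℂ) ≠ 0 := by exact_mod_cast ha.ne'
  have hval : ∀ x : D, (θ : Γ → ℂ) x = (a : ℂ) * ∑ ξ ∈ O, (ξ : D → ℂ) x := by
    intro x
    have := congrFun hdec x
    simpa [Finset.sum_apply] using this
  have hirrchar : ∀ ζ : IrrCharacter D, IsCharacter D (ζ : D → ℂ) :=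
    fun ζ => Cfsg.Agent.Helper2.isCharacter_of_isIrrCharacter ζ.2
  -- kernel
  have hkerξ : ∀ x : D, (θ : Γ → ℂ) x = (θ : Γ → ℂ) 1 →
      ∀ ξ ∈ O, (ξ : D → ℂ) x = (ξ : D → ℂ) 1 := by
    intro x hx ξ hξ
    have h1 : ∑ ζ ∈ O, ((ζ : D → ℂ) 1 - (ζ : D → ℂ) x) = 0 := by
      rw [Finset.sum_sub_distrib]
      have h2 := hval x
      have h3 := hval 1
      rw [OneMemClass.coe_one] at h3
      rw [hx, h3] at h2
      rw [mul_left_cancel₀ haC h2, sub_self]
    have hnn : ∀ ζ ∈ O, 0 ≤ ((ζ : D → ℂ) 1 - (ζ : D → ℂ) x).re := by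
      intro ζ _
      rw [Complex.sub_re]
      have := char_norm_le_one (hirrchar ζ) x
      have := Complex.re_le_norm ((ζ : D → ℂ) x)
      linarith
    have h4 : ∑ ζ ∈ O, ((ζ : D → ℂ) 1 - (ζ : D → ℂ) x).re = 0 := by
      rw [← Complex.re_sum, h1]
      simp
    have h5 := (Finset.sum_eq_zero_iff_of_nonneg hnn).mp h4 ξ hξ
    apply char_eq_one_of_re (hirrchar ξ) x
    rw [Complex.sub_re] at h5
    linarith
  have hlamO : lam ∈ O := by
    rw [hO, Finset.mem_filter]
    exact ⟨Finset.mem_univ _, 1, (Cfsg.Agent.Helper2.conjChar_one D _).symm⟩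
  have hlam1 : (lam : D → ℂ) 1 = 1 := by
    apply irr_one_of_commutator_le_ker
    intro x y
    apply hkerξ _ _ lam hlamO
    have := hker (y : Γ) y.2 (x : Γ) (hDC x.2)
    simpa using this
  have hinv : ∀ c ∈ C, Cfsg.Agent.Helper2.conjChar D (lam : D → ℂ) c = (lam : D → ℂ) := by
    intro c hc
    funext d
    rw [Cfsg.Agent.Helper2.conjChar_apply]
    have hmem : c * (d : Γ) * c⁻¹ * (d : Γ)⁻¹ ∈ D :=
      D.mul_mem (hD.conj_mem d d.2 c) (D.inv_mem d.2)
    have hx : (lam : D → ℂ) ⟨c * (d : Γ) * c⁻¹ * (d : Γ)⁻¹, hmem⟩ = (lam : D → ℂ) 1 := by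
      apply hkerξ _ _ lam hlamO
      exact hker d d.2 c hc
    have e : (⟨c * (d : Γ) * c⁻¹, hD.conj_mem d d.2 c⟩ : D) =
        ⟨c * (d : Γ) * c⁻¹ * (d : Γ)⁻¹, hmem⟩ * d := by
      apply Subtype.ext
      simp
    rw [e, Cfsg.Agent.Helper25.irr_linear_mul lam hlam1, hx, hlam1, one_mul]
  have hO1 : ∀ ξ ∈ O, (ξ : D → ℂ) 1 = 1 := by
    intro ξ hξ
    rw [hO, Finset.mem_filter] at hξ
    obtain ⟨-, k, hk⟩ := hξ
    rw [hk, Cfsg.Agent.Helper2.conjChar_apply]
    have e : (⟨k * ((1 : D) : Γ) * k⁻¹, hD.conj_mem _ (1 : D).2 k⟩ : D) = 1 := by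
      apply Subtype.ext
      simp
    rw [e, hlam1]
  have hOcard : O.card ≤ C.index := by
    have hsub : O ⊆ Finset.image (fun q : Γ ⧸ C =>
        (⟨Cfsg.Agent.Helper2.conjChar D (lam : D → ℂ) (q.out)⁻¹,
          Cfsg.Agent.Helper2.isIrrCharacter_conjChar D lam.2 _⟩ : IrrCharacter D))
        Finset.univ := by
      intro ξ hξ
      rw [hO, Finset.mem_filter] at hξ
      obtain ⟨-, k, hk⟩ := hξ
      rw [Finset.mem_image]
      refine ⟨QuotientGroup.mk k⁻¹, Finset.mem_univ _, ?_⟩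
      apply Subtype.ext
      show Cfsg.Agent.Helper2.conjChar D (lam : D → ℂ)
        ((QuotientGroup.mk k⁻¹ : Γ ⧸ C).out)⁻¹ = (ξ : D → ℂ)
      obtain ⟨c, hc⟩ := QuotientGroup.mk_out_eq_mul C k⁻¹
      rw [hc, mul_inv_rev, inv_inv, ← Cfsg.Agent.Helper2.conjChar_mul, hinv _ (C.inv_mem c.2),
        hk]
    calc O.card ≤ (Finset.image _ Finset.univ).card := Finset.card_le_card hsub
      _ ≤ (Finset.univ : Finset (Γ ⧸ C)).card := Finset.card_image_le
      _ = C.index := by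
        rw [Finset.card_univ, Subgroup.index_eq_card, Nat.card_eq_fintype_card]
  have hdeg : (θ : Γ → ℂ) 1 = (a : ℂ) * (O.card : ℂ) := by
    have h3 := hval 1
    rw [OneMemClass.coe_one] at h3
    rw [h3, Finset.sum_congr rfl hO1]
    simp
  have hnorm : classInner (fun n : D => (θ : Γ → ℂ) n) (fun n : D => (θ : Γ → ℂ) n) =
      (a : ℂ) ^ 2 * (O.card : ℂ) := by
    rw [hdec, Cfsg.Agent.Helper2.classInner_smul_left, Cfsg.Agent.Helper2.classInner_smul_right,
      Cfsg.Agent.Helper2.classInner_sum_left]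
    have h1 : ∀ ξ ∈ O, classInner (ξ : D → ℂ) (∑ ζ ∈ O, (ζ : D → ℂ)) = 1 := by
      intro ξ hξ
      rw [Cfsg.Agent.Helper2.classInner_sum_right, Finset.sum_eq_single ξ]
      · rw [Cfsg.Agent.Helper2.classInner_irr_irr, if_pos rfl]
      · intro ζ _ hne
        rw [Cfsg.Agent.Helper2.classInner_irr_irr, if_neg (Ne.symm hne)]
      · intro h
        exact absurd hξ h
    rw [Finset.sum_congr rfl h1, Complex.conj_natCast]
    simp
    ring
  have hΓ0 : (Nat.card Γ : ℂ) ≠ 0 := Nat.cast_ne_zero.mpr Nat.card_pos.ne'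
  have hD0 : (Nat.card D : ℂ) ≠ 0 := Nat.cast_ne_zero.mpr Nat.card_pos.ne'
  have hsumΓ : ∑ g : Γ, Complex.normSq ((θ : Γ → ℂ) g) = (Nat.card Γ : ℝ) := by
    have h1 := Cfsg.Agent.Helper2.classInner_irr_irr θ θ
    rw [if_pos rfl] at h1
    unfold classInner at h1
    have h2 : ∑ g : Γ, (θ : Γ → ℂ) g * conj ((θ : Γ → ℂ) g) =
        ((∑ g : Γ, Complex.normSq ((θ : Γ → ℂ) g) : ℝ) : ℂ) := by
      rw [Complex.ofReal_sum]
      apply Finset.sum_congr rfl
      intro g _
      rw [Complex.mul_conj]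
    rw [h2] at h1
    have h3 := (inv_mul_eq_iff_eq_mul₀ hΓ0).mp h1
    rw [mul_one] at h3
    exact_mod_cast h3
  have hsumD : ∑ d : D, Complex.normSq ((θ : Γ → ℂ) d) =
      (Nat.card D : ℝ) * ((a : ℝ) ^ 2 * (O.card : ℝ)) := by
    have h1 := hnorm
    unfold classInner at h1
    have h2 : ∑ d : D, (θ : Γ → ℂ) d * conj ((θ : Γ → ℂ) d) =
        ((∑ d : D, Complex.normSq ((θ : Γ → ℂ) d) : ℝ) : ℂ) := by
      rw [Complex.ofReal_sum]
      apply Finset.sum_congr rfl
      intro g _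
      rw [Complex.mul_conj]
    rw [h2] at h1
    have h3 := (inv_mul_eq_iff_eq_mul₀ hD0).mp h1
    exact_mod_cast h3
  have hle : ∑ d : D, Complex.normSq ((θ : Γ → ℂ) d) ≤ ∑ g : Γ, Complex.normSq ((θ : Γ → ℂ) g) := by
    rw [← Finset.sum_subtype (Finset.univ.filter (fun x : Γ => x ∈ D)) (by simp)
      (fun g => Complex.normSq ((θ : Γ → ℂ) g))]
    apply Finset.sum_le_sum_of_subset_of_nonneg (Finset.filter_subset _ _)
    intro g _ _
    exact Complex.normSq_nonneg _
  have hfin : (Nat.card D : ℝ) * ((a : ℝ) ^ 2 * (O.card : ℝ)) ≤ (Nat.card Γ : ℝ) := by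
    rw [← hsumD, ← hsumΓ]
    exact hle
  have hfinN : Nat.card D * (a ^ 2 * O.card) ≤ Nat.card Γ := by exact_mod_cast hfin
  have hdegN : charDegree (θ : Γ → ℂ) = a * O.card := by
    have := Cfsg.Agent.Helper25.irr_one_eq_degree θ
    rw [hdeg] at this
    exact_mod_cast this.symm
  rw [hdegN]
  calc (a * O.card) ^ 2 * Nat.card D * Nat.card C
      = (Nat.card D * (a ^ 2 * O.card)) * (O.card * Nat.card C) := by ring
    _ ≤ Nat.card Γ * (C.index * Nat.card C) :=
        Nat.mul_le_mul hfinN (Nat.mul_le_mul_right _ hOcard)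
    _ = Nat.card Γ ^ 2 := by
        rw [mul_comm C.index, Subgroup.card_mul_index]
        ring

end Deg

section Induced

variable {L : Type u} [Group L] [Fintype L] (K : Subgroup L)

open Classical in
/-- The non-principal irreducible characters of `K` whose kernel contains `A ⊓ K`. -/
noncomputable def irrAbove (A : Subgroup L) : Finset (IrrCharacter K) :=
  Finset.univ.filter (fun θ : IrrCharacter K =>
    (θ : K → ℂ) ≠ (fun _ => 1) ∧ ∀ a : K, (a : L) ∈ A → (θ : K → ℂ) a = (θ : K → ℂ) 1)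

theorem mem_irrAbove (A : Subgroup L) (θ : IrrCharacter K) :
    θ ∈ irrAbove K A ↔ (θ : K → ℂ) ≠ (fun _ => 1) ∧
      ∀ a : K, (a : L) ∈ A → (θ : K → ℂ) a = (θ : K → ℂ) 1 := by
  classical
  simp [irrAbove]

theorem mem_inducedIrrAbove_iff (A : Subgroup L) (φ : L → ℂ) :
    φ ∈ inducedIrrAbove K A ↔
      ∃ θ : IrrCharacter K, θ ∈ irrAbove K A ∧ φ = indFun K (θ : K → ℂ) := by
  constructor
  · rintro ⟨θ, hθ, h1, h2, rfl⟩
    exact ⟨⟨θ, hθ⟩, (mem_irrAbove K A _).mpr ⟨h1, h2⟩, rfl⟩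
  · rintro ⟨θ, hθ, rfl⟩
    obtain ⟨h1, h2⟩ := (mem_irrAbove K A θ).mp hθ
    exact ⟨θ, θ.2, h1, h2, rfl⟩

open Classical in
/-- `inducedIrrAbove K A` as a finite set. -/
noncomputable def indAbove (A : Subgroup L) : Finset (L → ℂ) :=
  (irrAbove K A).image (fun θ : IrrCharacter K => indFun K (θ : K → ℂ))

theorem mem_indAbove (A : Subgroup L) (φ : L → ℂ) :
    φ ∈ indAbove K A ↔ φ ∈ inducedIrrAbove K A := by
  rw [mem_inducedIrrAbove_iff]
  unfold indAbove
  rw [Finset.mem_image]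
  constructor
  · rintro ⟨θ, hθ, rfl⟩
    exact ⟨θ, hθ, rfl⟩
  · rintro ⟨θ, hθ, rfl⟩
    exact ⟨θ, hθ, rfl⟩

theorem coe_indAbove (A : Subgroup L) :
    (↑(indAbove K A) : Set (L → ℂ)) = inducedIrrAbove K A := by
  ext φ
  rw [Finset.mem_coe, mem_indAbove]

theorem inducedIrrAbove_mono {A B : Subgroup L} (h : A ≤ B) :
    inducedIrrAbove K B ⊆ inducedIrrAbove K A := by
  rintro φ ⟨θ, hθ, h1, h2, rfl⟩
  exact ⟨θ, hθ, h1, fun a ha => h2 a (h ha), rfl⟩

theorem conj_mem_inducedIrrAbove (A : Subgroup L) {φ : L → ℂ}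
    (hφ : φ ∈ inducedIrrAbove K A) : conjFun φ ∈ inducedIrrAbove K A := by
  let _instK : Fintype K := Fintype.ofFinite K
  obtain ⟨θ, hθ, h1, h2, rfl⟩ := hφ
  refine ⟨fun k => conj (θ k), Cfsg.Agent.Helper2.isIrrCharacter_conj hθ, ?_, ?_, ?_⟩
  · intro h
    apply h1
    funext k
    have h3 := congrArg (starRingEnd ℂ) (congrFun h k)
    simpa using h3
  · intro a ha
    show conj (θ a) = conj (θ 1)
    rw [h2 a ha]
  · exact Cfsg.Agent.Helper2.indFun_conj K θ

theorem indFun_finset_sum {ι : Type*} (s : Finset ι) (c : ι → ℂ) (f : ι → K → ℂ) :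
    indFun K (∑ i ∈ s, c i • f i) = ∑ i ∈ s, c i • indFun K (f i) := by
  classical
  induction s using Finset.induction_on with
  | empty =>
    simp only [Finset.sum_empty]
    have := Cfsg.Agent.Helper2.indFun_smul K (0 : ℂ) (0 : K → ℂ)
    simpa using this
  | insert a s ha ih =>
    rw [Finset.sum_insert ha, Finset.sum_insert ha, Cfsg.Agent.Helper2.indFun_add,
      Cfsg.Agent.Helper2.indFun_smul, ih]

open Classical in
/-- Parseval for the family induced from `Irr(K/A)`: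
`∑_{φ ∈ S(A)} φ(1)² / ⟨φ, φ⟩ = |L:K| (|K:A| - 1)`. -/
theorem sum_sq_div_indAbove [hK : K.Normal] (A : Subgroup L) [hA : A.Normal]
    (horth : ∀ φ ∈ inducedIrrAbove K A, ∀ ψ ∈ inducedIrrAbove K A, φ ≠ ψ → classInner φ ψ = 0) :
    ∑ φ ∈ indAbove K A, (φ 1) ^ 2 / classInner φ φ =
      (K.index : ℂ) * ((A.relIndex K : ℂ) - 1) := by
  let _instK : Fintype K := Fintype.ofFinite K
  obtain ⟨Θ, hΘ⟩ : ∃ Θ : Finset (IrrCharacter K), Θ = irrAbove K A := ⟨_, rfl⟩
  obtain ⟨Ψ, hΨ⟩ : ∃ Ψ : K → ℂ, Ψ = ∑ θ ∈ Θ, ((θ : K → ℂ) 1) • (θ : K → ℂ) := ⟨_, rfl⟩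
  have hΨapp : ∀ k : K, Ψ k = ∑ θ ∈ Θ, (θ : K → ℂ) 1 * (θ : K → ℂ) k := by
    intro k
    rw [hΨ]
    simp [Finset.sum_apply]
  have hΨval : ∀ k : K, Ψ k = (if (k : L) ∈ A then (A.relIndex K : ℂ) else 0) - 1 := by
    intro k
    have h1 := sum_irr_le_ker (A.subgroupOf K) k
    have h2 : ∑ θ : IrrCharacter K,
        (if A.subgroupOf K ≤ Cfsg.Agent.Helper25.irrKer θ then
          (θ : K → ℂ) 1 * (θ : K → ℂ) k else 0)
        = 1 + ∑ θ ∈ Θ, (θ : K → ℂ) 1 * (θ : K → ℂ) k := by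
      rw [← Finset.sum_filter]
      have hfil : Finset.univ.filter
          (fun θ : IrrCharacter K => A.subgroupOf K ≤ Cfsg.Agent.Helper25.irrKer θ)
          = insert (Cfsg.Agent.Helper25.trivChar K) Θ := by
        ext θ
        rw [Finset.mem_filter, Finset.mem_insert, hΘ, mem_irrAbove]
        constructor
        · rintro ⟨-, h⟩
          by_cases ht : θ = Cfsg.Agent.Helper25.trivChar K
          · left
            exact ht
          · right
            refine ⟨?_, ?_⟩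
            · intro h'
              apply ht
              apply Subtype.ext
              rw [h']
              funext x
              rw [Cfsg.Agent.Helper25.trivChar_apply]
            · intro a ha
              exact h (Subgroup.mem_subgroupOf.mpr ha)
        · rintro (h | ⟨-, h⟩)
          · refine ⟨Finset.mem_univ _, ?_⟩
            rw [h]
            intro a _
            show (Cfsg.Agent.Helper25.trivChar K : K → ℂ) a =
              (Cfsg.Agent.Helper25.trivChar K : K → ℂ) 1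
            rw [Cfsg.Agent.Helper25.trivChar_apply, Cfsg.Agent.Helper25.trivChar_apply]
          · refine ⟨Finset.mem_univ _, ?_⟩
            intro a ha
            exact h a (Subgroup.mem_subgroupOf.mp ha)
      have hnot : Cfsg.Agent.Helper25.trivChar K ∉ Θ := by
        rw [hΘ, mem_irrAbove]
        rintro ⟨h, -⟩
        apply h
        funext x
        rw [Cfsg.Agent.Helper25.trivChar_apply]
      rw [hfil, Finset.sum_insert hnot, Cfsg.Agent.Helper25.trivChar_apply,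
        Cfsg.Agent.Helper25.trivChar_apply, mul_one]
    rw [h2] at h1
    rw [hΨapp, eq_sub_iff_add_eq, add_comm, h1]
    by_cases hk : (k : L) ∈ A
    · rw [if_pos hk, if_pos (Subgroup.mem_subgroupOf.mpr hk)]
      rfl
    · rw [if_neg hk, if_neg (fun h => hk (Subgroup.mem_subgroupOf.mp h))]
  have hΨinv : ∀ (g : L) (n : K), Ψ ⟨g * n * g⁻¹, hK.conj_mem (n : L) n.2 g⟩ = Ψ n := by
    intro g n
    rw [hΨval, hΨval]
    have hiff : (g * (n : L) * g⁻¹ ∈ A) ↔ ((n : L) ∈ A) := by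
      constructor
      · intro h
        have := hA.conj_mem _ h g⁻¹
        simpa [mul_assoc] using this
      · intro h
        exact hA.conj_mem _ h g
    simp only [hiff]
  obtain ⟨ψ, hψ⟩ : ∃ ψ : L → ℂ, ψ = indFun K Ψ := ⟨_, rfl⟩
  have hψsum : ψ = ∑ θ ∈ Θ, ((θ : K → ℂ) 1) • indFun K (θ : K → ℂ) := by
    rw [hψ, hΨ, indFun_finset_sum]
  have hres : (fun k : K => ψ k) = (K.index : ℂ) • Ψ := by
    funext k
    rw [hψ, Cfsg.Agent.Helper7.indFun_apply_invariant K Ψ hΨinv k]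
    rfl
  have hθ1real : ∀ θ : IrrCharacter K, conj ((θ : K → ℂ) 1) = (θ : K → ℂ) 1 := by
    intro θ
    rw [Cfsg.Agent.Helper25.irr_one_eq_degree, Complex.conj_natCast]
  have hψcl : IsClassFunction L ψ := by
    rw [hψ]
    exact Cfsg.Agent.Helper2.indFun_isClassFunction K Ψ
  have hinner : ∀ θ ∈ Θ, classInner (indFun K (θ : K → ℂ)) ψ =
      (K.index : ℂ) * (θ : K → ℂ) 1 := by
    intro θ hθ
    rw [Cfsg.Agent.Helper2.frobenius_reciprocity K (θ : K → ℂ) ψ hψcl, hres,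
      Cfsg.Agent.Helper2.classInner_smul_right, Complex.conj_natCast, hΨ,
      Cfsg.Agent.Helper2.classInner_sum_right, Finset.sum_eq_single θ]
    · rw [Cfsg.Agent.Helper2.classInner_smul_right, hθ1real,
        Cfsg.Agent.Helper2.classInner_irr_irr, if_pos rfl, mul_one]
    · intro θ' _ hne
      rw [Cfsg.Agent.Helper2.classInner_smul_right, Cfsg.Agent.Helper2.classInner_irr_irr,
        if_neg (Ne.symm hne), mul_zero]
    · intro h
      exact absurd hθ h
  have hsumsq : ∑ θ ∈ Θ, (θ : K → ℂ) 1 * (θ : K → ℂ) 1 = (A.relIndex K : ℂ) - 1 := by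
    have h1 := hΨval 1
    rw [OneMemClass.coe_one, if_pos A.one_mem] at h1
    rw [← h1, hΨapp]
  have hψψ : classInner ψ ψ = (K.index : ℂ) * ((A.relIndex K : ℂ) - 1) := by
    nth_rewrite 1 [hψsum]
    rw [Cfsg.Agent.Helper2.classInner_sum_left,
      Finset.sum_congr rfl (fun θ hθ => by
        rw [Cfsg.Agent.Helper2.classInner_smul_left, hinner θ hθ]),
      ← hsumsq, Finset.mul_sum]
    apply Finset.sum_congr rfl
    intro θ _
    ring
  obtain ⟨c, hc⟩ : ∃ c : (L → ℂ) → ℂ, c = fun φ =>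
      Finset.sum (Θ.filter (fun θ : IrrCharacter K => indFun K (θ : K → ℂ) = φ))
        (fun θ : IrrCharacter K => (θ : K → ℂ) 1) := ⟨_, rfl⟩
  have hind : indAbove K A = Θ.image (fun θ : IrrCharacter K => indFun K (θ : K → ℂ)) := by
    rw [hΘ]
    rfl
  have hψgroup : ψ = ∑ φ ∈ indAbove K A, c φ • φ := by
    rw [hψsum, hind, ← Finset.sum_fiberwise_of_maps_to
      (g := fun θ : IrrCharacter K => indFun K (θ : K → ℂ))
      (t := Θ.image (fun θ : IrrCharacter K => indFun K (θ : K → ℂ)))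
      (fun (θ : IrrCharacter K) (hθ : θ ∈ Θ) => Finset.mem_image_of_mem _ hθ)]
    apply Finset.sum_congr rfl
    intro φ _
    rw [hc, Finset.sum_smul]
    apply Finset.sum_congr rfl
    intro θ hθ
    rw [(Finset.mem_filter.mp hθ).2]
  have hcreal : ∀ φ, conj (c φ) = c φ := by
    intro φ
    rw [hc]
    simp only []
    rw [map_sum]
    exact Finset.sum_congr rfl (fun θ _ => hθ1real θ)
  have hφψ : ∀ φ ∈ indAbove K A, classInner φ ψ = φ 1 := by
    intro φ hφ
    rw [hind, Finset.mem_image] at hφ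
    obtain ⟨θ, hθ, rfl⟩ := hφ
    rw [hinner θ hθ, Cfsg.Agent.Helper2.indFun_one_apply]
  have hcφ : ∀ φ ∈ indAbove K A, c φ * classInner φ φ = φ 1 := by
    intro φ hφ
    have h2 : classInner φ (∑ φ' ∈ indAbove K A, c φ' • φ') = c φ * classInner φ φ := by
      rw [Cfsg.Agent.Helper2.classInner_sum_right, Finset.sum_eq_single φ]
      · rw [Cfsg.Agent.Helper2.classInner_smul_right, hcreal]
      · intro φ' hφ' hne
        rw [Cfsg.Agent.Helper2.classInner_smul_right,
          horth φ ((mem_indAbove K A φ).mp hφ) φ' ((mem_indAbove K A φ').mp hφ') (Ne.symm hne),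
          mul_zero]
      · intro h
        exact absurd hφ h
    rw [← hψgroup, hφψ φ hφ] at h2
    exact h2.symm
  have hfinal : classInner ψ ψ = ∑ φ ∈ indAbove K A, (φ 1) ^ 2 / classInner φ φ := by
    nth_rewrite 1 [hψgroup]
    rw [Cfsg.Agent.Helper2.classInner_sum_left]
    apply Finset.sum_congr rfl
    intro φ hφ
    rw [Cfsg.Agent.Helper2.classInner_smul_left, hφψ φ hφ]
    have h1 := hcφ φ hφ
    by_cases h0 : classInner φ φ = 0
    · rw [h0, mul_zero] at h1
      rw [← h1, h0]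
      simp
    · rw [← h1]
      field_simp
  rw [← hfinal, hψψ]

/-- A solvable `K` has a non-principal linear character trivial on any proper `A ⊓ K`. -/
theorem exists_linear_irrAbove (hsolv : Group.IsSolvable K) (A : Subgroup L) [A.Normal]
    (hAK : A < K) : ∃ θ : IrrCharacter K, θ ∈ irrAbove K A ∧ (θ : K → ℂ) 1 = 1 := by
  classical
  have hN : A.subgroupOf K ≠ ⊤ := by
    intro h
    rw [Subgroup.subgroupOf_eq_top] at h
    exact (not_le_of_gt hAK) h
  have _i1 : Nontrivial (K ⧸ A.subgroupOf K) := QuotientGroup.nontrivial_iff.mpr hN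
  have hc := Group.IsSolvable.commutator_lt_top_of_nontrivial (K ⧸ A.subgroupOf K)
  have _i2 : Nontrivial (Abelianization (K ⧸ A.subgroupOf K)) :=
    QuotientGroup.nontrivial_iff.mpr hc.ne
  have _i3 : Finite (Abelianization (K ⧸ A.subgroupOf K)) :=
    inferInstanceAs (Finite ((K ⧸ A.subgroupOf K) ⧸ commutator (K ⧸ A.subgroupOf K)))
  obtain ⟨f, hf⟩ : ∃ f : K →* Abelianization (K ⧸ A.subgroupOf K),
      f = (Abelianization.of).comp (QuotientGroup.mk' (A.subgroupOf K)) := ⟨_, rfl⟩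
  have hfs : Function.Surjective f := by
    rw [hf]
    exact (QuotientGroup.mk'_surjective _).comp (QuotientGroup.mk'_surjective _)
  have hcard : 1 < Nat.card (Abelianization (K ⧸ A.subgroupOf K)) := Finite.one_lt_card
  obtain ⟨p, hp, hpd⟩ := Nat.exists_prime_and_dvd hcard.ne'
  obtain ⟨χ, hχ, -⟩ := Cfsg.Agent.Helper25.exists_irr_ne_triv_not_dvd p hp hpd
  have hχ1 : (χ : Abelianization (K ⧸ A.subgroupOf K) → ℂ) 1 = 1 :=
    irr_one_of_comm (fun a b => mul_comm a b) χ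
  refine ⟨Cfsg.Agent.Helper25.irrComp χ f hfs, ?_, ?_⟩
  · rw [mem_irrAbove]
    refine ⟨?_, ?_⟩
    · intro h
      apply hχ
      apply Subtype.ext
      funext q
      obtain ⟨k, rfl⟩ := hfs q
      have := congrFun h k
      rw [Cfsg.Agent.Helper25.irrComp_apply] at this
      rw [this, Cfsg.Agent.Helper25.trivChar_apply]
    · intro a ha
      have h2 : f a = 1 := by
        rw [hf]
        show Abelianization.of (QuotientGroup.mk' (A.subgroupOf K) a) = 1
        have h1 : (QuotientGroup.mk' (A.subgroupOf K) a) = 1 :=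
          (QuotientGroup.eq_one_iff a).mpr (Subgroup.mem_subgroupOf.mpr ha)
        rw [h1, map_one]
      rw [Cfsg.Agent.Helper25.irrComp_apply, Cfsg.Agent.Helper25.irrComp_apply, map_one, h2]
  · rw [Cfsg.Agent.Helper25.irrComp_apply, map_one]
    exact hχ1

end Induced

end Cfsg.Agent.Helper11
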