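import Mathlib
import Cfsg.Agent.Helper11.Coh5
import Cfsg.Agent.S1516
import Cfsg.Agent.S1517

/-!
# Coherence: subsets, extension along a finite set, and descent for induced characters
(helper11; Peterfalvi (6.2))

* `isCoherent_subset`, `isCoherenceSystem_subset`.
* `coherent_extend_finset`: repeated application of the extension criterion `S1516`.
* `coherent_descent`: Peterfalvi (6.2).
-/

set_option autoImplicit false

namespace Cfsg.Agent.Helper11

open Cfsg
open scoped ComplexConjugate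

universe u v

section CohGen

variable {L : Type u} [Group L] [Fintype L] {G : Type v} [Group G] [Fintype G]

theorem isLinearIsometryOn_mono {E E' : Set (L → ℂ)} {τ : (L → ℂ) → (G → ℂ)} (h : E' ⊆ E)
    (hτ : IsLinearIsometryOn E τ) : IsLinearIsometryOn E' τ :=
  ⟨fun α hα β hβ => hτ.1 α (h hα) β (h hβ), fun α hα n => hτ.2.1 α (h hα) n,
   fun α hα β hβ => hτ.2.2.1 α (h hα) β (h hβ), fun α hα => hτ.2.2.2 α (h hα)⟩

theorem isCoherent_subset {S' S : Set (L → ℂ)} {𝒜 : Set L} {τ : (L → ℂ) → (G → ℂ)}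
    (h : S' ⊆ S) (hcoh : IsCoherent S 𝒜 τ) (hne : ∃ α ∈ zspanOn S' 𝒜, α ≠ 0) :
    IsCoherent S' 𝒜 τ := by
  obtain ⟨-, τ₁, hτ₁, hagree⟩ := hcoh
  exact ⟨hne, τ₁, isLinearIsometryOn_mono (Submodule.span_mono h) hτ₁,
    fun α hα => hagree α (zspanOn_mono h 𝒜 hα)⟩

omit [Group L] [Fintype L] in
theorem conjFun_conjFun (f : L → ℂ) : conjFun (conjFun f) = f := by
  funext x
  simp [conjFun]

theorem sub_conj_mem_zspanOn {S' : Set (L → ℂ)} {χ : L → ℂ} (hχ : χ ∈ S')
    (hχ' : conjFun χ ∈ S') (hchar : IsCharacter L χ) : (χ - conjFun χ) ∈ zspanOn S' {1}ᶜ := by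
  apply mem_zspanOn_compl_one
  · exact Submodule.sub_mem _ (Submodule.subset_span hχ) (Submodule.subset_span hχ')
  · show χ 1 - conj (χ 1) = 0
    rw [Cfsg.Agent.Helper25.char_one_eq_degree hchar, Complex.conj_natCast, sub_self]

theorem isCoherenceSystem_subset {S S' : Set (L → ℂ)} {τ : (L → ℂ) → (G → ℂ)}
    {R : (L → ℂ) → Finset (G → ℂ)} (hS : IsCoherenceSystem S τ R) (h : S' ⊆ S)
    (hne : S'.Nonempty) (hconj : ∀ χ ∈ S', conjFun χ ∈ S') : IsCoherenceSystem S' τ R where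
  nonempty := hne
  isCharacter := fun χ hχ => hS.isCharacter χ (h hχ)
  conj_mem := hconj
  conj_ne := fun χ hχ => hS.conj_ne χ (h hχ)
  isometry := isLinearIsometryOn_mono (zspanOn_mono h _) hS.isometry
  map_one := fun α hα => hS.map_one α (zspanOn_mono h _ hα)
  orthogonal := fun χ hχ φ hφ hne => hS.orthogonal χ (h hχ) φ (h hφ) hne
  orthonormal := fun χ hχ => hS.orthonormal χ (h hχ)
  virtual := fun χ hχ => hS.virtual χ (h hχ)
  sum_eq := fun χ hχ => hS.sum_eq χ (h hχ)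
  disjoint := fun χ hχ φ hφ => hS.disjoint χ (h hχ) φ (h hφ)

/-- Repeated application of the extension criterion (Peterfalvi (5.7), `S1516`). -/
theorem coherent_extend_finset (S : Set (L → ℂ)) (τ : (L → ℂ) → (G → ℂ))
    (R : (L → ℂ) → Finset (G → ℂ)) (hS : IsCoherenceSystem S τ R) (d n : (L → ℂ) → ℕ)
    (hd : ∀ φ ∈ S, φ 1 = (d φ : ℂ)) (hn : ∀ φ ∈ S, classInner φ φ = (n φ : ℂ))
    (T₀ X : Finset (L → ℂ)) (hT₀ : ↑T₀ ⊆ S) (hX : ↑X ⊆ S)
    (hT₀c : ∀ φ ∈ T₀, conjFun φ ∈ T₀) (hXc : ∀ φ ∈ X, conjFun φ ∈ X)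
    (hcoh : IsCoherent (↑T₀ : Set (L → ℂ)) {1}ᶜ τ)
    (hstep : ∀ χ ∈ X, χ ∉ T₀ → ∃ χ₁ ∈ T₀, d χ₁ ∣ d χ ∧
      (2 * d χ * d χ₁ : ℝ) < ∑ φ ∈ T₀, ((d φ : ℝ) ^ 2 / (n φ : ℝ))) :
    IsCoherent (↑(T₀ ∪ X) : Set (L → ℂ)) {1}ᶜ τ := by
  classical
  have key : ∀ m : ℕ, ∀ T : Finset (L → ℂ), T₀ ⊆ T → T ⊆ T₀ ∪ X →
      (∀ φ ∈ T, conjFun φ ∈ T) → IsCoherent (↑T : Set (L → ℂ)) {1}ᶜ τ →
      ((T₀ ∪ X) \ T).card = m → IsCoherent (↑(T₀ ∪ X) : Set (L → ℂ)) {1}ᶜ τ := by
    intro m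
    induction m using Nat.strong_induction_on with
    | _ m ih =>
      intro T hT₀T hTU hTc hTcoh hcard
      by_cases hempty : (T₀ ∪ X) \ T = ∅
      · have : T = T₀ ∪ X :=
          Finset.Subset.antisymm hTU (Finset.sdiff_eq_empty_iff_subset.mp hempty)
        rw [← this]
        exact hTcoh
      · obtain ⟨χ, hχ⟩ := Finset.nonempty_iff_ne_empty.mpr hempty
        rw [Finset.mem_sdiff] at hχ
        obtain ⟨hχU, hχT⟩ := hχ
        have hχT₀ : χ ∉ T₀ := fun h => hχT (hT₀T h)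
        have hχX : χ ∈ X := by
          rcases Finset.mem_union.mp hχU with h | h
          · exact absurd h hχT₀
          · exact h
        have hχ'X : conjFun χ ∈ X := hXc χ hχX
        have hχ'T : conjFun χ ∉ T := by
          intro h
          apply hχT
          have := hTc _ h
          rwa [conjFun_conjFun] at this
        obtain ⟨χ₁, hχ₁, hdvd, hineq⟩ := hstep χ hχX hχT₀
        have hTS : (↑T : Set (L → ℂ)) ⊆ S := by
          intro f hf
          rcases Finset.mem_union.mp (hTU (Finset.mem_coe.mp hf)) with h | h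
          · exact hT₀ (Finset.mem_coe.mpr h)
          · exact hX (Finset.mem_coe.mpr h)
        have hsum : ∑ φ ∈ T₀, ((d φ : ℝ) ^ 2 / (n φ : ℝ)) ≤
            ∑ φ ∈ T, ((d φ : ℝ) ^ 2 / (n φ : ℝ)) := by
          apply Finset.sum_le_sum_of_subset_of_nonneg hT₀T
          intro φ _ _
          positivity
        have hnew := Cfsg.Agent.S1516.result S τ R hS d n hd hn T hTS hTc hTcoh χ
          (hX (Finset.mem_coe.mpr hχX)) hχT hχ'T χ₁ (hT₀T hχ₁) hdvd (lt_of_lt_of_le hineq hsum)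
        obtain ⟨T', hT'⟩ : ∃ T' : Finset (L → ℂ), T' = insert χ (insert (conjFun χ) T) :=
          ⟨_, rfl⟩
        have hcoe : (↑T' : Set (L → ℂ)) = ↑T ∪ {χ, conjFun χ} := by
          ext f
          simp only [hT', Finset.coe_insert, Set.mem_insert_iff, Set.mem_union, Finset.mem_coe,
            Set.mem_singleton_iff]
          tauto
        have h1 : T₀ ⊆ T' := by
          intro f hf
          rw [hT']
          exact Finset.mem_insert_of_mem (Finset.mem_insert_of_mem (hT₀T hf))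
        have h2 : T' ⊆ T₀ ∪ X := by
          intro f hf
          rw [hT', Finset.mem_insert, Finset.mem_insert] at hf
          rcases hf with rfl | rfl | hf
          · exact hχU
          · exact Finset.mem_union_right _ hχ'X
          · exact hTU hf
        have h3 : ∀ φ ∈ T', conjFun φ ∈ T' := by
          intro φ hφ
          rw [hT', Finset.mem_insert, Finset.mem_insert] at hφ
          rw [hT']
          rcases hφ with rfl | rfl | hφ
          · exact Finset.mem_insert_of_mem (Finset.mem_insert_self _ _)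
          · rw [conjFun_conjFun]
            exact Finset.mem_insert_self _ _
          · exact Finset.mem_insert_of_mem (Finset.mem_insert_of_mem (hTc φ hφ))
        have h4 : IsCoherent (↑T' : Set (L → ℂ)) {1}ᶜ τ := by
          rw [hcoe]
          exact hnew
        have h5 : ((T₀ ∪ X) \ T').card < m := by
          rw [← hcard]
          apply Finset.card_lt_card
          have hsub : (T₀ ∪ X) \ T' ⊆ (T₀ ∪ X) \ T := by
            intro f hf
            rw [Finset.mem_sdiff] at hf ⊢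
            refine ⟨hf.1, fun h => hf.2 ?_⟩
            rw [hT']
            exact Finset.mem_insert_of_mem (Finset.mem_insert_of_mem h)
          rw [Finset.ssubset_iff_of_subset hsub]
          refine ⟨χ, Finset.mem_sdiff.mpr ⟨hχU, hχT⟩, fun h => (Finset.mem_sdiff.mp h).2 ?_⟩
          rw [hT']
          exact Finset.mem_insert_self _ _
        exact ih _ h5 T' h1 h2 h3 h4 rfl
  exact key _ T₀ (Finset.Subset.refl _) Finset.subset_union_left hT₀c hcoh rfl

end CohGen

section Descent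

variable {L : Type u} [Group L] [Fintype L] {G : Type v} [Group G] [Fintype G]

/-- Peterfalvi (6.2). -/
theorem coherent_descent (K : Subgroup L) [hK : K.Normal] (hsolv : Group.IsSolvable K)
    (τ : (L → ℂ) → (G → ℂ)) (R : (L → ℂ) → Finset (G → ℂ))
    (hS : IsCoherenceSystem (inducedIrrAbove K ⊥) τ R) (A B C D : Subgroup L) [A.Normal]
    [B.Normal] [C.Normal] [D.Normal] (hAK : A < K) (hBK : B < K) (hBD : B ≤ D) (hDC : D ≤ C)
    (hCK : C ≤ K) (hcent : ∀ x ∈ D, ∀ y ∈ C, x * y * x⁻¹ * y⁻¹ ∈ B)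
    (hA : IsCoherent (inducedIrrAbove K A) {1}ᶜ τ)
    (hlt : 4 * C.index ^ 2 * D.relIndex C < (A.relIndex K - 1) ^ 2) :
    IsCoherent (inducedIrrAbove K B) {1}ᶜ τ := by
  classical
  obtain ⟨S, hSdef⟩ : ∃ S : Set (L → ℂ), S = inducedIrrAbove K ⊥ := ⟨_, rfl⟩
  rw [← hSdef] at hS
  have hsubS : ∀ E : Subgroup L, inducedIrrAbove K E ⊆ S := by
    intro E
    rw [hSdef]
    exact inducedIrrAbove_mono K bot_le
  obtain ⟨d, hd⟩ : ∃ d : (L → ℂ) → ℕ, ∀ φ ∈ S, φ 1 = (d φ : ℂ) :=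
    ⟨fun φ => charDegree φ, fun φ hφ =>
      Cfsg.Agent.Helper25.char_one_eq_degree (hS.isCharacter φ hφ)⟩
  have hnex : ∀ φ : L → ℂ, ∃ m : ℕ, φ ∈ S → classInner φ φ = (m : ℂ) := by
    intro φ
    by_cases hφ : φ ∈ S
    · obtain ⟨m, hm⟩ := Cfsg.Agent.Helper2.classInner_char_nat (hS.isCharacter φ hφ)
        (hS.isCharacter φ hφ)
      exact ⟨m, fun _ => hm⟩
    · exact ⟨0, fun h => absurd h hφ⟩
  choose n hn using hnex
  obtain ⟨T₀, hT₀def⟩ : ∃ T₀ : Finset (L → ℂ), T₀ = indAbove K A := ⟨_, rfl⟩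
  obtain ⟨X, hXdef⟩ : ∃ X : Finset (L → ℂ), X = indAbove K B := ⟨_, rfl⟩
  have hT₀S : (↑T₀ : Set (L → ℂ)) ⊆ S := by
    rw [hT₀def, coe_indAbove]
    exact hsubS A
  have hXS : (↑X : Set (L → ℂ)) ⊆ S := by
    rw [hXdef, coe_indAbove]
    exact hsubS B
  have hT₀c : ∀ φ ∈ T₀, conjFun φ ∈ T₀ := by
    intro φ hφ
    rw [hT₀def] at hφ ⊢
    exact (mem_indAbove K A _).mpr (conj_mem_inducedIrrAbove K A ((mem_indAbove K A φ).mp hφ))
  have hXc : ∀ φ ∈ X, conjFun φ ∈ X := by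
    intro φ hφ
    rw [hXdef] at hφ ⊢
    exact (mem_indAbove K B _).mpr (conj_mem_inducedIrrAbove K B ((mem_indAbove K B φ).mp hφ))
  have hcoh : IsCoherent (↑T₀ : Set (L → ℂ)) {1}ᶜ τ := by
    rw [hT₀def, coe_indAbove]
    exact hA
  have horthA : ∀ φ ∈ inducedIrrAbove K A, ∀ ψ ∈ inducedIrrAbove K A, φ ≠ ψ →
      classInner φ ψ = 0 :=
    fun φ hφ ψ hψ hne => hS.orthogonal φ (hsubS A hφ) ψ (hsubS A hψ) hne
  have hsumC := sum_sq_div_indAbove K A horthA
  rw [← hT₀def] at hsumC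
  have hsumR : ∑ φ ∈ T₀, ((d φ : ℝ) ^ 2 / (n φ : ℝ)) =
      (K.index : ℝ) * ((A.relIndex K : ℝ) - 1) := by
    have h1 : ((∑ φ ∈ T₀, ((d φ : ℝ) ^ 2 / (n φ : ℝ)) : ℝ) : ℂ) =
        (((K.index : ℝ) * ((A.relIndex K : ℝ) - 1) : ℝ) : ℂ) := by
      push_cast
      rw [← hsumC]
      apply Finset.sum_congr rfl
      intro φ hφ
      have hφS : φ ∈ S := hT₀S (Finset.mem_coe.mpr hφ)
      rw [hd φ hφS, hn φ hφS]
    exact_mod_cast h1
  obtain ⟨lamA, hlamA, hlamA1⟩ := exists_linear_irrAbove K hsolv A hAK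
  obtain ⟨lamB, hlamB, hlamB1⟩ := exists_linear_irrAbove K hsolv B hBK
  obtain ⟨χ₁, hχ₁def⟩ : ∃ χ₁ : L → ℂ, χ₁ = indFun K (lamA : K → ℂ) := ⟨_, rfl⟩
  have hχ₁T : χ₁ ∈ T₀ := by
    rw [hT₀def, hχ₁def]
    exact (mem_indAbove K A _).mpr ((mem_inducedIrrAbove_iff K A _).mpr ⟨lamA, hlamA, rfl⟩)
  have hχ₁S : χ₁ ∈ S := hT₀S (Finset.mem_coe.mpr hχ₁T)
  have hdχ₁ : d χ₁ = K.index := by
    have h1 := hd χ₁ hχ₁S
    rw [hχ₁def, Cfsg.Agent.Helper2.indFun_one_apply, hlamA1, mul_one] at h1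
    rw [hχ₁def]
    exact_mod_cast h1.symm
  have hKidx : 0 < K.index := Nat.pos_of_ne_zero Subgroup.index_ne_zero_of_finite
  have hCidx : C.index = C.relIndex K * K.index := (Subgroup.relIndex_mul_index hCK).symm
  have hcardC : Nat.card C * C.relIndex K = Nat.card K := by
    have := (C.subgroupOf K).card_mul_index
    rwa [Nat.card_congr (Subgroup.subgroupOfEquivOfLe hCK).toEquiv] at this
  have hcardD : Nat.card D * D.relIndex C = Nat.card C := by
    have := (D.subgroupOf C).card_mul_index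
    rwa [Nat.card_congr (Subgroup.subgroupOfEquivOfLe hDC).toEquiv] at this
  have hstep : ∀ χ ∈ X, χ ∉ T₀ → ∃ χ₁ ∈ T₀, d χ₁ ∣ d χ ∧
      (2 * d χ * d χ₁ : ℝ) < ∑ φ ∈ T₀, ((d φ : ℝ) ^ 2 / (n φ : ℝ)) := by
    intro χ hχ _
    have hχS : χ ∈ S := hXS (Finset.mem_coe.mpr hχ)
    rw [hXdef] at hχ
    obtain ⟨θ, hθ, hχθ⟩ := (mem_inducedIrrAbove_iff K B χ).mp ((mem_indAbove K B χ).mp hχ)
    obtain ⟨t, ht⟩ : ∃ t : ℕ, t = charDegree (θ : K → ℂ) := ⟨_, rfl⟩
    have hdχ : d χ = K.index * t := by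
      have h1 := hd _ hχS
      rw [hχθ, Cfsg.Agent.Helper2.indFun_one_apply, Cfsg.Agent.Helper25.irr_one_eq_degree,
        ← ht] at h1
      rw [hχθ]
      exact_mod_cast h1.symm
    refine ⟨χ₁, hχ₁T, ?_, ?_⟩
    · rw [hdχ₁, hdχ]
      exact dvd_mul_right _ _
    · rw [hsumR, hdχ₁, hdχ]
      obtain ⟨-, hθker⟩ := (mem_irrAbove K B θ).mp hθ
      have hbound := irr_degree_bound θ (D.subgroupOf K) (C.subgroupOf K)
        (fun x hx => Subgroup.mem_subgroupOf.mpr (hDC (Subgroup.mem_subgroupOf.mp hx)))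
        (by
          intro x hx y hy
          apply hθker
          have h1 := hcent (x : L) (Subgroup.mem_subgroupOf.mp hx) (y : L)
            (Subgroup.mem_subgroupOf.mp hy)
          have h2 := B.inv_mem h1
          simpa [mul_assoc] using h2)
      rw [← ht, Nat.card_congr (Subgroup.subgroupOfEquivOfLe (hDC.trans hCK)).toEquiv,
        Nat.card_congr (Subgroup.subgroupOfEquivOfLe hCK).toEquiv] at hbound
      have hcDpos : 0 < Nat.card D := Nat.card_pos
      have hcCpos : 0 < Nat.card C := Nat.card_pos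
      have ht2 : t ^ 2 ≤ D.relIndex C * C.relIndex K ^ 2 := by
        have h1 : t ^ 2 * (Nat.card D * Nat.card C) ≤
            (D.relIndex C * C.relIndex K ^ 2) * (Nat.card D * Nat.card C) := by
          calc t ^ 2 * (Nat.card D * Nat.card C) = t ^ 2 * Nat.card D * Nat.card C := by ring
            _ ≤ Nat.card K ^ 2 := hbound
            _ = (Nat.card C * C.relIndex K) ^ 2 := by rw [hcardC]
            _ = Nat.card C * (Nat.card D * D.relIndex C) * C.relIndex K ^ 2 := by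
                rw [hcardD]
                ring
            _ = (D.relIndex C * C.relIndex K ^ 2) * (Nat.card D * Nat.card C) := by ring
        exact Nat.le_of_mul_le_mul_right h1 (Nat.mul_pos hcDpos hcCpos)
      have hN : 2 * K.index * t < A.relIndex K - 1 := by
        apply lt_of_pow_lt_pow_left₀ 2 (Nat.zero_le _)
        calc (2 * K.index * t) ^ 2 = 4 * K.index ^ 2 * t ^ 2 := by ring
          _ ≤ 4 * K.index ^ 2 * (D.relIndex C * C.relIndex K ^ 2) :=
              Nat.mul_le_mul_left _ ht2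
          _ = 4 * C.index ^ 2 * D.relIndex C := by
              rw [hCidx]
              ring
          _ < _ := hlt
      have hgen : ∀ q r : ℕ, q < r - 1 → q + 1 < r := by
        intro q r h
        omega
      have hN' := hgen _ _ hN
      have hR : (2 * (K.index : ℝ) * (t : ℝ)) + 1 < (A.relIndex K : ℝ) := by
        exact_mod_cast hN'
      have he : (0 : ℝ) < K.index := by exact_mod_cast hKidx
      push_cast
      nlinarith
  have hall := coherent_extend_finset S τ R hS d n hd hn T₀ X hT₀S hXS hT₀c hXc hcoh hstep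
  have hsub : inducedIrrAbove K B ⊆ (↑(T₀ ∪ X) : Set (L → ℂ)) := by
    intro φ hφ
    rw [Finset.mem_coe, hXdef]
    exact Finset.mem_union_right _ ((mem_indAbove K B φ).mpr hφ)
  apply isCoherent_subset hsub hall
  have hχB : indFun K (lamB : K → ℂ) ∈ inducedIrrAbove K B :=
    (mem_inducedIrrAbove_iff K B _).mpr ⟨lamB, hlamB, rfl⟩
  have hχB' := conj_mem_inducedIrrAbove K B hχB
  have hχBS := hsubS B hχB
  refine ⟨indFun K (lamB : K → ℂ) - conjFun (indFun K (lamB : K → ℂ)),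
    sub_conj_mem_zspanOn hχB hχB' (hS.isCharacter _ hχBS), ?_⟩
  intro h
  exact hS.conj_ne _ hχBS (sub_eq_zero.mp h).symm

end Descent

end Cfsg.Agent.Helper11
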