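import Mathlib
import Cfsg.Agent.Helper11.Coh6

/-!
# Coherence descent through a nilpotent section (helper11; Peterfalvi (6.3))
-/

set_option autoImplicit false

namespace Cfsg.Agent.Helper11

open Cfsg
open scoped ComplexConjugate
open scoped commutatorElement

universe u v

section Descent2

variable {L : Type u} [Group L] [Fintype L] {G : Type v} [Group G] [Fintype G]

theorem relIndex_pos_of_finite {Γ : Type*} [Group Γ] [Finite Γ] (A B : Subgroup Γ) :
    0 < A.relIndex B :=
  Nat.pos_of_ne_zero (Subgroup.index_ne_zero_of_finite (H := A.subgroupOf B))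

/-- The arithmetic behind Peterfalvi (6.3). -/
theorem pf63_arith (h k e : ℕ) (hk : 0 < k) (hh : 4 * e ^ 2 + 2 ≤ h) :
    4 * (k * e) ^ 2 * h < (h * k - 1) ^ 2 := by
  have hpos : 0 < h * k := Nat.mul_pos (by omega) hk
  obtain ⟨a, ha⟩ : ∃ a, h * k = a + 1 := ⟨h * k - 1, by omega⟩
  rw [ha, Nat.add_sub_cancel]
  have h1 : (4 * e ^ 2 + 2) * (h * k ^ 2) ≤ h * (h * k ^ 2) := Nat.mul_le_mul_right _ hh
  have h2 : 2 * (h * k) ≤ 2 * (h * k ^ 2) := by
    apply Nat.mul_le_mul_left
    apply Nat.mul_le_mul_left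
    calc k = k ^ 1 := (pow_one k).symm
      _ ≤ k ^ 2 := Nat.pow_le_pow_right hk (by norm_num)
  have h3 : (a + 1) ^ 2 = h * (h * k ^ 2) := by
    rw [← ha]
    ring
  have h4 : 4 * (k * e) ^ 2 * h + 2 * (a + 1) ≤ (a + 1) ^ 2 := by
    rw [h3, ← ha]
    calc 4 * (k * e) ^ 2 * h + 2 * (h * k) ≤ 4 * (k * e) ^ 2 * h + 2 * (h * k ^ 2) := by omega
      _ = (4 * e ^ 2 + 2) * (h * k ^ 2) := by ring
      _ ≤ h * (h * k ^ 2) := h1
  nlinarith

/-- Peterfalvi (6.3). -/
theorem coherent_descent_nilpotent (K : Subgroup L) [hK : K.Normal]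
    (hsolv : Group.IsSolvable K) (τ : (L → ℂ) → (G → ℂ)) (R : (L → ℂ) → Finset (G → ℂ))
    (hS : IsCoherenceSystem (inducedIrrAbove K ⊥) τ R) (M H₁ H : Subgroup L) [M.Normal]
    [H₁.Normal] [H.Normal] (hMH₁ : M ≤ H₁) (hH₁H : H₁ ≤ H) (hHK : H ≤ K)
    [(M.subgroupOf H).Normal] (hnil : Group.IsNilpotent (↥H ⧸ M.subgroupOf H))
    (hcoh : IsCoherent (inducedIrrAbove K H₁) {1}ᶜ τ)
    (hbig : 4 * K.index ^ 2 + 1 < H₁.relIndex H) :
    IsCoherent (inducedIrrAbove K M) {1}ᶜ τ := by
  classical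
  obtain ⟨N, hN0, hNs⟩ : ∃ N : ℕ → Subgroup L, N 0 = H₁ ∧ ∀ i, N (i + 1) = M ⊔ ⁅N i, H⁆ :=
    ⟨fun i => Nat.rec H₁ (fun _ X => M ⊔ ⁅X, H⁆) i, rfl, fun i => rfl⟩
  have hH₁ne : ¬ H ≤ H₁ := by
    intro h
    have := Subgroup.relIndex_eq_one.mpr h
    omega
  have hmain : ∀ i, (N i).Normal ∧ M ≤ N i ∧ N i ≤ H₁ ∧
      IsCoherent (inducedIrrAbove K (N i)) {1}ᶜ τ := by
    intro i
    induction i with
    | zero =>
      rw [hN0]
      exact ⟨inferInstance, hMH₁, le_rfl, hcoh⟩
    | succ i ih =>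
      obtain ⟨hnorm, hM, hle, hc⟩ := ih
      have hcomm : ⁅N i, H⁆ ≤ N i := Subgroup.commutator_le_left (N i) H
      have hsucc_le : N (i + 1) ≤ N i := by
        rw [hNs]
        exact sup_le hM hcomm
      have hnorm' : (N (i + 1)).Normal := by
        rw [hNs]
        infer_instance
      refine ⟨hnorm', by rw [hNs]; exact le_sup_left, hsucc_le.trans hle, ?_⟩
      have hNiH : N i ≤ H := hle.trans hH₁H
      have hNiK : N i < K := by
        refine lt_of_le_of_ne (hNiH.trans hHK) ?_
        intro h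
        apply hH₁ne
        rw [← h] at hHK
        exact hHK.trans hle
      have hNi1K : N (i + 1) < K := lt_of_le_of_lt hsucc_le hNiK
      refine coherent_descent K hsolv τ R hS (N i) (N (i + 1)) H (N i) hNiK hNi1K hsucc_le
        hNiH hHK ?_ hc ?_
      · intro x hx y hy
        rw [hNs]
        apply Subgroup.mem_sup_right
        have := Subgroup.commutator_mem_commutator hx hy
        rwa [commutatorElement_def] at this
      · have e1 : H.index = H.relIndex K * K.index := (Subgroup.relIndex_mul_index hHK).symm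
        have e2 : (N i).relIndex K = (N i).relIndex H * H.relIndex K :=
          (Subgroup.relIndex_mul_relIndex _ _ _ hNiH hHK).symm
        have e3 : (N i).relIndex H = (N i).relIndex H₁ * H₁.relIndex H :=
          (Subgroup.relIndex_mul_relIndex _ _ _ hle hH₁H).symm
        have hkpos : 0 < H.relIndex K := relIndex_pos_of_finite _ _
        have h1pos : 0 < (N i).relIndex H₁ := relIndex_pos_of_finite _ _
        have hh : 4 * K.index ^ 2 + 2 ≤ (N i).relIndex H := by
          rw [e3]
          calc 4 * K.index ^ 2 + 2 ≤ H₁.relIndex H := hbig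
            _ = 1 * H₁.relIndex H := (one_mul _).symm
            _ ≤ (N i).relIndex H₁ * H₁.relIndex H := Nat.mul_le_mul_right _ h1pos
        rw [e1, e2]
        exact pf63_arith _ _ _ hkpos hh
  obtain ⟨c, hc⟩ := Subgroup.nilpotent_iff_lowerCentralSeries.mp hnil
  have hγ : ∀ i, ∀ x : H, (x : L) ∈ N i →
      (QuotientGroup.mk' (M.subgroupOf H) x) ∈
        (⊤ : Subgroup (↥H ⧸ M.subgroupOf H)).lowerCentralSeries i := by
    intro i
    induction i with
    | zero =>
      intro x _
      rw [Subgroup.lowerCentralSeries_zero]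
      exact Subgroup.mem_top _
    | succ i ih =>
      intro x hx
      rw [hNs] at hx
      have hW : M ⊔ ⁅N i, H⁆ ≤
          (((⊤ : Subgroup (↥H ⧸ M.subgroupOf H)).lowerCentralSeries (i + 1)).comap
            (QuotientGroup.mk' (M.subgroupOf H))).map H.subtype := by
        apply sup_le
        · intro m hm
          refine ⟨⟨m, hH₁H (hMH₁ hm)⟩, ?_, rfl⟩
          have h1 : (QuotientGroup.mk' (M.subgroupOf H)) ⟨m, hH₁H (hMH₁ hm)⟩ = 1 :=
            (QuotientGroup.eq_one_iff _).mpr (Subgroup.mem_subgroupOf.mpr hm)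
          rw [SetLike.mem_coe, Subgroup.mem_comap, h1]
          exact Subgroup.one_mem _
        · rw [Subgroup.commutator_le]
          intro a ha b hb
          have haH : a ∈ H := hH₁H ((hmain i).2.2.1 ha)
          refine ⟨⁅(⟨a, haH⟩ : H), (⟨b, hb⟩ : H)⁆, ?_, ?_⟩
          · rw [SetLike.mem_coe, Subgroup.mem_comap, map_commutatorElement,
              Subgroup.lowerCentralSeries_succ]
            exact Subgroup.commutator_mem_commutator (ih ⟨a, haH⟩ ha) (Subgroup.mem_top _)
          · rw [map_commutatorElement]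
            rfl
      obtain ⟨y, hy, hyx⟩ := hW hx
      have hyx' : y = x := Subtype.ext hyx
      rw [← hyx']
      exact hy
  have hNc : N c = M := by
    apply le_antisymm
    · intro x hx
      have hxH : x ∈ H := hH₁H ((hmain c).2.2.1 hx)
      have h1 := hγ c ⟨x, hxH⟩ hx
      rw [hc, Subgroup.mem_bot] at h1
      have h2 := (QuotientGroup.eq_one_iff _).mp h1
      exact Subgroup.mem_subgroupOf.mp h2
    · exact (hmain c).2.1
  have hfin := (hmain c).2.2.2
  rwa [hNc] at hfin

end Descent2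

end Cfsg.Agent.Helper11
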