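import Mathlib
import Cfsg.Agent.Helper11.Coh7
import Cfsg.Agent.Helper11.FrobCount

/-!
# Coherence for Frobenius-like sections (helper11; Peterfalvi (6.4), (6.5))
-/

set_option autoImplicit false

namespace Cfsg.Agent.Helper11

open Cfsg
open scoped ComplexConjugate
open scoped commutatorElement

universe u v

section DegSum

variable {Γ : Type u} [Group Γ] [Fintype Γ]

open Classical in
/-- `∑_{N ≤ ker θ} θ(1)² = |Γ : N|`, in `ℕ`. -/
theorem sum_degree_sq_le_ker (N : Subgroup Γ) [N.Normal] :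
    ∑ θ ∈ Finset.univ.filter (fun θ : IrrCharacter Γ => N ≤ Cfsg.Agent.Helper25.irrKer θ),
      charDegree (θ : Γ → ℂ) ^ 2 = N.index := by
  have h := sum_irr_le_ker N (1 : Γ)
  rw [if_pos N.one_mem, ← Finset.sum_filter] at h
  have h2 : ((∑ θ ∈ Finset.univ.filter
      (fun θ : IrrCharacter Γ => N ≤ Cfsg.Agent.Helper25.irrKer θ),
      charDegree (θ : Γ → ℂ) ^ 2 : ℕ) : ℂ) = (N.index : ℂ) := by
    rw [← h]
    push_cast
    apply Finset.sum_congr rfl
    intro θ _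
    rw [Cfsg.Agent.Helper25.irr_one_eq_degree]
    ring
  exact_mod_cast h2

open Classical in
/-- If `M ⊴ Γ` has `p`-power index and `Γ' M` has index `p`, then `Γ' ≤ M`. -/
theorem commutator_le_of_index_prime (M : Subgroup Γ) [M.Normal] (p m : ℕ) (hp : p.Prime)
    (hM : M.index = p ^ m) (hH : (commutator Γ ⊔ M).index = p) : commutator Γ ≤ M := by
  obtain ⟨H, hHdef⟩ : ∃ H : Subgroup Γ, H = commutator Γ ⊔ M := ⟨_, rfl⟩
  have hHn : H.Normal := by
    rw [hHdef]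
    infer_instance
  rw [← hHdef] at hH
  have hMH : M ≤ H := by
    rw [hHdef]
    exact le_sup_right
  have hcH : commutator Γ ≤ H := by
    rw [hHdef]
    exact le_sup_left
  obtain ⟨F, hF⟩ : ∃ F : Finset (IrrCharacter Γ), F = Finset.univ.filter
      (fun θ : IrrCharacter Γ => M ≤ Cfsg.Agent.Helper25.irrKer θ) := ⟨_, rfl⟩
  obtain ⟨F₁, hF₁⟩ : ∃ F₁ : Finset (IrrCharacter Γ), F₁ = Finset.univ.filter
      (fun θ : IrrCharacter Γ => H ≤ Cfsg.Agent.Helper25.irrKer θ) := ⟨_, rfl⟩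
  have s1 : ∑ θ ∈ F, charDegree (θ : Γ → ℂ) ^ 2 = p ^ m := by
    rw [hF, sum_degree_sq_le_ker M, hM]
  have s2 : ∑ θ ∈ F₁, charDegree (θ : Γ → ℂ) ^ 2 = p := by
    rw [hF₁, sum_degree_sq_le_ker H, hH]
  have hsub : F₁ ⊆ F := by
    intro θ hθ
    rw [hF₁, Finset.mem_filter] at hθ
    rw [hF, Finset.mem_filter]
    exact ⟨Finset.mem_univ _, hMH.trans hθ.2⟩
  have hlin : ∀ θ : IrrCharacter Γ, charDegree (θ : Γ → ℂ) = 1 →
      commutator Γ ≤ Cfsg.Agent.Helper25.irrKer θ := by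
    intro θ h1
    have h1' : (θ : Γ → ℂ) 1 = 1 := by
      rw [Cfsg.Agent.Helper25.irr_one_eq_degree, h1, Nat.cast_one]
    rw [commutator_eq_closure, Subgroup.closure_le]
    rintro _ ⟨a, b, rfl⟩
    show (θ : Γ → ℂ) (a * b * a⁻¹ * b⁻¹) = (θ : Γ → ℂ) 1
    have hmul := Cfsg.Agent.Helper25.irr_linear_mul θ h1'
    have e1 : (θ : Γ → ℂ) a * (θ : Γ → ℂ) a⁻¹ = 1 := by
      rw [← hmul, mul_inv_cancel, h1']
    have e2 : (θ : Γ → ℂ) b * (θ : Γ → ℂ) b⁻¹ = 1 := by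
      rw [← hmul, mul_inv_cancel, h1']
    rw [hmul, hmul, hmul, h1']
    calc (θ : Γ → ℂ) a * (θ : Γ → ℂ) b * (θ : Γ → ℂ) a⁻¹ * (θ : Γ → ℂ) b⁻¹
        = ((θ : Γ → ℂ) a * (θ : Γ → ℂ) a⁻¹) * ((θ : Γ → ℂ) b * (θ : Γ → ℂ) b⁻¹) := by ring
      _ = 1 := by rw [e1, e2, one_mul]
  have hdvd : ∀ θ ∈ F \ F₁, p ^ 2 ∣ charDegree (θ : Γ → ℂ) ^ 2 := by
    intro θ hθ
    rw [Finset.mem_sdiff, hF, hF₁, Finset.mem_filter, Finset.mem_filter] at hθ
    obtain ⟨⟨-, hθM⟩, hθH⟩ := hθ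
    apply pow_dvd_pow_of_dvd
    have h1 : charDegree (θ : Γ → ℂ) ∣ p ^ m := by
      rw [← hM]
      exact dvd_trans (Cfsg.Agent.Helper25.irr_degree_dvd_index_ker θ)
        (Subgroup.index_dvd_of_le hθM)
    obtain ⟨i, -, hi⟩ := (Nat.dvd_prime_pow hp).mp h1
    rcases Nat.eq_zero_or_pos i with h0 | h0
    · exfalso
      apply hθH
      refine ⟨Finset.mem_univ _, ?_⟩
      rw [hHdef]
      refine sup_le (hlin θ ?_) hθM
      rw [hi, h0, pow_zero]
    · rw [hi]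
      exact dvd_pow_self p h0.ne'
  have hsplit := Finset.sum_sdiff hsub (f := fun θ : IrrCharacter Γ => charDegree (θ : Γ → ℂ) ^ 2)
  rw [s1, s2] at hsplit
  obtain ⟨c, hc⟩ := Finset.dvd_sum hdvd
  rw [hc] at hsplit
  have hp2 := hp.two_le
  have hm1 : m = 1 := by
    rcases Nat.lt_or_ge m 2 with h | h
    · rcases Nat.eq_zero_or_pos m with h0 | h0
      · exfalso
        rw [h0, pow_zero] at hsplit
        nlinarith
      · omega
    · exfalso
      have h1 : p ^ 2 ∣ p ^ m := pow_dvd_pow p h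
      rw [← hsplit] at h1
      have h2 : p ^ 2 ∣ p := (Nat.dvd_add_right (dvd_mul_right _ _)).mp h1
      have h3 := Nat.le_of_dvd hp.pos h2
      nlinarith
  rw [hm1, pow_one] at hM
  have h4 := Subgroup.relIndex_mul_index hMH
  rw [hH, hM] at h4
  have h5 : M.relIndex H = 1 := by
    have hp0 := hp.pos
    exact Nat.eq_of_mul_eq_mul_right hp0 (by rw [h4, one_mul])
  exact hcH.trans (Subgroup.relIndex_eq_one.mp h5)

end DegSum

section Frob

variable {L : Type u} [Group L] [Fintype L] {G : Type v} [Group G] [Fintype G]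

/-- `S(H₁)` is coherent when `K' ≤ H₁ < K` (all degrees are `|L:K|`). -/
theorem coherent_inducedIrrAbove_of_commutator_le (K : Subgroup L) [hK : K.Normal]
    (hsolv : Group.IsSolvable K) (τ : (L → ℂ) → (G → ℂ)) (R : (L → ℂ) → Finset (G → ℂ))
    (hS : IsCoherenceSystem (inducedIrrAbove K ⊥) τ R) (H₁ : Subgroup L) [H₁.Normal]
    (hH₁K : H₁ < K) (hab : ⁅K, K⁆ ≤ H₁) : IsCoherent (inducedIrrAbove K H₁) {1}ᶜ τ := by
  have hsub : inducedIrrAbove K H₁ ⊆ inducedIrrAbove K ⊥ := inducedIrrAbove_mono K bot_le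
  obtain ⟨lam, hlam, -⟩ := exists_linear_irrAbove K hsolv H₁ hH₁K
  have hne : (inducedIrrAbove K H₁).Nonempty :=
    ⟨indFun K (lam : K → ℂ), (mem_inducedIrrAbove_iff K H₁ _).mpr ⟨lam, hlam, rfl⟩⟩
  have hS' := isCoherenceSystem_subset hS hsub hne
    (fun χ hχ => conj_mem_inducedIrrAbove K H₁ hχ)
  apply Cfsg.Agent.S1517.result _ τ R hS'
  have hdeg : ∀ φ ∈ inducedIrrAbove K H₁, φ 1 = (K.index : ℂ) := by
    intro φ hφ
    obtain ⟨θ, hθ, rfl⟩ := (mem_inducedIrrAbove_iff K H₁ φ).mp hφ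
    obtain ⟨-, hker⟩ := (mem_irrAbove K H₁ θ).mp hθ
    have h1 : (θ : K → ℂ) 1 = 1 := by
      apply irr_one_of_commutator_le_ker
      intro a b
      apply hker
      apply hab
      have := Subgroup.commutator_mem_commutator a.2 b.2
      rw [commutatorElement_def] at this
      simpa using this
    rw [Cfsg.Agent.Helper2.indFun_one_apply, h1, mul_one]
  intro φ hφ ψ hψ
  rw [hdeg φ hφ, hdeg ψ hψ]

/-- Peterfalvi (6.4), (6.5). -/
theorem coherent_frobenius_cases (K : Subgroup L) [hK : K.Normal] (hsolv : Group.IsSolvable K)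
    (τ : (L → ℂ) → (G → ℂ)) (R : (L → ℂ) → Finset (G → ℂ))
    (hS : IsCoherenceSystem (inducedIrrAbove K ⊥) τ R) (hodd : Odd (Nat.card L))
    (M : Subgroup L) [M.Normal] (hMK : M ≤ K) [(M.subgroupOf K).Normal]
    (hnil : Group.IsNilpotent (↥K ⧸ M.subgroupOf K)) (H₁ : Subgroup L)
    (hH₁ : H₁ = ⁅K, K⁆ ⊔ M) (hH₁K : H₁ < K)
    (hfrob : ∀ k ∈ K, k ∉ H₁ → ∀ x : L, x * k * x⁻¹ * k⁻¹ ∈ H₁ → x ∈ K)
    (hgood : (∃ N : Subgroup L, N.Normal ∧ H₁ < N ∧ N < K) ∨
      4 * K.index ^ 2 + 1 < H₁.relIndex K ∨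
      (¬ ∃ p m : ℕ, p.Prime ∧ M.relIndex K = p ^ m) ∨ ⁅K, K⁆ ≤ M ∨
      (∃ p m : ℕ, p.Prime ∧ M.relIndex K = p ^ m ∧ K.index ∣ p - 1)) :
    IsCoherent (inducedIrrAbove K M) {1}ᶜ τ := by
  classical
  have hH₁n : H₁.Normal := by
    rw [hH₁]
    infer_instance
  have hMH₁ : M ≤ H₁ := by
    rw [hH₁]
    exact le_sup_right
  have hab : ⁅K, K⁆ ≤ H₁ := by
    rw [hH₁]
    exact le_sup_left
  have hcohH₁ := coherent_inducedIrrAbove_of_commutator_le K hsolv τ R hS H₁ hH₁K hab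
  have caseB : 4 * K.index ^ 2 + 1 < H₁.relIndex K →
      IsCoherent (inducedIrrAbove K M) {1}ᶜ τ :=
    fun hb => coherent_descent_nilpotent K hsolv τ R hS M H₁ K hMH₁ hH₁K.le le_rfl hnil
      hcohH₁ hb
  have caseD : ⁅K, K⁆ ≤ M → IsCoherent (inducedIrrAbove K M) {1}ᶜ τ := by
    intro hd
    have h1 : H₁ = M := by
      rw [hH₁]
      exact sup_eq_right.mpr hd
    rw [← h1]
    exact hcohH₁
  have hKpos : 0 < K.index := Nat.pos_of_ne_zero Subgroup.index_ne_zero_of_finite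
  have caseA : (∃ N : Subgroup L, N.Normal ∧ H₁ < N ∧ N < K) →
      IsCoherent (inducedIrrAbove K M) {1}ᶜ τ := by
    rintro ⟨N, hNn, hH₁N, hNK⟩
    apply caseB
    have h1 := frob_ge hodd K H₁ N hH₁N.le hNK.le hab hfrob (not_le_of_gt hH₁N)
    have h2 := frob_ge_top hodd K H₁ N hH₁N.le hNK.le hab hfrob (not_le_of_gt hNK)
    have h3 := Subgroup.relIndex_mul_relIndex H₁ N K hH₁N.le hNK.le
    rw [← h3]
    nlinarith [Nat.mul_le_mul h1 h2]
  have hr1 : H₁.relIndex K ≠ 1 := fun h => (not_le_of_gt hH₁K) (Subgroup.relIndex_eq_one.mp h)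
  rcases hgood with ha | hb | hc | hd | he
  · exact caseA ha
  · exact caseB hb
  · apply caseA
    have hnpp : ∀ p : ℕ, p.Prime → ¬ ∃ n, H₁.relIndex K = p ^ n := by
      rintro p hp ⟨n, hn⟩
      apply hc
      have hidx := commutator_quotient_index K M hMK
      rw [← hH₁, hn] at hidx
      obtain ⟨m, hm⟩ := nilpotent_pgroup_of_abelianization hnil p hp n hidx
      exact ⟨p, m, hp, hm⟩
    obtain ⟨p, hp, hpd⟩ := Nat.exists_prime_and_dvd hr1
    exact exists_primary_between K H₁ hH₁K.le hab p hp hpd (hnpp p hp)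
  · exact caseD hd
  · obtain ⟨p, m, hp, hM, hdvd⟩ := he
    have h3 := Subgroup.relIndex_mul_relIndex M H₁ K hMH₁ hH₁K.le
    have h4 : H₁.relIndex K ∣ p ^ m := by
      rw [← hM, ← h3]
      exact dvd_mul_left _ _
    obtain ⟨j, -, hj⟩ := (Nat.dvd_prime_pow hp).mp h4
    have hj0 : j ≠ 0 := by
      rintro rfl
      exact hr1 (by rw [hj, pow_zero])
    by_cases hj1 : j = 1
    · apply caseD
      rw [hj1, pow_one] at hj
      have hMn : (M.subgroupOf K).Normal := inferInstance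
      have hidx : (commutator K ⊔ M.subgroupOf K).index = p := by
        rw [← commutator_sup_subgroupOf K M hMK, ← hH₁]
        exact hj
      have hle := commutator_le_of_index_prime (M.subgroupOf K) p m hp hM hidx
      rw [← Subgroup.map_subtype_commutator K]
      rintro x ⟨y, hy, rfl⟩
      exact Subgroup.mem_subgroupOf.mp (hle hy)
    · apply caseB
      have hpL : p ∣ Nat.card L := by
        have h5 : p ∣ H₁.relIndex K := by
          rw [hj]
          exact dvd_pow_self p hj0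
        exact dvd_trans h5 (dvd_trans (Subgroup.relIndex_dvd_card H₁ K)
          (Subgroup.card_subgroup_dvd_card K))
      have hpodd : Odd p := Odd.of_dvd_nat hodd hpL
      have heodd : Odd K.index := Odd.of_dvd_nat hodd (Subgroup.index_dvd_card K)
      have hp2e : 2 * K.index + 1 ≤ p := odd_dvd_pred_ge _ _ heodd hpodd hp.one_lt.ne' hdvd
      rw [hj]
      have hj2 : 2 ≤ j := by omega
      calc 4 * K.index ^ 2 + 1 < (2 * K.index + 1) ^ 2 := by nlinarith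
        _ ≤ p ^ 2 := Nat.pow_le_pow_left hp2e 2
        _ ≤ p ^ j := Nat.pow_le_pow_right hp.pos hj2

end Frob

end Cfsg.Agent.Helper11
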