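import Mathlib
import Cfsg.Agent.Helper2.CharExtra

set_option autoImplicit false

namespace Cfsg.Agent.Helper11

open Cfsg

universe u

/-- A virtual character of norm `2` vanishing at `1` is a difference of two distinct
irreducible characters. -/
theorem virtual_norm_two {G : Type u} [Group G] [Fintype G] {θ : G → ℂ}
    (hθ : IsGeneralizedCharacter G θ) (h2 : classInner θ θ = 2) (h1 : θ 1 = 0) :
    ∃ ψ₁ ψ₂ : IrrCharacter G, ψ₁ ≠ ψ₂ ∧ θ = (ψ₁ : G → ℂ) - (ψ₂ : G → ℂ) := by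
  classical
  obtain ⟨hcl, hm⟩ := Cfsg.Agent.Helper2.isGeneralizedCharacter_iff.mp hθ
  choose m hm using hm
  have hpars := Cfsg.Agent.Helper2.classInner_eq_sum_mul hcl θ
  have hsum : ∑ χ : IrrCharacter G, (m χ) ^ 2 = 2 := by
    have : ((∑ χ : IrrCharacter G, (m χ) ^ 2 : ℤ) : ℂ) = 2 := by
      rw [← h2, hpars]
      push_cast
      apply Finset.sum_congr rfl
      intro χ _
      rw [hm χ]
      simp [sq]
    exact_mod_cast this
  have hsq : ∀ k : ℤ, k ≠ 0 → k ^ 2 ≤ 2 → k = 1 ∨ k = -1 := by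
    intro k hk hk2
    have : -2 < k ∧ k < 2 := by constructor <;> nlinarith
    omega
  have hex : ∃ χ₁, m χ₁ ≠ 0 := by
    by_contra hcon
    push Not at hcon
    have : ∑ χ : IrrCharacter G, (m χ) ^ 2 = 0 :=
      Finset.sum_eq_zero (fun χ _ => by rw [hcon χ]; rfl)
    omega
  obtain ⟨χ₁, hχ₁⟩ := hex
  have hsplit := Finset.add_sum_erase Finset.univ (fun χ => (m χ) ^ 2) (Finset.mem_univ χ₁)
  have hnn : 0 ≤ ∑ χ ∈ Finset.univ.erase χ₁, (m χ) ^ 2 :=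
    Finset.sum_nonneg (fun χ _ => sq_nonneg _)
  have hm1' : m χ₁ = 1 ∨ m χ₁ = -1 := hsq _ hχ₁ (by linarith)
  have hm1 : (m χ₁) ^ 2 = 1 := by rcases hm1' with h | h <;> rw [h] <;> norm_num
  have hrest : ∑ χ ∈ Finset.univ.erase χ₁, (m χ) ^ 2 = 1 := by linarith
  have hex2 : ∃ χ₂ ∈ Finset.univ.erase χ₁, m χ₂ ≠ 0 := by
    by_contra hcon
    push Not at hcon
    have : ∑ χ ∈ Finset.univ.erase χ₁, (m χ) ^ 2 = 0 :=
      Finset.sum_eq_zero (fun χ hχ => by rw [hcon χ hχ]; rfl)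
    omega
  obtain ⟨χ₂, hχ₂mem, hχ₂⟩ := hex2
  have hsplit2 := Finset.add_sum_erase (Finset.univ.erase χ₁) (fun χ => (m χ) ^ 2) hχ₂mem
  have hnn2 : 0 ≤ ∑ χ ∈ (Finset.univ.erase χ₁).erase χ₂, (m χ) ^ 2 :=
    Finset.sum_nonneg (fun χ _ => sq_nonneg _)
  have hm2' : m χ₂ = 1 ∨ m χ₂ = -1 := hsq _ hχ₂ (by linarith)
  have hm2 : (m χ₂) ^ 2 = 1 := by rcases hm2' with h | h <;> rw [h] <;> norm_num
  have hrest2 : ∑ χ ∈ (Finset.univ.erase χ₁).erase χ₂, (m χ) ^ 2 = 0 := by linarith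
  have hzero : ∀ χ, χ ≠ χ₁ → χ ≠ χ₂ → m χ = 0 := by
    intro χ hc1 hc2
    have := (Finset.sum_eq_zero_iff_of_nonneg (fun χ _ => sq_nonneg (m χ))).mp hrest2 χ
      (by simp [hc1, hc2])
    exact pow_eq_zero_iff (two_ne_zero) |>.mp this
  have hne : χ₂ ≠ χ₁ := (Finset.mem_erase.mp hχ₂mem).1
  have hθeq : θ = (m χ₁ : ℂ) • (χ₁ : G → ℂ) + (m χ₂ : ℂ) • (χ₂ : G → ℂ) := by
    conv_lhs => rw [Cfsg.Agent.Helper2.classFun_eq_sum_classInner hcl]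
    rw [← Finset.add_sum_erase Finset.univ _ (Finset.mem_univ χ₁),
      ← Finset.add_sum_erase (Finset.univ.erase χ₁) _ hχ₂mem]
    rw [Finset.sum_eq_zero, add_zero, hm, hm]
    intro χ hχ
    simp only [Finset.mem_erase, Finset.mem_univ, and_true] at hχ
    rw [hm, hzero χ hχ.2 hχ.1]
    simp
  have hd1 := Cfsg.Agent.Helper25.irr_one_eq_degree χ₁
  have hd2 := Cfsg.Agent.Helper25.irr_one_eq_degree χ₂
  have hp1 := Cfsg.Agent.Helper25.irr_degree_pos χ₁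
  have hp2 := Cfsg.Agent.Helper25.irr_degree_pos χ₂
  have hval : (m χ₁ : ℂ) * (charDegree (χ₁ : G → ℂ) : ℂ) +
      (m χ₂ : ℂ) * (charDegree (χ₂ : G → ℂ) : ℂ) = 0 := by
    rw [← h1, hθeq]
    simp [hd1, hd2]
  have hvalZ : m χ₁ * (charDegree (χ₁ : G → ℂ) : ℤ) + m χ₂ * (charDegree (χ₂ : G → ℂ) : ℤ) = 0 := by
    exact_mod_cast hval
  rcases hm1' with h | h <;> rcases hm2' with h' | h'
  · rw [h, h'] at hvalZ; omega
  · refine ⟨χ₁, χ₂, hne.symm, ?_⟩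
    rw [hθeq, h, h']
    funext g
    simp [sub_eq_add_neg]
  · refine ⟨χ₂, χ₁, hne, ?_⟩
    rw [hθeq, h, h']
    funext g
    simp
    ring
  · rw [h, h'] at hvalZ; omega

end Cfsg.Agent.Helper11
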