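import Mathlib
import Cfsg.Agent.Helper11.Coh6
import Cfsg.Agent.Helper11.Virtual
import Cfsg.Agent.Helper11.Virtual1

/-!
# Feit's coherence criterion for sets of irreducible characters (helper11)

General versions (the source group `L` is unrelated to the target group `G`) of
* `irr_sign_uniform`: a linear isometry on `ℤ[S]` preserving vanishing at `1` sends `S` to
  irreducible characters up to a uniform sign;
* `feit_extend`: Feit's extension criterion (one new irreducible character);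
* `feit_extend_finset`: its iteration;
* `coherent_const_degree_irr`: a set of at least two irreducible characters of the same degree is
  coherent.
-/

set_option autoImplicit false

namespace Cfsg.Agent.Helper11

open Cfsg

universe u v

section FeitGen

variable {L : Type u} [Group L] [Fintype L] {G : Type v} [Group G] [Fintype G]

theorem irr_inner_fun {Γ : Type*} [Group Γ] [Fintype Γ] {f g : Γ → ℂ} (hf : IsIrrCharacter Γ f)
    (hg : IsIrrCharacter Γ g) : classInner f g = if f = g then 1 else 0 := by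
  have h := Cfsg.Agent.Helper25.irr_classInner (⟨f, hf⟩ : IrrCharacter Γ) ⟨g, hg⟩
  by_cases hfg : f = g
  · rw [if_pos hfg]
    rw [if_pos (Subtype.ext hfg)] at h
    exact h
  · rw [if_neg hfg]
    rw [if_neg (fun h' => hfg (congrArg Subtype.val h'))] at h
    exact h

theorem irr_sign_uniform (S : Set (L → ℂ)) (hirr : ∀ χ ∈ S, IsIrrCharacter L χ)
    (htwo : ∃ χ ∈ S, ∃ ψ ∈ S, χ ≠ ψ) (τ₁ : (L → ℂ) → (G → ℂ))
    (hτ₁ : IsLinearIsometryOn (zspan S) τ₁) (h0 : ∀ α ∈ zspan S, α 1 = 0 → τ₁ α 1 = 0) :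
    ∃ ε : ℂ, (ε = 1 ∨ ε = -1) ∧ (∀ χ ∈ S, IsIrrCharacter G (ε • τ₁ χ)) ∧
      (∀ χ ∈ S, ∀ ψ ∈ S, τ₁ χ = τ₁ ψ → χ = ψ) := by
  classical
  obtain ⟨hadd, hsmul, hiso, hvirt⟩ := hτ₁
  have hmemS : ∀ χ ∈ S, χ ∈ zspan S := fun χ hχ => Submodule.subset_span hχ
  have hself : ∀ χ ∈ S, classInner χ χ = 1 := by
    intro χ hχ
    have := Cfsg.Agent.Helper25.irr_classInner (⟨χ, hirr χ hχ⟩ : IrrCharacter L) ⟨χ, hirr χ hχ⟩
    rwa [if_pos rfl] at this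
  have horth : ∀ χ ∈ S, ∀ ψ ∈ S, χ ≠ ψ → classInner χ ψ = 0 := by
    intro χ hχ ψ hψ hne
    have := Cfsg.Agent.Helper25.irr_classInner (⟨χ, hirr χ hχ⟩ : IrrCharacter L) ⟨ψ, hirr ψ hψ⟩
    rw [if_neg (fun h => hne (congrArg Subtype.val h))] at this
    exact this
  have hsign : ∀ χ ∈ S, ∃ (e : ℤ) (μ : IrrCharacter G), (e = 1 ∨ e = -1) ∧
      τ₁ χ = (e : ℂ) • (μ : G → ℂ) := by
    intro χ hχ
    obtain ⟨μ, h | h⟩ := virtual_norm_one (hvirt χ (hmemS χ hχ))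
      (by rw [hiso _ (hmemS χ hχ) _ (hmemS χ hχ), hself χ hχ])
    · exact ⟨1, μ, Or.inl rfl, by rw [h]; simp⟩
    · exact ⟨-1, μ, Or.inr rfl, by rw [h]; simp⟩
  choose! e μ he using hsign
  have hkey : ∀ χ ∈ S, ∀ ψ ∈ S, e χ = e ψ := by
    intro χ hχ ψ hψ
    have hdχ := Cfsg.Agent.Helper25.irr_one_eq_degree (⟨χ, hirr χ hχ⟩ : IrrCharacter L)
    have hdψ := Cfsg.Agent.Helper25.irr_one_eq_degree (⟨ψ, hirr ψ hψ⟩ : IrrCharacter L)
    have hpχ := Cfsg.Agent.Helper25.irr_degree_pos (⟨χ, hirr χ hχ⟩ : IrrCharacter L)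
    have hpψ := Cfsg.Agent.Helper25.irr_degree_pos (⟨ψ, hirr ψ hψ⟩ : IrrCharacter L)
    have hDχ := Cfsg.Agent.Helper25.irr_one_eq_degree (μ χ hχ)
    have hDψ := Cfsg.Agent.Helper25.irr_one_eq_degree (μ ψ hψ)
    have hPχ := Cfsg.Agent.Helper25.irr_degree_pos (μ χ hχ)
    have hPψ := Cfsg.Agent.Helper25.irr_degree_pos (μ ψ hψ)
    simp only at hdχ hdψ hpχ hpψ
    set dχ := charDegree χ
    set dψ := charDegree ψ
    set Dχ := charDegree (μ χ hχ : G → ℂ)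
    set Dψ := charDegree (μ ψ hψ : G → ℂ)
    have hm1 : (dψ : ℤ) • χ ∈ zspan S := Submodule.smul_mem _ _ (hmemS χ hχ)
    have hm2 : (-(dχ : ℤ)) • ψ ∈ zspan S := Submodule.smul_mem _ _ (hmemS ψ hψ)
    have hα : ((dψ : ℤ) • χ + (-(dχ : ℤ)) • ψ) ∈ zspan S := Submodule.add_mem _ hm1 hm2
    have hα1 : ((dψ : ℤ) • χ + (-(dχ : ℤ)) • ψ) 1 = 0 := by
      show (dψ : ℤ) • χ 1 + (-(dχ : ℤ)) • ψ 1 = 0
      rw [hdχ, hdψ, zsmul_eq_mul, zsmul_eq_mul]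
      push_cast
      ring
    have h := h0 _ hα hα1
    rw [hadd _ hm1 _ hm2, hsmul _ (hmemS χ hχ), hsmul _ (hmemS ψ hψ), (he χ hχ).2,
      (he ψ hψ).2] at h
    have h' : (dψ : ℤ) • ((e χ : ℂ) * (μ χ hχ : G → ℂ) 1) +
        (-(dχ : ℤ)) • ((e ψ : ℂ) * (μ ψ hψ : G → ℂ) 1) = 0 := h
    rw [hDχ, hDψ, zsmul_eq_mul, zsmul_eq_mul] at h'
    have hZ : (dψ : ℤ) * (e χ * (Dχ : ℤ)) + (-(dχ : ℤ)) * (e ψ * (Dψ : ℤ)) = 0 := by
      exact_mod_cast h'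
    have p1 : (0 : ℤ) < (dψ : ℤ) * (Dχ : ℤ) := by positivity
    have p2 : (0 : ℤ) < (dχ : ℤ) * (Dψ : ℤ) := by positivity
    rcases (he χ hχ).1 with h1 | h1 <;> rcases (he ψ hψ).1 with h2 | h2
    · rw [h1, h2]
    · rw [h1, h2] at hZ; nlinarith
    · rw [h1, h2] at hZ; nlinarith
    · rw [h1, h2]
  obtain ⟨χ₀, hχ₀, -, -, -⟩ := htwo
  refine ⟨(e χ₀ : ℂ), ?_, ?_, ?_⟩
  · rcases (he χ₀ hχ₀).1 with h | h
    · left; rw [h]; simp
    · right; rw [h]; simp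
  · intro χ hχ
    have : (e χ₀ : ℂ) • τ₁ χ = (μ χ hχ : G → ℂ) := by
      rw [(he χ hχ).2, hkey χ₀ hχ₀ χ hχ, smul_smul]
      rcases (he χ hχ).1 with h | h <;> rw [h] <;> simp
    rw [this]
    exact (μ χ hχ).2
  · intro χ hχ ψ hψ heq
    by_contra hne
    have h1 := hiso χ (hmemS χ hχ) ψ (hmemS ψ hψ)
    rw [heq, hiso ψ (hmemS ψ hψ) ψ (hmemS ψ hψ), hself ψ hψ, horth χ hχ ψ hψ hne] at h1
    exact one_ne_zero h1


/-- Feit's extension criterion for irreducible characters. -/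
theorem feit_extend (S₀ : Finset (L → ℂ)) (χ : L → ℂ) (hirr : ∀ ξ ∈ S₀, IsIrrCharacter L ξ)
    (hχ : IsIrrCharacter L χ) (hχS : χ ∉ S₀) (d : (L → ℂ) → ℕ)
    (hd : ∀ ξ ∈ insert χ S₀, ξ 1 = (d ξ : ℂ)) (τ : (L → ℂ) → (G → ℂ))
    (hτ : IsLinearIsometryOn (zspanOn (↑(insert χ S₀) : Set (L → ℂ)) {1}ᶜ) τ)
    (hτ1 : ∀ α ∈ zspanOn (↑(insert χ S₀) : Set (L → ℂ)) {1}ᶜ, τ α 1 = 0)
    (hcoh : IsCoherent (↑S₀ : Set (L → ℂ)) {1}ᶜ τ) (ψ : L → ℂ) (hψ : ψ ∈ S₀)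
    (hdvd : d ψ ∣ d χ) (hlt : 2 * d ψ * d χ < ∑ ξ ∈ S₀, d ξ ^ 2) :
    IsCoherent (↑(insert χ S₀) : Set (L → ℂ)) {1}ᶜ τ := by
  classical
  obtain ⟨⟨α₀, hα₀, hα₀ne⟩, τ₁, hτ₁, hagree⟩ := hcoh
  have hcoeS : (↑S₀ : Set (L → ℂ)) ⊆ (↑(insert χ S₀) : Set (L → ℂ)) := by
    intro ξ hξ
    exact Finset.mem_coe.mpr (Finset.mem_insert_of_mem (Finset.mem_coe.mp hξ))
  have hsub : zspanOn (↑S₀ : Set (L → ℂ)) {1}ᶜ ⊆ zspanOn (↑(insert χ S₀) : Set (L → ℂ)) {1}ᶜ :=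
    zspanOn_mono hcoeS _
  have hirr' : ∀ ξ ∈ insert χ S₀, IsIrrCharacter L ξ := by
    intro ξ hξ
    rcases Finset.mem_insert.mp hξ with h | h
    · rw [h]; exact hχ
    · exact hirr ξ h
  have hself : ∀ ξ ∈ insert χ S₀, classInner ξ ξ = 1 := by
    intro ξ hξ
    have := Cfsg.Agent.Helper25.irr_classInner (⟨ξ, hirr' ξ hξ⟩ : IrrCharacter L) ⟨ξ, hirr' ξ hξ⟩
    rwa [if_pos rfl] at this
  have horth : ∀ ξ ∈ insert χ S₀, ∀ ξ' ∈ insert χ S₀, ξ ≠ ξ' → classInner ξ ξ' = 0 := by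
    intro ξ hξ ξ' hξ' hne
    have := Cfsg.Agent.Helper25.irr_classInner (⟨ξ, hirr' ξ hξ⟩ : IrrCharacter L) ⟨ξ', hirr' ξ' hξ'⟩
    rw [if_neg (fun h => hne (congrArg Subtype.val h))] at this
    exact this
  have hχmem : χ ∈ insert χ S₀ := Finset.mem_insert_self χ S₀
  have hSmem : ∀ ξ ∈ S₀, ξ ∈ insert χ S₀ := fun ξ hξ => Finset.mem_insert_of_mem hξ
  have hneχ : ∀ ξ ∈ S₀, ξ ≠ χ := fun ξ hξ h => hχS (h ▸ hξ)
  have hdpos : ∀ ξ ∈ insert χ S₀, 0 < d ξ := by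
    intro ξ hξ
    have h1 := Cfsg.Agent.Helper25.irr_one_ne_zero (⟨ξ, hirr' ξ hξ⟩ : IrrCharacter L)
    have h2 : ξ 1 ≠ 0 := h1
    rw [hd ξ hξ] at h2
    have h3 : d ξ ≠ 0 := by exact_mod_cast h2
    omega
  have hmem0 : ∀ ξ ∈ S₀, ξ ∈ zspan (↑S₀ : Set (L → ℂ)) :=
    fun ξ hξ => Submodule.subset_span (Finset.mem_coe.mpr hξ)
  have hmem1 : ∀ ξ ∈ insert χ S₀, ξ ∈ zspan (↑(insert χ S₀) : Set (L → ℂ)) :=
    fun ξ hξ => Submodule.subset_span (Finset.mem_coe.mpr hξ)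
  -- two elements in S₀
  have htwo : ∃ ξ ∈ S₀, ξ ≠ ψ := by
    by_contra hcon
    push Not at hcon
    have hS : (↑S₀ : Set (L → ℂ)) = {ψ} := by
      ext ξ
      simp only [Finset.mem_coe, Set.mem_singleton_iff]
      exact ⟨fun h => hcon ξ h, fun h => h ▸ hψ⟩
    have h1 : α₀ ∈ Submodule.span ℤ (↑S₀ : Set (L → ℂ)) := hα₀.1
    rw [hS] at h1
    obtain ⟨n, rfl⟩ := Submodule.mem_span_singleton.mp h1
    have h2 : (n • ψ) 1 = 0 := zspanOn_compl_one_apply hα₀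
    rw [Pi.smul_apply, hd ψ (hSmem ψ hψ), zsmul_eq_mul] at h2
    have h3 : n * (d ψ : ℤ) = 0 := by exact_mod_cast h2
    have h4 := hdpos ψ (hSmem ψ hψ)
    have h5 : n = 0 := by
      rcases mul_eq_zero.mp h3 with h | h
      · exact h
      · omega
    exact hα₀ne (by rw [h5, zero_smul])
  obtain ⟨ξ₁, hξ₁, hξ₁ne⟩ := htwo
  have h0 : ∀ θ ∈ zspan (↑S₀ : Set (L → ℂ)), θ 1 = 0 → τ₁ θ 1 = 0 := by
    intro θ hθ h1
    have hm := mem_zspanOn_compl_one hθ h1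
    rw [hagree θ hm]
    exact hτ1 θ (hsub hm)
  obtain ⟨ε, hε, hτ₁irr, hτ₁inj⟩ := irr_sign_uniform (↑S₀ : Set (L → ℂ))
    (fun ξ hξ => hirr ξ (Finset.mem_coe.mp hξ))
    ⟨ξ₁, Finset.mem_coe.mpr hξ₁, ψ, Finset.mem_coe.mpr hψ, hξ₁ne⟩ τ₁ hτ₁ h0
  have hε0 : ε ≠ 0 := by rcases hε with h | h <;> rw [h] <;> norm_num
  obtain ⟨a, ha⟩ := hdvd
  have hdψ := hdpos ψ (hSmem ψ hψ)
  have hdχ := hdpos χ hχmem
  have hapos : 0 < a := by
    rcases Nat.eq_zero_or_pos a with h | h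
    · rw [h, mul_zero] at ha; omega
    · exact h
  -- β = χ - a ψ
  set β : L → ℂ := χ + (-(a : ℤ)) • ψ with hβdef
  have hβ : β ∈ zspanOn (↑(insert χ S₀) : Set (L → ℂ)) {1}ᶜ := by
    apply mem_zspanOn_compl_one
    · exact Submodule.add_mem _ (hmem1 χ hχmem) (Submodule.smul_mem _ _ (hmem1 ψ (hSmem ψ hψ)))
    · show χ 1 + (-(a : ℤ)) • ψ 1 = 0
      rw [hd χ hχmem, hd ψ (hSmem ψ hψ), ha, zsmul_eq_mul]
      push_cast
      ring
  have hγ : ∀ ξ ∈ S₀, ((d ψ : ℤ) • ξ + (-(d ξ : ℤ)) • ψ) ∈ zspanOn (↑S₀ : Set (L → ℂ)) {1}ᶜ := by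
    intro ξ hξ
    apply mem_zspanOn_compl_one
    · exact Submodule.add_mem _ (Submodule.smul_mem _ _ (hmem0 ξ hξ))
        (Submodule.smul_mem _ _ (hmem0 ψ hψ))
    · show (d ψ : ℤ) • ξ 1 + (-(d ξ : ℤ)) • ψ 1 = 0
      rw [hd ξ (hSmem ξ hξ), hd ψ (hSmem ψ hψ), zsmul_eq_mul, zsmul_eq_mul]
      push_cast
      ring
  have hτγ : ∀ ξ ∈ S₀, τ ((d ψ : ℤ) • ξ + (-(d ξ : ℤ)) • ψ) =
      (d ψ : ℤ) • τ₁ ξ + (-(d ξ : ℤ)) • τ₁ ψ := by
    intro ξ hξ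
    rw [← hagree _ (hγ ξ hξ),
      hτ₁.1 _ (Submodule.smul_mem _ _ (hmem0 ξ hξ)) _ (Submodule.smul_mem _ _ (hmem0 ψ hψ)),
      hτ₁.2.1 ξ (hmem0 ξ hξ), hτ₁.2.1 ψ (hmem0 ψ hψ)]
  have hτβgen : IsGeneralizedCharacter G (τ β) := hτ.2.2.2 β hβ
  have hmex : ∀ ξ ∈ S₀, ∃ k : ℤ, classInner (τ β) (τ₁ ξ) = (k : ℂ) := fun ξ hξ =>
    classInner_virtual_int hτβgen (hτ₁.2.2.2 ξ (hmem0 ξ hξ))
  choose! m hm using hmex
  have horth1 : ∀ i ∈ S₀, ∀ j ∈ S₀, classInner (τ₁ i) (τ₁ j) = if i = j then 1 else 0 := by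
    intro i hi j hj
    rw [hτ₁.2.2.1 i (hmem0 i hi) j (hmem0 j hj)]
    by_cases hij : i = j
    · rw [if_pos hij, hij]; exact hself j (hSmem j hj)
    · rw [if_neg hij]; exact horth i (hSmem i hi) j (hSmem j hj) hij
  have hβχ : ∀ f : L → ℂ, classInner β f = classInner χ f + ((-(a : ℤ) : ℤ) : ℂ) * classInner ψ f := by
    intro f
    rw [hβdef, Cfsg.Agent.Helper2.classInner_add_left, zsmul_fun_eq,
      Cfsg.Agent.Helper2.classInner_smul_left]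
  -- (F5)
  have hF5 : ∀ ξ ∈ S₀, (d ψ : ℤ) * m ξ = (d ξ : ℤ) * (m ψ + a) -
      (if ξ = ψ then (a : ℤ) * d ψ else 0) := by
    intro ξ hξ
    have h1 := hτ.2.2.1 β hβ _ (hsub (hγ ξ hξ))
    rw [hτγ ξ hξ, hβχ] at h1
    simp only [zsmul_fun_eq, Cfsg.Agent.Helper2.classInner_add_left,
      Cfsg.Agent.Helper2.classInner_add_right, Cfsg.Agent.Helper2.classInner_smul_left,
      Cfsg.Agent.Helper2.classInner_smul_right, map_intCast] at h1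
    rw [hm ξ hξ, hm ψ hψ, horth χ hχmem ξ (hSmem ξ hξ) (fun h => hneχ ξ hξ h.symm),
      horth χ hχmem ψ (hSmem ψ hψ) (fun h => hneχ ψ hψ h.symm), hself ψ (hSmem ψ hψ)] at h1
    by_cases hξψ : ξ = ψ
    · rw [if_pos hξψ, hξψ]
      ring
    · rw [if_neg hξψ]
      rw [horth ψ (hSmem ψ hψ) ξ (hSmem ξ hξ) (fun h => hξψ h.symm)] at h1
      have h2 : ((d ψ : ℤ) * m ξ : ℂ) = ((d ξ : ℤ) * (m ψ + a) : ℂ) := by
        push_cast
        push_cast at h1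
        linear_combination h1
      have h3 : (d ψ : ℤ) * m ξ = (d ξ : ℤ) * (m ψ + a) := by exact_mod_cast h2
      rw [h3, sub_zero]
  -- the remainder Δ
  set Δ : G → ℂ := τ β - ∑ i ∈ S₀, (m i) • τ₁ i with hΔdef
  obtain ⟨hΔorth, hΔnorm⟩ := bessel_decomp S₀ τ₁ horth1 (τ β) m hm
  have hΔgen : IsGeneralizedCharacter G Δ :=
    isGeneralizedCharacter_sub' hτβgen (isGeneralizedCharacter_finset_sum _ _ (fun i hi =>
      Cfsg.Agent.Helper7.isGeneralizedCharacter_zsmul _ (hτ₁.2.2.2 i (hmem0 i hi))))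
  have hββ : classInner (τ β) (τ β) = ((1 + (a : ℤ) ^ 2 : ℤ) : ℂ) := by
    rw [hτ.2.2.1 β hβ β hβ]
    simp only [hβdef, zsmul_fun_eq, Cfsg.Agent.Helper2.classInner_add_left,
      Cfsg.Agent.Helper2.classInner_add_right, Cfsg.Agent.Helper2.classInner_smul_left,
      Cfsg.Agent.Helper2.classInner_smul_right, map_intCast]
    rw [hself χ hχmem, hself ψ (hSmem ψ hψ),
      horth χ hχmem ψ (hSmem ψ hψ) (fun h => hneχ ψ hψ h.symm),
      horth ψ (hSmem ψ hψ) χ hχmem (hneχ ψ hψ)]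
    push_cast
    ring
  set K : ℤ := ∑ i ∈ S₀, (m i) ^ 2 with hKdef
  have hΔnorm' : classInner Δ Δ = ((1 + (a : ℤ) ^ 2 - K : ℤ) : ℂ) := by
    rw [hΔnorm, hββ]
    push_cast
    ring
  have hKle : 0 ≤ 1 + (a : ℤ) ^ 2 - K := classInner_self_int_nonneg hΔnorm'
  set u : ℤ := m ψ + a with hudef
  set D : ℤ := ∑ ξ ∈ S₀, (d ξ : ℤ) ^ 2 with hDdef
  have hKD : (d ψ : ℤ) ^ 2 * K = u ^ 2 * D - 2 * a * (d ψ : ℤ) ^ 2 * u + (a : ℤ) ^ 2 * (d ψ : ℤ) ^ 2 := by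
    have h1 : ∀ ξ ∈ S₀, (d ψ : ℤ) ^ 2 * (m ξ) ^ 2 = u ^ 2 * (d ξ : ℤ) ^ 2 -
        (if ξ = ψ then 2 * (a : ℤ) * (d ψ : ℤ) ^ 2 * u - (a : ℤ) ^ 2 * (d ψ : ℤ) ^ 2 else 0) := by
      intro ξ hξ
      have h2 := hF5 ξ hξ
      by_cases hξψ : ξ = ψ
      · rw [if_pos hξψ] at h2 ⊢
        rw [hξψ] at h2 ⊢
        have h3 : (d ψ : ℤ) ^ 2 * (m ψ) ^ 2 = ((d ψ : ℤ) * m ψ) ^ 2 := by ring
        rw [h3, h2]
        ring
      · rw [if_neg hξψ] at h2 ⊢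
        have h3 : (d ψ : ℤ) ^ 2 * (m ξ) ^ 2 = ((d ψ : ℤ) * m ξ) ^ 2 := by ring
        rw [h3, h2]
        ring
    rw [hKdef, Finset.mul_sum, Finset.sum_congr rfl h1, Finset.sum_sub_distrib,
      Finset.sum_ite_eq' S₀ ψ, if_pos hψ, ← Finset.mul_sum]
    ring
  have hD : 2 * (a : ℤ) * (d ψ : ℤ) ^ 2 < D := by
    have h1 : ((2 * d ψ * d χ : ℕ) : ℤ) < ((∑ ξ ∈ S₀, d ξ ^ 2 : ℕ) : ℤ) := by exact_mod_cast hlt
    rw [ha] at h1
    push_cast at h1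
    rw [hDdef]
    linarith
  have hdψ' : (0 : ℤ) < (d ψ : ℤ) := by exact_mod_cast hdψ
  have ha' : (1 : ℤ) ≤ (a : ℤ) := by exact_mod_cast hapos
  have hstar : u ^ 2 * D ≤ (d ψ : ℤ) ^ 2 * (1 + 2 * a * u) := by
    have h1 : (d ψ : ℤ) ^ 2 * K ≤ (d ψ : ℤ) ^ 2 * (1 + (a : ℤ) ^ 2) := by
      apply mul_le_mul_of_nonneg_left _ (by positivity)
      linarith
    rw [hKD] at h1
    linarith
  have hu01 : u = 0 ∨ u = 1 := by
    by_contra hcon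
    push Not at hcon
    obtain ⟨hu0, hu1⟩ := hcon
    have hu2 : 1 ≤ u ^ 2 - u := by
      rcases lt_or_gt_of_ne hu0 with h | h
      · nlinarith
      · have : 2 ≤ u := by omega
        nlinarith
    have h1 : u ^ 2 * (2 * (a : ℤ) * (d ψ : ℤ) ^ 2) < u ^ 2 * D := by
      apply mul_lt_mul_of_pos_left hD
      positivity
    have h2 : (d ψ : ℤ) ^ 2 * (2 * a * (u ^ 2 - u)) < (d ψ : ℤ) ^ 2 * 1 := by nlinarith
    have h3 : 2 * (a : ℤ) * (u ^ 2 - u) < 1 := lt_of_mul_lt_mul_left h2 (by positivity)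
    nlinarith
  have hF6 : ∀ ξ ∈ S₀, (d ψ : ℂ) * τ₁ ξ 1 = (d ξ : ℂ) * τ₁ ψ 1 := by
    intro ξ hξ
    have h1 := hτ1 _ (hsub (hγ ξ hξ))
    rw [hτγ ξ hξ] at h1
    have h2 : (d ψ : ℤ) • τ₁ ξ 1 + (-(d ξ : ℤ)) • τ₁ ψ 1 = 0 := h1
    rw [zsmul_eq_mul, zsmul_eq_mul] at h2
    push_cast at h2
    linear_combination h2
  have hF7 : τ₁ ψ 1 ≠ 0 := by
    have h1 := Cfsg.Agent.Helper25.irr_one_ne_zero
      (⟨ε • τ₁ ψ, hτ₁irr ψ (Finset.mem_coe.mpr hψ)⟩ : IrrCharacter G)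
    have h2 : ε * τ₁ ψ 1 ≠ 0 := h1
    exact right_ne_zero_of_mul h2
  rcases hu01 with hu | hu
  swap
  · -- u = 1 is impossible
    exfalso
    rw [hu] at hKD
    have h1 : (d ψ : ℤ) ^ 2 * (1 + (a : ℤ) ^ 2 - K) < (d ψ : ℤ) ^ 2 * 1 := by
      have : (d ψ : ℤ) ^ 2 * (1 + (a : ℤ) ^ 2 - K) = (d ψ : ℤ) ^ 2 * (1 + (a : ℤ) ^ 2) -
          (d ψ : ℤ) ^ 2 * K := by ring
      rw [this, hKD]
      nlinarith
    have h2 : 1 + (a : ℤ) ^ 2 - K < 1 := lt_of_mul_lt_mul_left h1 (by positivity)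
    have h3 : 1 + (a : ℤ) ^ 2 - K = 0 := by omega
    rw [h3] at hΔnorm'
    have hΔ0 : Δ = 0 := by
      rw [← Cfsg.Agent.Helper2.classInner_self_eq_zero_iff]
      rw [hΔnorm']
      simp
    have hτβ : τ β = ∑ i ∈ S₀, (m i) • τ₁ i := by
      have h4 : τ β - ∑ i ∈ S₀, (m i) • τ₁ i = 0 := hΔ0
      exact sub_eq_zero.mp h4
    have h5 : τ β 1 = 0 := hτ1 β hβ
    rw [hτβ, Finset.sum_apply] at h5
    have h6 : ∑ ξ ∈ S₀, ((d ψ : ℂ) * (m ξ : ℂ)) * ((d ψ : ℂ) * τ₁ ξ 1) = 0 := by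
      have h7 : ∑ ξ ∈ S₀, ((d ψ : ℂ) * (m ξ : ℂ)) * ((d ψ : ℂ) * τ₁ ξ 1) =
          (d ψ : ℂ) ^ 2 * ∑ ξ ∈ S₀, ((m ξ) • τ₁ ξ) 1 := by
        rw [Finset.mul_sum]
        apply Finset.sum_congr rfl
        intro ξ _
        rw [Pi.smul_apply, zsmul_eq_mul]
        ring
      rw [h7, h5, mul_zero]
    have h8 : ∀ ξ ∈ S₀, ((d ψ : ℂ) * (m ξ : ℂ)) * ((d ψ : ℂ) * τ₁ ξ 1) =
        τ₁ ψ 1 * ((d ξ : ℂ) ^ 2 - (if ξ = ψ then (a : ℂ) * (d ψ : ℂ) ^ 2 else 0)) := by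
      intro ξ hξ
      have h9 := hF5 ξ hξ
      rw [hu] at h9
      have h10 : ((d ψ : ℂ) * (m ξ : ℂ)) = (d ξ : ℂ) - (if ξ = ψ then (a : ℂ) * (d ψ : ℂ) else 0) := by
        have : (((d ψ : ℤ) * m ξ : ℤ) : ℂ) = (((d ξ : ℤ) * 1 -
            (if ξ = ψ then (a : ℤ) * d ψ else 0) : ℤ) : ℂ) := by rw [h9]
        push_cast at this
        rw [this]
        split_ifs <;> ring
      rw [h10, hF6 ξ hξ]
      by_cases hξψ : ξ = ψ
      · rw [if_pos hξψ, if_pos hξψ, hξψ]; ring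
      · rw [if_neg hξψ, if_neg hξψ]; ring
    rw [Finset.sum_congr rfl h8, ← Finset.mul_sum, Finset.sum_sub_distrib,
      Finset.sum_ite_eq' S₀ ψ, if_pos hψ] at h6
    rcases mul_eq_zero.mp h6 with h11 | h11
    · exact hF7 h11
    · have h12 : ((D - (a : ℤ) * (d ψ : ℤ) ^ 2 : ℤ) : ℂ) = 0 := by
        rw [hDdef]
        push_cast
        exact h11
      have h13 : D - (a : ℤ) * (d ψ : ℤ) ^ 2 = 0 := by exact_mod_cast h12
      nlinarith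
  -- u = 0
  have hm0 : ∀ ξ ∈ S₀, m ξ = if ξ = ψ then -(a : ℤ) else 0 := by
    intro ξ hξ
    have h1 := hF5 ξ hξ
    rw [hu, mul_zero, zero_sub] at h1
    by_cases hξψ : ξ = ψ
    · rw [if_pos hξψ] at h1 ⊢
      have h2 : (d ψ : ℤ) * m ξ = (d ψ : ℤ) * (-(a : ℤ)) := by rw [h1]; ring
      exact mul_left_cancel₀ hdψ'.ne' h2
    · rw [if_neg hξψ] at h1 ⊢
      have h2 : (d ψ : ℤ) * m ξ = (d ψ : ℤ) * 0 := by rw [h1]; ring
      exact mul_left_cancel₀ hdψ'.ne' h2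
  have hK : K = (a : ℤ) ^ 2 := by
    rw [hKdef, Finset.sum_eq_single ψ]
    · rw [hm0 ψ hψ, if_pos rfl]; ring
    · intro ξ hξ hne
      rw [hm0 ξ hξ, if_neg hne]; ring
    · intro h; exact absurd hψ h
  have hΔ1 : classInner Δ Δ = 1 := by
    rw [hΔnorm', hK]
    simp
  have hτβ : τ β = Δ + (-(a : ℤ)) • τ₁ ψ := by
    have h1 : ∑ i ∈ S₀, (m i) • τ₁ i = (-(a : ℤ)) • τ₁ ψ := by
      rw [Finset.sum_eq_single ψ]
      · rw [hm0 ψ hψ, if_pos rfl]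
      · intro ξ hξ hne
        rw [hm0 ξ hξ, if_neg hne, zero_smul]
      · intro h; exact absurd hψ h
    rw [← h1, hΔdef]
    abel
  -- the extension
  have hΔs : ∀ s ∈ zspan (↑S₀ : Set (L → ℂ)), classInner Δ (τ₁ s) = 0 := by
    intro s hs
    refine Submodule.span_induction (p := fun s _ => classInner Δ (τ₁ s) = 0) ?_ ?_ ?_ ?_ hs
    · intro ξ hξ
      exact hΔorth ξ (Finset.mem_coe.mp hξ)
    · rw [isLinIso_map_zero hτ₁]; exact Cfsg.Agent.Helper2.classInner_zero_right _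
    · intro x y hx hy h1 h2
      rw [hτ₁.1 x hx y hy, Cfsg.Agent.Helper2.classInner_add_right, h1, h2, add_zero]
    · intro c x hx h1
      rw [hτ₁.2.1 x hx c, zsmul_fun_eq, Cfsg.Agent.Helper2.classInner_smul_right, h1, mul_zero]
  have hsΔ : ∀ s ∈ zspan (↑S₀ : Set (L → ℂ)), classInner (τ₁ s) Δ = 0 := by
    intro s hs
    rw [Cfsg.Agent.Helper2.classInner_conj_symm, hΔs s hs, map_zero]
  have hSχ : ∀ s ∈ zspan (↑S₀ : Set (L → ℂ)), classInner s χ = 0 := by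
    intro s hs
    have h1 : ∀ ξ ∈ (↑S₀ : Set (L → ℂ)), ∀ η ∈ ({χ} : Set (L → ℂ)), classInner ξ η = 0 := by
      intro ξ hξ η hη
      rw [Set.mem_singleton_iff.mp hη]
      exact horth ξ (hSmem ξ (Finset.mem_coe.mp hξ)) χ hχmem (hneχ ξ (Finset.mem_coe.mp hξ))
    exact classInner_zspan_orth h1 s hs χ (Submodule.subset_span (Set.mem_singleton χ))
  have hχS' : ∀ s ∈ zspan (↑S₀ : Set (L → ℂ)), classInner χ s = 0 := by
    intro s hs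
    rw [Cfsg.Agent.Helper2.classInner_conj_symm, hSχ s hs, map_zero]
  set τ₂ : (L → ℂ) → (G → ℂ) := fun f => τ₁ (cohProj S₀ f) + classInner f χ • Δ with hτ₂def
  have hτ₂ : ∀ k : ℤ, ∀ s ∈ zspan (↑S₀ : Set (L → ℂ)), τ₂ (k • χ + s) = τ₁ s + k • Δ := by
    intro k s hs
    show τ₁ (cohProj S₀ (k • χ + s)) + classInner (k • χ + s) χ • Δ = τ₁ s + k • Δ
    have h1 : cohProj S₀ χ = 0 := by
      apply cohProj_of_orth
      intro ξ hξ
      exact horth χ hχmem ξ (hSmem ξ hξ) (fun h => hneχ ξ hξ h.symm)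
    have h2 : cohProj S₀ s = s := by
      apply cohProj_of_mem_zspan _ _ hs
      · intro ξ hξ ξ' hξ' hne
        exact horth ξ (hSmem ξ hξ) ξ' (hSmem ξ' hξ') hne
      · intro ξ hξ
        rw [hself ξ (hSmem ξ hξ)]
        exact one_ne_zero
    rw [cohProj_add, cohProj_zsmul, h1, h2, smul_zero, zero_add,
      Cfsg.Agent.Helper2.classInner_add_left, zsmul_fun_eq, Cfsg.Agent.Helper2.classInner_smul_left,
      hself χ hχmem, hSχ s hs, mul_one, add_zero, zsmul_fun_eq]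
  have hdecomp : ∀ f ∈ zspan (↑(insert χ S₀) : Set (L → ℂ)), ∃ k : ℤ,
      ∃ s ∈ zspan (↑S₀ : Set (L → ℂ)), f = k • χ + s := by
    intro f hf
    have hf' : f ∈ Submodule.span ℤ (↑(insert χ S₀) : Set (L → ℂ)) := hf
    rw [Finset.coe_insert, Submodule.mem_span_insert] at hf'
    obtain ⟨k, s, hs, rfl⟩ := hf'
    exact ⟨k, s, hs, rfl⟩
  refine ⟨⟨α₀, hsub hα₀, hα₀ne⟩, τ₂, ⟨?_, ?_, ?_, ?_⟩, ?_⟩
  · intro f hf g hg
    obtain ⟨k, s, hs, rfl⟩ := hdecomp f hf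
    obtain ⟨k', s', hs', rfl⟩ := hdecomp g hg
    have h1 : k • χ + s + (k' • χ + s') = (k + k') • χ + (s + s') := by
      rw [add_smul]; abel
    rw [h1, hτ₂ _ _ (Submodule.add_mem _ hs hs'), hτ₂ k s hs, hτ₂ k' s' hs', hτ₁.1 s hs s' hs',
      add_smul]
    abel
  · intro f hf n
    obtain ⟨k, s, hs, rfl⟩ := hdecomp f hf
    have h1 : n • (k • χ + s) = (n * k) • χ + n • s := by
      rw [smul_add, mul_smul]
    rw [h1, hτ₂ _ _ (Submodule.smul_mem _ _ hs), hτ₂ k s hs, hτ₁.2.1 s hs n, smul_add, mul_smul]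
  · intro f hf g hg
    obtain ⟨k, s, hs, rfl⟩ := hdecomp f hf
    obtain ⟨k', s', hs', rfl⟩ := hdecomp g hg
    rw [hτ₂ k s hs, hτ₂ k' s' hs']
    simp only [zsmul_fun_eq, Cfsg.Agent.Helper2.classInner_add_left,
      Cfsg.Agent.Helper2.classInner_add_right, Cfsg.Agent.Helper2.classInner_smul_left,
      Cfsg.Agent.Helper2.classInner_smul_right, map_intCast]
    rw [hsΔ s hs, hΔs s' hs', hΔ1, hτ₁.2.2.1 s hs s' hs', hself χ hχmem, hSχ s hs, hχS' s' hs']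
    ring
  · intro f hf
    obtain ⟨k, s, hs, rfl⟩ := hdecomp f hf
    rw [hτ₂ k s hs]
    exact Cfsg.Agent.Helper7.isGeneralizedCharacter_add (hτ₁.2.2.2 s hs)
      (Cfsg.Agent.Helper7.isGeneralizedCharacter_zsmul _ hΔgen)
  · intro θ hθ
    obtain ⟨k, s, hs, hks⟩ := hdecomp θ hθ.1
    have hθ1 : θ 1 = 0 := zspanOn_compl_one_apply hθ
    have hs'mem : (s + (k * a) • ψ) ∈ zspanOn (↑S₀ : Set (L → ℂ)) {1}ᶜ := by
      apply mem_zspanOn_compl_one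
      · exact Submodule.add_mem _ hs (Submodule.smul_mem _ _ (hmem0 ψ hψ))
      · have h1 : k • χ 1 + s 1 = 0 := by
          have : (k • χ + s) 1 = 0 := by rw [← hks]; exact hθ1
          exact this
        show s 1 + (k * a) • ψ 1 = 0
        rw [hd χ hχmem, ha, zsmul_eq_mul] at h1
        rw [hd ψ (hSmem ψ hψ), zsmul_eq_mul]
        push_cast at h1 ⊢
        linear_combination h1
    have hident : θ = k • β + (s + (k * a) • ψ) := by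
      rw [hks, hβdef]
      funext g
      simp only [Pi.add_apply, Pi.smul_apply]
      simp only [zsmul_eq_mul]
      push_cast
      ring
    have h1 : τ θ = k • τ β + τ₁ (s + (k * a) • ψ) := by
      rw [hident, hτ.1 _ (zspanOn_zsmul_mem k hβ) _ (hsub hs'mem), hτ.2.1 β hβ k,
        ← hagree _ hs'mem]
    rw [h1, hτ₁.1 s hs _ (Submodule.smul_mem _ _ (hmem0 ψ hψ)), hτ₁.2.1 ψ (hmem0 ψ hψ), hτβ, hks,
      hτ₂ k s hs]
    funext g
    simp only [Pi.add_apply, Pi.smul_apply]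
    simp only [zsmul_eq_mul]
    push_cast
    ring


/-- Iterated Feit extension: a coherent finite set `T₀` of irreducible characters may be enlarged
by all characters of `X` satisfying the numerical criterion relative to `T₀`. -/
theorem feit_extend_finset (S : Set (L → ℂ)) (hirr : ∀ ξ ∈ S, IsIrrCharacter L ξ)
    (τ : (L → ℂ) → (G → ℂ)) (hτ : IsLinearIsometryOn (zspanOn S {1}ᶜ) τ)
    (hτ1 : ∀ α ∈ zspanOn S {1}ᶜ, τ α 1 = 0)
    (T₀ X : Finset (L → ℂ)) (hT₀ : ↑T₀ ⊆ S) (hX : ↑X ⊆ S)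
    (hcoh : IsCoherent (↑T₀ : Set (L → ℂ)) {1}ᶜ τ)
    (hstep : ∀ χ ∈ X, χ ∉ T₀ → ∃ ψ ∈ T₀, charDegree ψ ∣ charDegree χ ∧
      2 * charDegree ψ * charDegree χ < ∑ ξ ∈ T₀, charDegree ξ ^ 2) :
    IsCoherent (↑(T₀ ∪ X) : Set (L → ℂ)) {1}ᶜ τ := by
  classical
  have key : ∀ m : ℕ, ∀ T : Finset (L → ℂ), T₀ ⊆ T → T ⊆ T₀ ∪ X →
      IsCoherent (↑T : Set (L → ℂ)) {1}ᶜ τ →
      ((T₀ ∪ X) \ T).card = m → IsCoherent (↑(T₀ ∪ X) : Set (L → ℂ)) {1}ᶜ τ := by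
    intro m
    induction m using Nat.strong_induction_on with
    | _ m ih =>
      intro T hT₀T hTU hTcoh hcard
      by_cases hempty : (T₀ ∪ X) \ T = ∅
      · have : T = T₀ ∪ X :=
          Finset.Subset.antisymm hTU (Finset.sdiff_eq_empty_iff_subset.mp hempty)
        rw [← this]
        exact hTcoh
      · obtain ⟨χ, hχ⟩ := Finset.nonempty_iff_ne_empty.mpr hempty
        rw [Finset.mem_sdiff] at hχ
        obtain ⟨hχU, hχT⟩ := hχ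
        have hχT₀ : χ ∉ T₀ := fun h => hχT (hT₀T h)
        have hχX : χ ∈ X := by
          rcases Finset.mem_union.mp hχU with h | h
          · exact absurd h hχT₀
          · exact h
        obtain ⟨ψ, hψ, hdvd, hineq⟩ := hstep χ hχX hχT₀
        have hTS : (↑T : Set (L → ℂ)) ⊆ S := by
          intro f hf
          rcases Finset.mem_union.mp (hTU (Finset.mem_coe.mp hf)) with h | h
          · exact hT₀ (Finset.mem_coe.mpr h)
          · exact hX (Finset.mem_coe.mpr h)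
        have hχS : χ ∈ S := hX (Finset.mem_coe.mpr hχX)
        have hinsS : (↑(insert χ T) : Set (L → ℂ)) ⊆ S := by
          intro f hf
          rcases Finset.mem_insert.mp (Finset.mem_coe.mp hf) with h | h
          · rw [h]; exact hχS
          · exact hTS (Finset.mem_coe.mpr h)
        have hsum : ∑ ξ ∈ T₀, charDegree ξ ^ 2 ≤ ∑ ξ ∈ T, charDegree ξ ^ 2 :=
          Finset.sum_le_sum_of_subset hT₀T
        have hnew := feit_extend T χ (fun ξ hξ => hirr ξ (hTS (Finset.mem_coe.mpr hξ)))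
          (hirr χ hχS) hχT (fun ξ => charDegree ξ)
          (fun ξ hξ => Cfsg.Agent.Helper25.irr_one_eq_degree
            (⟨ξ, hirr ξ (hinsS (Finset.mem_coe.mpr hξ))⟩ : IrrCharacter L))
          τ (isLinearIsometryOn_mono (zspanOn_mono hinsS _) hτ)
          (fun α hα => hτ1 α (zspanOn_mono hinsS _ hα)) hTcoh ψ (hT₀T hψ) hdvd
          (lt_of_lt_of_le hineq hsum)
        have h1 : T₀ ⊆ insert χ T := fun f hf => Finset.mem_insert_of_mem (hT₀T hf)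
        have h2 : insert χ T ⊆ T₀ ∪ X := by
          intro f hf
          rcases Finset.mem_insert.mp hf with rfl | hf
          · exact hχU
          · exact hTU hf
        have h5 : ((T₀ ∪ X) \ insert χ T).card < m := by
          rw [← hcard]
          apply Finset.card_lt_card
          have hsub : (T₀ ∪ X) \ insert χ T ⊆ (T₀ ∪ X) \ T := by
            intro f hf
            rw [Finset.mem_sdiff] at hf ⊢
            exact ⟨hf.1, fun h => hf.2 (Finset.mem_insert_of_mem h)⟩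
          rw [Finset.ssubset_iff_of_subset hsub]
          exact ⟨χ, Finset.mem_sdiff.mpr ⟨hχU, hχT⟩,
            fun h => (Finset.mem_sdiff.mp h).2 (Finset.mem_insert_self _ _)⟩
        exact ih _ h5 (insert χ T) h1 h2 hnew rfl
  exact key _ T₀ (Finset.Subset.refl _) Finset.subset_union_left hcoh rfl

/-- A finite set of at least two irreducible characters of the same degree is coherent. -/
theorem coherent_const_degree_irr (S₀ : Finset (L → ℂ)) (hirr : ∀ ξ ∈ S₀, IsIrrCharacter L ξ)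
    (htwo : ∃ χ ∈ S₀, ∃ ψ ∈ S₀, χ ≠ ψ) (hdeg : ∀ ξ ∈ S₀, ∀ ξ' ∈ S₀, ξ 1 = ξ' 1)
    (τ : (L → ℂ) → (G → ℂ)) (hτ : IsLinearIsometryOn (zspanOn (↑S₀ : Set (L → ℂ)) {1}ᶜ) τ)
    (hτ1 : ∀ α ∈ zspanOn (↑S₀ : Set (L → ℂ)) {1}ᶜ, τ α 1 = 0) :
    IsCoherent (↑S₀ : Set (L → ℂ)) {1}ᶜ τ := by
  classical
  obtain ⟨χ₀, hχ₀, ψ₀, hψ₀, hne₀⟩ := htwo
  obtain ⟨hτadd, hτsmul, hτiso, hτgen⟩ := hτ
  have hself : ∀ ξ ∈ S₀, classInner ξ ξ = 1 := by
    intro ξ hξ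
    rw [irr_inner_fun (hirr ξ hξ) (hirr ξ hξ), if_pos rfl]
  have horth : ∀ ξ ∈ S₀, ∀ ξ' ∈ S₀, ξ ≠ ξ' → classInner ξ ξ' = 0 := by
    intro ξ hξ ξ' hξ' hne
    rw [irr_inner_fun (hirr ξ hξ) (hirr ξ' hξ'), if_neg hne]
  have hmemS : ∀ χ ∈ S₀, χ ∈ zspan (↑S₀ : Set (L → ℂ)) :=
    fun χ hχ => Submodule.subset_span (Finset.mem_coe.mpr hχ)
  have hdiff : ∀ χ ∈ S₀, ∀ φ ∈ S₀, (χ - φ) ∈ zspanOn (↑S₀ : Set (L → ℂ)) {1}ᶜ := by
    intro χ hχ φ hφ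
    apply mem_zspanOn_compl_one (Submodule.sub_mem _ (hmemS χ hχ) (hmemS φ hφ))
    rw [Pi.sub_apply, hdeg χ hχ φ hφ, sub_self]
  have hτ0 : τ 0 = 0 := by
    have h1 := hτsmul _ (hdiff χ₀ hχ₀ χ₀ hχ₀) 0
    rwa [zero_smul, zero_smul] at h1
  have hτneg : ∀ α ∈ zspanOn (↑S₀ : Set (L → ℂ)) {1}ᶜ, τ (-α) = -τ α := by
    intro α hα
    have h1 := hτsmul α hα (-1)
    rwa [neg_one_zsmul, neg_one_zsmul] at h1
  have hinn : ∀ a ∈ S₀, ∀ b ∈ S₀, ∀ c ∈ S₀, ∀ e ∈ S₀, classInner (τ (a - b)) (τ (c - e)) =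
      classInner a c - classInner a e - classInner b c + classInner b e := by
    intro a ha b hb c hc e he
    rw [hτiso _ (hdiff a ha b hb) _ (hdiff c hc e he), Cfsg.Agent.Helper2.classInner_sub_left,
      Cfsg.Agent.Helper2.classInner_sub_right, Cfsg.Agent.Helper2.classInner_sub_right]
    ring
  have hd0 : χ₀ 1 ≠ 0 :=
    Cfsg.Agent.Helper25.irr_one_ne_zero (⟨χ₀, hirr χ₀ hχ₀⟩ : IrrCharacter L)
  -- decomposition of the images of the differences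
  have hdec : ∀ ξ ∈ S₀, ξ ≠ χ₀ → ∃ a b : G → ℂ, IsIrrCharacter G a ∧ IsIrrCharacter G b ∧
      a ≠ b ∧ τ (χ₀ - ξ) = a - b := by
    intro ξ hξ hne
    obtain ⟨ψ₁, ψ₂, h12, heq⟩ := virtual_norm_two (hτgen _ (hdiff χ₀ hχ₀ ξ hξ))
      (by
        rw [hinn χ₀ hχ₀ ξ hξ χ₀ hχ₀ ξ hξ, hself χ₀ hχ₀, hself ξ hξ,
          horth χ₀ hχ₀ ξ hξ (Ne.symm hne), horth ξ hξ χ₀ hχ₀ hne]
        ring)
      (hτ1 _ (hdiff χ₀ hχ₀ ξ hξ))
    exact ⟨ψ₁, ψ₂, ψ₁.2, ψ₂.2, fun h => h12 (Subtype.ext h), heq⟩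
  choose! a b hab using hdec
  have hpair : ∀ ξ ∈ S₀, ξ ≠ χ₀ → ∀ η ∈ S₀, η ≠ χ₀ → ξ ≠ η →
      ((a ξ = a η ∧ b ξ ≠ b η) ∨ (a ξ ≠ a η ∧ b ξ = b η)) ∧ a ξ ≠ b η ∧ b ξ ≠ a η := by
    intro ξ hξ hξne η hη hηne hne
    obtain ⟨ia, ib, iab, ieq⟩ := hab ξ hξ hξne
    obtain ⟨ja, jb, jab, jeq⟩ := hab η hη hηne
    have h1 : classInner (τ (χ₀ - ξ)) (τ (χ₀ - η)) = 1 := by
      rw [hinn χ₀ hχ₀ ξ hξ χ₀ hχ₀ η hη, hself χ₀ hχ₀, horth χ₀ hχ₀ η hη (Ne.symm hηne),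
        horth ξ hξ χ₀ hχ₀ hξne, horth ξ hξ η hη hne]
      ring
    rw [ieq, jeq, Cfsg.Agent.Helper2.classInner_sub_left, Cfsg.Agent.Helper2.classInner_sub_right,
      Cfsg.Agent.Helper2.classInner_sub_right, irr_inner_fun ia ja, irr_inner_fun ia jb,
      irr_inner_fun ib ja, irr_inner_fun ib jb] at h1
    by_cases e3 : a ξ = b η
    · exfalso
      have e1 : a ξ ≠ a η := fun h => jab (h.symm.trans e3)
      have e2 : b ξ ≠ b η := fun h => iab (e3.trans h.symm)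
      rw [if_neg e1, if_pos e3, if_neg e2] at h1
      by_cases e4 : b ξ = a η
      · rw [if_pos e4] at h1; norm_num at h1
      · rw [if_neg e4] at h1; norm_num at h1
    · by_cases e4 : b ξ = a η
      · exfalso
        have e1 : a ξ ≠ a η := fun h => iab (h.trans e4.symm)
        have e2 : b ξ ≠ b η := fun h => jab (e4.symm.trans h)
        rw [if_neg e1, if_neg e3, if_pos e4, if_neg e2] at h1
        norm_num at h1
      · refine ⟨?_, e3, e4⟩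
        rw [if_neg e3, if_neg e4] at h1
        by_cases e1 : a ξ = a η
        · by_cases e2 : b ξ = b η
          · rw [if_pos e1, if_pos e2] at h1; norm_num at h1
          · exact Or.inl ⟨e1, e2⟩
        · by_cases e2 : b ξ = b η
          · exact Or.inr ⟨e1, e2⟩
          · rw [if_neg e1, if_neg e2] at h1; norm_num at h1
  -- the general construction
  have key : ∀ (ε : ℤ) (u₀ : G → ℂ) (v : (L → ℂ) → (G → ℂ)), (ε = 1 ∨ ε = -1) →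
      IsIrrCharacter G u₀ → (∀ ξ ∈ S₀, ξ ≠ χ₀ → IsIrrCharacter G (v ξ)) →
      (∀ ξ ∈ S₀, ξ ≠ χ₀ → v ξ ≠ u₀) →
      (∀ ξ ∈ S₀, ξ ≠ χ₀ → ∀ η ∈ S₀, η ≠ χ₀ → ξ ≠ η → v ξ ≠ v η) →
      (∀ ξ ∈ S₀, ξ ≠ χ₀ → τ (ξ - χ₀) = ε • (v ξ - u₀)) →
      ∃ t : (L → ℂ) → (G → ℂ), (∀ ξ ∈ S₀, IsGeneralizedCharacter G (t ξ)) ∧
        (∀ ξ ∈ S₀, ∀ η ∈ S₀, classInner (t ξ) (t η) = classInner ξ η) ∧
        (∀ ξ ∈ S₀, τ (ξ - χ₀) = t ξ - t χ₀) := by
    intro ε u₀ v hε hu₀ hv hvu hvinj hτv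
    have hεε : (ε : ℂ) * (starRingEnd ℂ) (ε : ℂ) = 1 := by
      rcases hε with h | h <;> rw [h] <;> simp
    obtain ⟨w, hw⟩ : ∃ w : (L → ℂ) → (G → ℂ), w = fun ξ => if ξ = χ₀ then u₀ else v ξ :=
      ⟨_, rfl⟩
    have hw0 : w χ₀ = u₀ := by rw [hw]; simp
    have hw1 : ∀ ξ, ξ ≠ χ₀ → w ξ = v ξ := by
      intro ξ hξ
      rw [hw]
      simp [hξ]
    have hwirr : ∀ ξ ∈ S₀, IsIrrCharacter G (w ξ) := by
      intro ξ hξ
      by_cases h : ξ = χ₀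
      · rw [h, hw0]; exact hu₀
      · rw [hw1 ξ h]; exact hv ξ hξ h
    have hwinj : ∀ ξ ∈ S₀, ∀ η ∈ S₀, ξ ≠ η → w ξ ≠ w η := by
      intro ξ hξ η hη hne
      by_cases h : ξ = χ₀
      · have h' : η ≠ χ₀ := fun h' => hne (h.trans h'.symm)
        rw [h, hw0, hw1 η h']
        exact (hvu η hη h').symm
      · by_cases h' : η = χ₀
        · rw [h', hw0, hw1 ξ h]
          exact hvu ξ hξ h
        · rw [hw1 ξ h, hw1 η h']
          exact hvinj ξ hξ h η hη h' hne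
    refine ⟨fun ξ => ε • w ξ, ?_, ?_, ?_⟩
    · intro ξ hξ
      exact Cfsg.Agent.Helper7.isGeneralizedCharacter_zsmul _
        (Cfsg.Agent.Helper7.isGeneralizedCharacter_of_isCharacter
          (Cfsg.Agent.Helper2.isCharacter_of_isIrrCharacter (hwirr ξ hξ)))
    · intro ξ hξ η hη
      show classInner (ε • w ξ) (ε • w η) = classInner ξ η
      rw [zsmul_fun_eq, zsmul_fun_eq, Cfsg.Agent.Helper2.classInner_smul_left,
        Cfsg.Agent.Helper2.classInner_smul_right, irr_inner_fun (hwirr ξ hξ) (hwirr η hη)]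
      by_cases h : ξ = η
      · rw [if_pos (by rw [h]), h, hself η hη]
        linear_combination hεε
      · rw [if_neg (hwinj ξ hξ η hη h), horth ξ hξ η hη h]
        ring
    · intro ξ hξ
      show τ (ξ - χ₀) = ε • w ξ - ε • w χ₀
      by_cases h : ξ = χ₀
      · rw [h, sub_self, hτ0, sub_self]
      · rw [hτv ξ hξ h, hw0, hw1 ξ h, smul_sub]
  have hτflip : ∀ ξ ∈ S₀, τ (ξ - χ₀) = -τ (χ₀ - ξ) := by
    intro ξ hξ
    rw [← hτneg _ (hdiff χ₀ hχ₀ ξ hξ), neg_sub]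
  have hψ₀ne : ψ₀ ≠ χ₀ := Ne.symm hne₀
  have hex : ∃ t : (L → ℂ) → (G → ℂ), (∀ ξ ∈ S₀, IsGeneralizedCharacter G (t ξ)) ∧
      (∀ ξ ∈ S₀, ∀ η ∈ S₀, classInner (t ξ) (t η) = classInner ξ η) ∧
      (∀ ξ ∈ S₀, τ (ξ - χ₀) = t ξ - t χ₀) := by
    by_cases hall : ∀ η ∈ S₀, η ≠ χ₀ → a η = a ψ₀
    · apply key 1 (a ψ₀) b (Or.inl rfl) (hab ψ₀ hψ₀ hψ₀ne).1
      · intro ξ hξ h
        exact (hab ξ hξ h).2.1
      · intro ξ hξ h h'
        apply (hab ξ hξ h).2.2.1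
        rw [hall ξ hξ h, h']
      · intro ξ hξ h η hη h' hne
        rcases (hpair ξ hξ h η hη h' hne).1 with h1 | h1
        · exact h1.2
        · exact absurd ((hall ξ hξ h).trans (hall η hη h').symm) h1.1
      · intro ξ hξ h
        rw [hτflip ξ hξ, (hab ξ hξ h).2.2.2, hall ξ hξ h, one_smul]
        abel
    · push Not at hall
      obtain ⟨η₁, hη₁, hη₁ne, hη₁a⟩ := hall
      have hη₁ψ : η₁ ≠ ψ₀ := fun h => hη₁a (by rw [h])
      have hbη₁ : b η₁ = b ψ₀ := by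
        rcases (hpair η₁ hη₁ hη₁ne ψ₀ hψ₀ hψ₀ne hη₁ψ).1 with h1 | h1
        · exact absurd h1.1 hη₁a
        · exact h1.2
      have hball : ∀ ζ ∈ S₀, ζ ≠ χ₀ → b ζ = b ψ₀ := by
        intro ζ hζ hζne
        by_contra hcon
        have h1 : ζ ≠ ψ₀ := fun h => hcon (by rw [h])
        have h2 : ζ ≠ η₁ := fun h => hcon (by rw [h, hbη₁])
        have h3 : a ζ = a ψ₀ := by
          rcases (hpair ζ hζ hζne ψ₀ hψ₀ hψ₀ne h1).1 with h | h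
          · exact h.1
          · exact absurd h.2 hcon
        have h4 : a ζ = a η₁ := by
          rcases (hpair ζ hζ hζne η₁ hη₁ hη₁ne h2).1 with h | h
          · exact h.1
          · exact absurd (h.2.trans hbη₁) hcon
        exact hη₁a (h4.symm.trans h3)
      apply key (-1) (b ψ₀) a (Or.inr rfl) (hab ψ₀ hψ₀ hψ₀ne).2.1
      · intro ξ hξ h
        exact (hab ξ hξ h).1
      · intro ξ hξ h h'
        apply (hab ξ hξ h).2.2.1
        rw [hball ξ hξ h, h']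
      · intro ξ hξ h η hη h' hne
        rcases (hpair ξ hξ h η hη h' hne).1 with h1 | h1
        · exact absurd ((hball ξ hξ h).trans (hball η hη h').symm) h1.2
        · exact h1.1
      · intro ξ hξ h
        rw [hτflip ξ hξ, (hab ξ hξ h).2.2.2, hball ξ hξ h, neg_one_zsmul]
  obtain ⟨t, hT1, hT2, hT3⟩ := hex
  have hSfin : (↑S₀ : Set (L → ℂ)).Finite := S₀.finite_toSet
  obtain ⟨τ₁, hτ₁iso, hτ₁S, hτ₁add, hτ₁smul⟩ :=
    exists_isLinIso_extension hSfin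
      (fun χ hχ φ hφ hne => horth χ (Finset.mem_coe.mp hχ) φ (Finset.mem_coe.mp hφ) hne)
      (fun χ hχ => by rw [hself χ (Finset.mem_coe.mp hχ)]; exact one_ne_zero) t
      (fun χ hχ => hT1 χ (Finset.mem_coe.mp hχ))
      (fun χ hχ φ hφ => hT2 χ (Finset.mem_coe.mp hχ) φ (Finset.mem_coe.mp hφ))
  have hτ₁0 : τ₁ 0 = 0 := by
    have := hτ₁smul 0 0
    rwa [zero_smul, zero_smul] at this
  refine ⟨⟨χ₀ - ψ₀, hdiff χ₀ hχ₀ ψ₀ hψ₀, ?_⟩, τ₁, hτ₁iso, ?_⟩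
  · intro h
    exact hne₀ (sub_eq_zero.mp h)
  · have hclaim : ∀ f ∈ zspan (↑S₀ : Set (L → ℂ)), ∃ k : ℤ,
        (f + (-k) • χ₀) ∈ zspanOn (↑S₀ : Set (L → ℂ)) {1}ᶜ ∧
        τ₁ (f + (-k) • χ₀) = τ (f + (-k) • χ₀) := by
      intro f hf
      refine Submodule.span_induction (p := fun f _ => ∃ k : ℤ,
        (f + (-k) • χ₀) ∈ zspanOn (↑S₀ : Set (L → ℂ)) {1}ᶜ ∧
        τ₁ (f + (-k) • χ₀) = τ (f + (-k) • χ₀)) ?_ ?_ ?_ ?_ hf
      · intro χ hχ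
        have hχ' : χ ∈ S₀ := Finset.mem_coe.mp hχ
        have h1 : χ + (-(1 : ℤ)) • χ₀ = χ - χ₀ := by rw [neg_smul, one_smul, sub_eq_add_neg]
        refine ⟨1, ?_, ?_⟩
        · rw [h1]; exact hdiff χ hχ' χ₀ hχ₀
        · rw [hτ₁add, hτ₁smul, hτ₁S χ hχ, hτ₁S χ₀ (Finset.mem_coe.mpr hχ₀), h1, hT3 χ hχ',
            neg_smul, one_smul, sub_eq_add_neg]
      · refine ⟨0, ?_, ?_⟩
        · rw [neg_zero, zero_smul, add_zero]
          exact ⟨Submodule.zero_mem _, fun _ _ => rfl⟩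
        · rw [neg_zero, zero_smul, add_zero, hτ₁0, hτ0]
      · rintro x y _ _ ⟨k, hk1, hk2⟩ ⟨k', hk1', hk2'⟩
        have h1 : x + y + (-(k + k')) • χ₀ = (x + (-k) • χ₀) + (y + (-k') • χ₀) := by
          rw [neg_add, add_smul]; abel
        refine ⟨k + k', ?_, ?_⟩
        · rw [h1]; exact zspanOn_add_mem hk1 hk1'
        · rw [h1, hτ₁add, hk2, hk2', hτadd _ hk1 _ hk1']
      · rintro c x _ ⟨k, hk1, hk2⟩
        have h1 : c • x + (-(c * k)) • χ₀ = c • (x + (-k) • χ₀) := by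
          rw [smul_add, smul_smul, mul_neg]
        refine ⟨c * k, ?_, ?_⟩
        · rw [h1]; exact zspanOn_zsmul_mem c hk1
        · rw [h1, hτ₁smul, hk2, hτsmul _ hk1 c]
    intro θ hθ
    obtain ⟨k, hk1, hk2⟩ := hclaim θ hθ.1
    have h1 := zspanOn_compl_one_apply hk1
    have h2 := zspanOn_compl_one_apply hθ
    have h3 : θ 1 + (-k) • χ₀ 1 = 0 := h1
    rw [h2, zero_add, zsmul_eq_mul] at h3
    have hk0 : k = 0 := by
      rcases mul_eq_zero.mp h3 with h | h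
      · have h4 : -k = 0 := by exact_mod_cast h
        omega
      · exact absurd h hd0
    rw [hk0, neg_zero, zero_smul, add_zero] at hk2
    exact hk2

end FeitGen

end Cfsg.Agent.Helper11
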