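import Mathlib
import Cfsg.Agent.Helper11.Feit1
import Cfsg.Agent.Helper11.Coh8
import Cfsg.Agent.Helper25.CharArith

/-!
# Peterfalvi (6.6): coherence of the characters not trivial on a central subgroup (helper11)

* `indFun_const_on_normal`, `indFun_ne_one_of_ne`: values of induced functions on a normal
  subgroup.
* `sdiff_inducedIrrAbove_eq`: `S \ S(Z)` is the set of irreducible characters not trivial on `Z`.
* `exists_irr_nontrivial_on`.
* `sum_sq_lt_ge`: the arithmetic heart: the sum of the squares of the smaller degrees is at least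
  `2 c²`.
* `coherent_sdiff_pgroup`: coherence of `S \ S(Z)` when `K` is a `p`-group.
* `coherent_sdiff_central`: Peterfalvi (6.6).
-/

set_option autoImplicit false

namespace Cfsg.Agent.Helper11

open Cfsg
open scoped ComplexConjugate

universe u v

section IndVal

variable {L : Type u} [Group L] [Fintype L] (K : Subgroup L)

theorem indFun_const_on_normal [hK : K.Normal] (A : Subgroup L) [hA : A.Normal] (θ : K → ℂ)
    (h : ∀ a : K, (a : L) ∈ A → θ a = θ 1) (a : L) (haA : a ∈ A) (haK : a ∈ K) :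
    indFun K θ a = indFun K θ 1 := by
  rw [Cfsg.Agent.Helper2.indFun_apply, Cfsg.Agent.Helper2.indFun_apply]
  congr 1
  apply Finset.sum_congr rfl
  intro x _
  have h1 : x⁻¹ * a * x ∈ K := by
    have := hK.conj_mem a haK x⁻¹
    simpa using this
  have h2 : x⁻¹ * a * x ∈ A := by
    have := hA.conj_mem a haA x⁻¹
    simpa using this
  have h3 : x⁻¹ * 1 * x = ((1 : K) : L) := by simp
  rw [Cfsg.Agent.Helper2.extendByZero_of_mem K θ h1, h3, Cfsg.Agent.Helper2.extendByZero_coe]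
  exact h ⟨_, h1⟩ h2

theorem indFun_ne_one_of_ne [hK : K.Normal] {θ : K → ℂ} (hθ : IsCharacter K θ) (z : K)
    (hz : θ z ≠ θ 1) : indFun K θ (z : L) ≠ indFun K θ 1 := by
  classical
  intro heq
  rw [Cfsg.Agent.Helper2.indFun_apply, Cfsg.Agent.Helper2.indFun_apply] at heq
  have hcard : (Nat.card K : ℂ)⁻¹ ≠ 0 := inv_ne_zero (Nat.cast_ne_zero.mpr Nat.card_pos.ne')
  have heq' := mul_left_cancel₀ hcard heq
  have hmem : ∀ x : L, x⁻¹ * (z : L) * x ∈ K := fun x => by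
    have := hK.conj_mem (z : L) z.2 x⁻¹
    simpa using this
  have h1 : ∀ x : L, extendByZero K θ (x⁻¹ * (z : L) * x) = θ ⟨x⁻¹ * (z : L) * x, hmem x⟩ :=
    fun x => Cfsg.Agent.Helper2.extendByZero_of_mem K θ (hmem x)
  have h2 : ∀ x : L, extendByZero K θ (x⁻¹ * 1 * x) = θ 1 := by
    intro x
    have h3 : x⁻¹ * 1 * x = ((1 : K) : L) := by simp
    rw [h3, Cfsg.Agent.Helper2.extendByZero_coe]
  rw [Finset.sum_congr rfl (fun x _ => h1 x), Finset.sum_congr rfl (fun x _ => h2 x)] at heq'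
  have hre := congrArg Complex.re heq'
  rw [Complex.re_sum, Complex.re_sum] at hre
  have hnn : ∀ x ∈ (Finset.univ : Finset L),
      0 ≤ (θ 1).re - (θ ⟨x⁻¹ * (z : L) * x, hmem x⟩).re := by
    intro x _
    have h3 := char_norm_le_one hθ ⟨x⁻¹ * (z : L) * x, hmem x⟩
    have h4 := Complex.re_le_norm (θ ⟨x⁻¹ * (z : L) * x, hmem x⟩)
    linarith
  have hsum : ∑ x : L, ((θ 1).re - (θ ⟨x⁻¹ * (z : L) * x, hmem x⟩).re) = 0 := by
    rw [Finset.sum_sub_distrib, hre, sub_self]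
  have h4 := (Finset.sum_eq_zero_iff_of_nonneg hnn).mp hsum 1 (Finset.mem_univ _)
  have h5 : (⟨(1 : L)⁻¹ * (z : L) * 1, hmem 1⟩ : K) = z := Subtype.ext (by simp)
  rw [h5] at h4
  exact hz (char_eq_one_of_re hθ z (by linarith))

/-- `S \ S(Z)` is the set of irreducible characters of `L` not trivial on `Z`, provided its
members are irreducible. -/
theorem sdiff_inducedIrrAbove_eq [hK : K.Normal] (Z : Subgroup L) [hZ : Z.Normal] (hZK : Z ≤ K)
    (hirr : ∀ χ ∈ inducedIrrAbove K ⊥ \ inducedIrrAbove K Z, IsIrrCharacter L χ) :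
    inducedIrrAbove K ⊥ \ inducedIrrAbove K Z =
      {χ | IsIrrCharacter L χ ∧ ∃ z ∈ Z, χ z ≠ χ 1} := by
  classical
  let _instK : Fintype K := Fintype.ofFinite K
  have hconstZ : ∀ φ ∈ inducedIrrAbove K Z, ∀ z ∈ Z, φ z = φ 1 := by
    rintro φ ⟨θ, -, -, hker, rfl⟩ z hz
    exact indFun_const_on_normal K Z θ hker z hz (hZK hz)
  have hmem : ∀ θ : K → ℂ, IsIrrCharacter K θ → (∃ a : K, (a : L) ∈ Z ∧ θ a ≠ θ 1) →
      indFun K θ ∈ inducedIrrAbove K ⊥ \ inducedIrrAbove K Z ∧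
        ∃ z ∈ Z, indFun K θ z ≠ indFun K θ 1 := by
    rintro θ hθ ⟨a, haZ, hane⟩
    have hne1 : θ ≠ fun _ => 1 := by
      intro h
      apply hane
      rw [h]
    have h2 := indFun_ne_one_of_ne K (Cfsg.Agent.Helper2.isCharacter_of_isIrrCharacter hθ) a hane
    refine ⟨⟨⟨θ, hθ, hne1, fun b hb => ?_, rfl⟩, fun hcon => h2 (hconstZ _ hcon a haZ)⟩,
      a, haZ, h2⟩
    have h3 : b = 1 := Subtype.ext (Subgroup.mem_bot.mp hb)
    rw [h3]
  ext χ
  constructor
  · intro hχ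
    have hχirr := hirr χ hχ
    obtain ⟨⟨θ, hθ, hne1, -, rfl⟩, hnotZ⟩ := hχ
    refine ⟨hχirr, ?_⟩
    have hex : ∃ a : K, (a : L) ∈ Z ∧ θ a ≠ θ 1 := by
      by_contra hcon
      push Not at hcon
      exact hnotZ ⟨θ, hθ, hne1, hcon, rfl⟩
    exact (hmem θ hθ hex).2
  · rintro ⟨hχ, z, hz, hzne⟩
    have hχc : IsCharacter L χ := Cfsg.Agent.Helper2.isCharacter_of_isIrrCharacter hχ
    have hχcl : IsClassFunction L χ := Cfsg.Agent.Helper25.char_isClassFunction hχc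
    obtain ⟨ψ, hψdef⟩ : ∃ ψ : K → ℂ, ψ = fun k : K => χ k := ⟨_, rfl⟩
    have hψc : IsCharacter K ψ := by
      rw [hψdef]
      exact Cfsg.Agent.Helper2.isCharacter_restrict K hχc
    have hψcl : IsClassFunction K ψ := Cfsg.Agent.Helper25.char_isClassFunction hψc
    have hsum := Cfsg.Agent.Helper2.classFun_eq_sum_classInner hψcl
    have hex : ∃ θ : IrrCharacter K, classInner ψ (θ : K → ℂ) ≠ 0 ∧
        ∃ a : K, (a : L) ∈ Z ∧ (θ : K → ℂ) a ≠ (θ : K → ℂ) 1 := by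
      by_contra hcon
      push Not at hcon
      apply hzne
      have e1 := congrFun hsum ⟨z, hZK hz⟩
      have e2 := congrFun hsum 1
      simp only [Finset.sum_apply, Pi.smul_apply, smul_eq_mul] at e1 e2
      have e3 : ψ ⟨z, hZK hz⟩ = ψ 1 := by
        rw [e1, e2]
        apply Finset.sum_congr rfl
        intro θ _
        by_cases h0 : classInner ψ (θ : K → ℂ) = 0
        · rw [h0, zero_mul, zero_mul]
        · rw [hcon θ h0 ⟨z, hZK hz⟩ hz]
      rw [hψdef] at e3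
      exact e3
    obtain ⟨θ, hθne, hθZ⟩ := hex
    obtain ⟨hmemθ, -⟩ := hmem θ θ.2 hθZ
    have hirrθ := hirr _ hmemθ
    have hfr := Cfsg.Agent.Helper2.frobenius_reciprocity K (θ : K → ℂ) χ hχcl
    have hne : classInner (indFun K (θ : K → ℂ)) χ ≠ 0 := by
      rw [hfr]
      intro h0
      apply hθne
      rw [Cfsg.Agent.Helper2.classInner_conj_symm, hψdef, h0, map_zero]
    have heq : indFun K (θ : K → ℂ) = χ := by
      by_contra hne'
      apply hne
      rw [irr_inner_fun hirrθ hχ, if_neg hne']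
    rw [← heq]
    exact hmemθ

theorem exists_irr_nontrivial_on (Z : Subgroup L) (hZ1 : Z ≠ ⊥) (hZK : Z ≤ K) :
    ∃ θ : IrrCharacter K, ∃ a : K, (a : L) ∈ Z ∧ (θ : K → ℂ) a ≠ (θ : K → ℂ) 1 := by
  classical
  let _instK : Fintype K := Fintype.ofFinite K
  obtain ⟨z, hz, hz1⟩ : ∃ z ∈ Z, z ≠ 1 := by
    by_contra hcon
    push Not at hcon
    exact hZ1 ((Subgroup.eq_bot_iff_forall Z).mpr hcon)
  by_contra hcon
  push Not at hcon
  have h1 := sum_irr_le_ker (⊥ : Subgroup K) (⟨z, hZK hz⟩ : K)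
  have h2 := sum_irr_le_ker (⊥ : Subgroup K) (1 : K)
  have hne : (⟨z, hZK hz⟩ : K) ∉ (⊥ : Subgroup K) := by
    rw [Subgroup.mem_bot]
    intro h
    exact hz1 (congrArg Subtype.val h)
  rw [if_neg hne] at h1
  rw [if_pos (Subgroup.one_mem _)] at h2
  have h3 : ∑ θ : IrrCharacter K,
      (if (⊥ : Subgroup K) ≤ Cfsg.Agent.Helper25.irrKer θ then
        (θ : K → ℂ) 1 * (θ : K → ℂ) ⟨z, hZK hz⟩ else 0) =
      ∑ θ : IrrCharacter K,
      (if (⊥ : Subgroup K) ≤ Cfsg.Agent.Helper25.irrKer θ then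
        (θ : K → ℂ) 1 * (θ : K → ℂ) 1 else 0) := by
    apply Finset.sum_congr rfl
    intro θ _
    rw [hcon θ ⟨z, hZK hz⟩ hz]
  rw [h1, h2] at h3
  have h4 : ((⊥ : Subgroup K).index : ℂ) ≠ 0 :=
    Nat.cast_ne_zero.mpr Subgroup.index_ne_zero_of_finite
  exact h4 h3.symm

end IndVal

/-- The arithmetic heart of (6.6). -/
theorem sum_sq_lt_ge {ι : Type*} [DecidableEq ι] (F : Finset ι) (d : ι → ℕ) (σ : ι → ι)
    (e p q r c a : ℕ) (hp : p.Prime) (hp_odd : Odd p) (he_odd : Odd e) (hcop : Nat.Coprime e p)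
    (hdeg : ∀ φ ∈ F, ∃ b, d φ = e * p ^ b)
    (hW : ∑ φ ∈ F, d φ ^ 2 = e * (q * r)) (hc : c = e * p ^ a) (hq : p ^ (2 * a) ∣ q)
    (hσ : ∀ φ ∈ F, σ φ ∈ F) (hσσ : ∀ φ ∈ F, σ (σ φ) = φ) (hσne : ∀ φ ∈ F, σ φ ≠ φ)
    (hσd : ∀ φ ∈ F, d (σ φ) = d φ) (hne : (F.filter (fun φ => d φ < c)).Nonempty) :
    2 * c ^ 2 ≤ ∑ φ ∈ F.filter (fun φ => d φ < c), d φ ^ 2 := by
  have he_pos : 0 < e := he_odd.pos
  have hpos : ∀ φ ∈ F, 0 < d φ := by
    intro φ hφ
    obtain ⟨b, hb⟩ := hdeg φ hφ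
    rw [hb]
    exact Nat.mul_pos he_pos (pow_pos hp.pos b)
  have hsplit := Finset.sum_filter_add_sum_filter_not F (fun φ => d φ < c) (fun φ => d φ ^ 2)
  have hge : c ^ 2 ∣ ∑ φ ∈ F.filter (fun φ => ¬ d φ < c), d φ ^ 2 := by
    apply Finset.dvd_sum
    intro φ hφ
    rw [Finset.mem_filter] at hφ
    obtain ⟨hφF, hφc⟩ := hφ
    obtain ⟨b, hb⟩ := hdeg φ hφF
    have h1 : e * p ^ a ≤ e * p ^ b := by
      rw [← hc, ← hb]
      omega
    have h2 : p ^ a ≤ p ^ b := Nat.le_of_mul_le_mul_left h1 he_pos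
    have h3 : a ≤ b := (Nat.pow_le_pow_iff_right hp.one_lt).mp h2
    apply pow_dvd_pow_of_dvd
    rw [hb, hc]
    exact Nat.mul_dvd_mul_left e (pow_dvd_pow p h3)
  have hall : c ^ 2 ∣ ∑ φ ∈ F, d φ ^ 2 := by
    have h1 : e ^ 2 ∣ ∑ φ ∈ F, d φ ^ 2 := by
      apply Finset.dvd_sum
      intro φ hφ
      obtain ⟨b, hb⟩ := hdeg φ hφ
      apply pow_dvd_pow_of_dvd
      rw [hb]
      exact dvd_mul_right _ _
    have h2 : p ^ (2 * a) ∣ ∑ φ ∈ F, d φ ^ 2 := by
      rw [hW]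
      exact dvd_trans hq (dvd_trans (dvd_mul_right q r) (dvd_mul_left _ e))
    have h3 : Nat.Coprime (e ^ 2) (p ^ (2 * a)) := Nat.Coprime.pow _ _ hcop
    have h4 : c ^ 2 = e ^ 2 * p ^ (2 * a) := by
      rw [hc, mul_pow, ← pow_mul, mul_comm a 2]
    rw [h4]
    exact Nat.Coprime.mul_dvd_of_dvd_of_dvd h3 h1 h2
  have hlt : c ^ 2 ∣ ∑ φ ∈ F.filter (fun φ => d φ < c), d φ ^ 2 := by
    rw [← hsplit] at hall
    exact (Nat.dvd_add_left hge).mp hall
  have h2 : 2 ∣ ∑ φ ∈ F.filter (fun φ => d φ < c), d φ ^ 2 := by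
    have h1 : ∑ φ ∈ F.filter (fun φ => d φ < c), ((d φ ^ 2 : ℕ) : ZMod 2) = 0 := by
      apply Finset.sum_involution (fun φ _ => σ φ)
      · intro φ hφ
        rw [hσd φ (Finset.mem_filter.mp hφ).1]
        exact CharTwo.add_self_eq_zero _
      · intro φ hφ _
        exact hσne φ (Finset.mem_filter.mp hφ).1
      · intro φ hφ
        rw [Finset.mem_filter] at hφ ⊢
        exact ⟨hσ φ hφ.1, by rw [hσd φ hφ.1]; exact hφ.2⟩
      · intro φ hφ
        exact hσσ φ (Finset.mem_filter.mp hφ).1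
    rw [← Nat.cast_sum] at h1
    exact (ZMod.natCast_eq_zero_iff _ 2).mp h1
  have hc_odd : Odd (c ^ 2) := by
    rw [hc]
    exact (he_odd.mul (hp_odd.pow)).pow
  have hcop2 : Nat.Coprime 2 (c ^ 2) := Nat.coprime_two_left.mpr hc_odd
  have hdvd : 2 * c ^ 2 ∣ ∑ φ ∈ F.filter (fun φ => d φ < c), d φ ^ 2 :=
    Nat.Coprime.mul_dvd_of_dvd_of_dvd hcop2 h2 hlt
  apply Nat.le_of_dvd _ hdvd
  obtain ⟨φ₀, hφ₀⟩ := hne
  have h5 : 0 < d φ₀ ^ 2 := pow_pos (hpos φ₀ (Finset.mem_filter.mp hφ₀).1) 2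
  have h6 : d φ₀ ^ 2 ≤ ∑ φ ∈ F.filter (fun φ => d φ < c), d φ ^ 2 :=
    Finset.single_le_sum (f := fun φ => d φ ^ 2) (fun _ _ => Nat.zero_le _) hφ₀
  omega

section PF66

variable {L : Type u} [Group L] [Fintype L] {G : Type v} [Group G] [Fintype G]

omit [Fintype L] in
theorem charDegree_conjFun (φ : L → ℂ) : charDegree (conjFun φ) = charDegree φ := by
  unfold charDegree conjFun
  simp

theorem indFun_mem_sdiff (K : Subgroup L) [hK : K.Normal] (Z : Subgroup L) [hZ : Z.Normal]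
    (hZK : Z ≤ K) (θ : K → ℂ) (hθ : IsIrrCharacter K θ)
    (h : ∃ a : K, (a : L) ∈ Z ∧ θ a ≠ θ 1) :
    indFun K θ ∈ inducedIrrAbove K ⊥ \ inducedIrrAbove K Z ∧
      ∃ z ∈ Z, indFun K θ z ≠ indFun K θ 1 := by
  have hconstZ : ∀ φ ∈ inducedIrrAbove K Z, ∀ z ∈ Z, φ z = φ 1 := by
    rintro φ ⟨θ, -, -, hker, rfl⟩ z hz
    exact indFun_const_on_normal K Z θ hker z hz (hZK hz)
  obtain ⟨a, haZ, hane⟩ := h
  have hne1 : θ ≠ fun _ => 1 := by
    intro h
    apply hane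
    rw [h]
  have h2 := indFun_ne_one_of_ne K (Cfsg.Agent.Helper2.isCharacter_of_isIrrCharacter hθ) a hane
  refine ⟨⟨⟨θ, hθ, hne1, fun b hb => ?_, rfl⟩, fun hcon => h2 (hconstZ _ hcon a haZ)⟩,
    a, haZ, h2⟩
  have h3 : b = 1 := Subtype.ext (Subgroup.mem_bot.mp hb)
  rw [h3]

/-- Coherence of `S \ S(Z)` for a `p`-group `K` and `Z ≤ Z(K)`. -/
theorem coherent_sdiff_pgroup (K : Subgroup L) [hK : K.Normal] (τ : (L → ℂ) → (G → ℂ))
    (R : (L → ℂ) → Finset (G → ℂ)) (hS : IsCoherenceSystem (inducedIrrAbove K ⊥) τ R)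
    (hodd : Odd (Nat.card L)) (hH₁K : ⁅K, K⁆ < K)
    (hfrob : ∀ k ∈ K, k ∉ ⁅K, K⁆ → ∀ x : L, x * k * x⁻¹ * k⁻¹ ∈ ⁅K, K⁆ → x ∈ K)
    (Z : Subgroup L) [hZ : Z.Normal] (hZ1 : Z ≠ ⊥) (hZK : Z ≤ K)
    (hZc : ∀ z ∈ Z, ∀ k ∈ K, z * k = k * z)
    (hirr : ∀ χ ∈ inducedIrrAbove K ⊥ \ inducedIrrAbove K Z, IsIrrCharacter L χ)
    (p m : ℕ) (hp : p.Prime) (hKp : Nat.card K = p ^ m) :
    IsCoherent (inducedIrrAbove K ⊥ \ inducedIrrAbove K Z) {1}ᶜ τ := by
  classical
  let _instK : Fintype K := Fintype.ofFinite K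
  obtain ⟨S, hSdef⟩ : ∃ S : Set (L → ℂ), S = inducedIrrAbove K ⊥ := ⟨_, rfl⟩
  obtain ⟨S₀, hS₀def⟩ : ∃ S₀ : Set (L → ℂ),
      S₀ = inducedIrrAbove K ⊥ \ inducedIrrAbove K Z := ⟨_, rfl⟩
  obtain ⟨F, hFdef⟩ : ∃ F : Finset (L → ℂ), F = indAbove K ⊥ \ indAbove K Z := ⟨_, rfl⟩
  have hFcoe : (↑F : Set (L → ℂ)) = S₀ := by
    rw [hFdef, hS₀def, Finset.coe_sdiff, coe_indAbove, coe_indAbove]
  have hFmem : ∀ φ, φ ∈ F ↔ φ ∈ S₀ := fun φ => by rw [← hFcoe, Finset.mem_coe]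
  have hFne : F.Nonempty := by
    obtain ⟨θ, hθZ⟩ := exists_irr_nontrivial_on K Z hZ1 hZK
    obtain ⟨hmem, -⟩ := indFun_mem_sdiff K Z hZK θ θ.2 hθZ
    exact ⟨_, (hFmem _).mpr (hS₀def ▸ hmem)⟩
  rw [← hS₀def] at hirr ⊢
  rw [← hSdef] at hS
  have hS₀S : S₀ ⊆ S := by
    rw [hS₀def, hSdef]
    exact Set.sdiff_subset
  have hFS : ∀ φ ∈ F, φ ∈ S := fun φ hφ => hS₀S ((hFmem φ).mp hφ)
  have hFirr : ∀ φ ∈ F, IsIrrCharacter L φ := fun φ hφ => hirr φ ((hFmem φ).mp hφ)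
  obtain ⟨e, he⟩ : ∃ e, e = K.index := ⟨_, rfl⟩
  have he_pos : 0 < e := by
    rw [he]
    exact Nat.pos_of_ne_zero Subgroup.index_ne_zero_of_finite
  have he_odd : Odd e := by
    rw [he]
    exact Odd.of_dvd_nat hodd (Subgroup.index_dvd_card K)
  have hKne : K ≠ ⊥ := by
    intro h
    apply hZ1
    rw [h] at hZK
    exact le_bot_iff.mp hZK
  have hm : m ≠ 0 := by
    intro h0
    rw [h0, pow_zero] at hKp
    exact hKne (Subgroup.card_eq_one.mp hKp)
  have hp_odd : Odd p := by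
    have h1 : p ∣ Nat.card K := by
      rw [hKp]
      exact dvd_pow_self p hm
    exact Odd.of_dvd_nat hodd (dvd_trans h1 (Subgroup.card_subgroup_dvd_card K))
  have hcop : Nat.Coprime e p := by
    have h1 := frob_count K ⁅K, K⁆ K (Subgroup.commutator_le_self K) le_rfl le_rfl hfrob
    have h2 : ⁅K, K⁆.relIndex K ∣ p ^ m := by
      rw [← hKp]
      exact Subgroup.relIndex_dvd_card _ _
    obtain ⟨j, -, hj⟩ := (Nat.dvd_prime_pow hp).mp h2
    have hj0 : j ≠ 0 := by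
      intro h0
      rw [h0, pow_zero] at hj
      exact (not_le_of_gt hH₁K) (Subgroup.relIndex_eq_one.mp hj)
    rw [hj, ← he] at h1
    apply Nat.Coprime.symm
    rw [Nat.Prime.coprime_iff_not_dvd hp]
    intro hpe
    have h3 : p ∣ p ^ j - 1 := dvd_trans hpe h1
    have h4 : p ∣ p ^ j := dvd_pow_self p hj0
    have h6 : p ^ j - 1 + 1 = p ^ j := Nat.sub_add_cancel (Nat.one_le_pow _ _ hp.pos)
    have h5 : p ∣ 1 := by
      rw [← h6] at h4
      exact (Nat.dvd_add_right h3).mp h4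
    exact hp.one_lt.ne' (Nat.dvd_one.mp h5)
  obtain ⟨q, hq⟩ : ∃ q, q = Z.relIndex K := ⟨_, rfl⟩
  have hcardZ : Nat.card Z * q = Nat.card K := by
    have := (Z.subgroupOf K).card_mul_index
    rw [Nat.card_congr (Subgroup.subgroupOfEquivOfLe hZK).toEquiv] at this
    rw [hq]
    exact this
  have hqdvd : q ∣ p ^ m := by
    rw [hq, ← hKp]
    exact Subgroup.relIndex_dvd_card _ _
  obtain ⟨mq, -, hmq⟩ := (Nat.dvd_prime_pow hp).mp hqdvd
  have hZpos : 0 < Nat.card Z := Nat.card_pos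
  have hqpos : 0 < q := by
    rw [hq]
    exact relIndex_pos_of_finite Z K
  have hdeg : ∀ φ ∈ F, ∃ b, charDegree φ = e * p ^ b ∧ p ^ (2 * b) ∣ q := by
    intro φ hφ
    have hφS := hFS φ hφ
    have hφirr := hFirr φ hφ
    rw [hSdef] at hφS
    obtain ⟨θ, hθ, rfl⟩ := (mem_inducedIrrAbove_iff K ⊥ φ).mp hφS
    have h1 : charDegree (θ : K → ℂ) ∣ p ^ m := by
      rw [← hKp]
      exact Cfsg.Agent.Helper25.irr_degree_dvd_card θ
    obtain ⟨b, -, hb⟩ := (Nat.dvd_prime_pow hp).mp h1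
    refine ⟨b, ?_, ?_⟩
    · have h2 := Cfsg.Agent.Helper25.irr_one_eq_degree
        (⟨indFun K (θ : K → ℂ), hφirr⟩ : IrrCharacter L)
      have h3 : indFun K (θ : K → ℂ) 1 = (charDegree (indFun K (θ : K → ℂ)) : ℂ) := h2
      rw [Cfsg.Agent.Helper2.indFun_one_apply, Cfsg.Agent.Helper25.irr_one_eq_degree, hb, ← he]
        at h3
      exact_mod_cast h3.symm
    · have hbound := irr_degree_bound θ (Z.subgroupOf K) (⊤ : Subgroup K) le_top
        (by
          intro x hx y _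
          have h4 : y * x * y⁻¹ * x⁻¹ = 1 := by
            have h5 := hZc (x : L) (Subgroup.mem_subgroupOf.mp hx) (y : L) y.2
            have h6 : x * y = y * x := Subtype.ext h5
            rw [← h6]
            group
          rw [h4])
      rw [Nat.card_congr (Subgroup.subgroupOfEquivOfLe hZK).toEquiv, Subgroup.card_top, hb,
        ← hcardZ] at hbound
      have h7 : (p ^ b) ^ 2 ≤ q := by
        have h8 : (p ^ b) ^ 2 * (Nat.card Z * (Nat.card Z * q)) ≤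
            q * (Nat.card Z * (Nat.card Z * q)) := by
          calc (p ^ b) ^ 2 * (Nat.card Z * (Nat.card Z * q))
              = (p ^ b) ^ 2 * Nat.card Z * (Nat.card Z * q) := by ring
            _ ≤ (Nat.card Z * q) ^ 2 := hbound
            _ = q * (Nat.card Z * (Nat.card Z * q)) := by ring
        exact Nat.le_of_mul_le_mul_right h8 (Nat.mul_pos hZpos (Nat.mul_pos hZpos hqpos))
      rw [hmq, ← pow_mul] at h7
      have h9 : b * 2 ≤ mq := (Nat.pow_le_pow_iff_right hp.one_lt).mp h7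
      rw [hmq, mul_comm 2 b]
      exact pow_dvd_pow p h9
  have hW : ∑ φ ∈ F, charDegree φ ^ 2 = e * (q * (Nat.card Z - 1)) := by
    have horth : ∀ A : Subgroup L, ∀ φ ∈ inducedIrrAbove K A, ∀ ψ ∈ inducedIrrAbove K A,
        φ ≠ ψ → classInner φ ψ = 0 := by
      intro A φ hφ ψ hψ hne
      apply hS.orthogonal φ _ ψ _ hne
      · rw [hSdef]
        exact inducedIrrAbove_mono K bot_le hφ
      · rw [hSdef]
        exact inducedIrrAbove_mono K bot_le hψ
    have h1 := sum_sq_div_indAbove K ⊥ (horth ⊥)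
    have h2 := sum_sq_div_indAbove K Z (horth Z)
    have hsub : indAbove K Z ⊆ indAbove K ⊥ := by
      intro φ hφ
      exact (mem_indAbove K ⊥ φ).mpr (inducedIrrAbove_mono K bot_le ((mem_indAbove K Z φ).mp hφ))
    have h3 := Finset.sum_sdiff hsub (f := fun φ : L → ℂ => φ 1 ^ 2 / classInner φ φ)
    rw [← hFdef, h1, h2, Subgroup.relIndex_bot_left, ← hq, ← he, ← hcardZ] at h3
    have h4 : ∑ φ ∈ F, φ 1 ^ 2 / classInner φ φ = ((∑ φ ∈ F, charDegree φ ^ 2 : ℕ) : ℂ) := by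
      rw [Nat.cast_sum]
      apply Finset.sum_congr rfl
      intro φ hφ
      have h5 := hFirr φ hφ
      have h6 : φ 1 = (charDegree φ : ℂ) :=
        Cfsg.Agent.Helper25.irr_one_eq_degree (⟨φ, h5⟩ : IrrCharacter L)
      rw [irr_inner_fun h5 h5, if_pos rfl, div_one, h6]
      push_cast
      rfl
    rw [h4] at h3
    have h5 : ((∑ φ ∈ F, charDegree φ ^ 2 : ℕ) : ℂ) =
        ((e * (q * (Nat.card Z - 1)) : ℕ) : ℂ) := by
      rw [Nat.cast_mul, Nat.cast_mul, Nat.cast_sub hZpos]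
      push_cast at h3 ⊢
      linear_combination h3
    exact_mod_cast h5
  have hconjF : ∀ φ ∈ F, conjFun φ ∈ F := by
    intro φ hφ
    rw [hFmem] at hφ ⊢
    rw [hS₀def] at hφ ⊢
    refine ⟨conj_mem_inducedIrrAbove K ⊥ hφ.1, fun h => hφ.2 ?_⟩
    have := conj_mem_inducedIrrAbove K Z h
    rwa [conjFun_conjFun] at this
  have hconj_ne : ∀ φ ∈ F, conjFun φ ≠ φ := fun φ hφ => hS.conj_ne φ (hFS φ hφ)
  have hd : ∀ φ ∈ S, φ 1 = ((charDegree φ : ℕ) : ℂ) := fun φ hφ =>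
    Cfsg.Agent.Helper25.char_one_eq_degree (hS.isCharacter φ hφ)
  have hnex : ∀ φ : L → ℂ, ∃ k : ℕ, φ ∈ S → classInner φ φ = (k : ℂ) := by
    intro φ
    by_cases hφ : φ ∈ S
    · obtain ⟨k, hk⟩ := Cfsg.Agent.Helper2.classInner_char_nat (hS.isCharacter φ hφ)
        (hS.isCharacter φ hφ)
      exact ⟨k, fun _ => hk⟩
    · exact ⟨0, fun h => absurd h hφ⟩
  choose n hn using hnex
  have hnF : ∀ φ ∈ F, n φ = 1 := by
    intro φ hφ
    have h1 := hn φ (hFS φ hφ)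
    have h2 := hFirr φ hφ
    rw [irr_inner_fun h2 h2, if_pos rfl] at h1
    exact_mod_cast h1.symm
  have hdpos : ∀ φ ∈ F, 0 < charDegree φ := by
    intro φ hφ
    obtain ⟨b, hb, -⟩ := hdeg φ hφ
    rw [hb]
    exact Nat.mul_pos he_pos (pow_pos hp.pos b)
  have key : ∀ c : ℕ, (F.filter (fun φ => charDegree φ ≤ c)).Nonempty →
      IsCoherent (↑(F.filter (fun φ => charDegree φ ≤ c)) : Set (L → ℂ)) {1}ᶜ τ := by
    intro c
    induction c with
    | zero =>
      rintro ⟨φ, hφ⟩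
      rw [Finset.mem_filter] at hφ
      have := hdpos φ hφ.1
      omega
    | succ c ih =>
      intro hne
      obtain ⟨X, hXdef⟩ : ∃ X : Finset (L → ℂ),
          X = F.filter (fun φ => charDegree φ = c + 1) := ⟨_, rfl⟩
      obtain ⟨T₀, hT₀def⟩ : ∃ T₀ : Finset (L → ℂ),
          T₀ = F.filter (fun φ => charDegree φ ≤ c) := ⟨_, rfl⟩
      have hunion : F.filter (fun φ => charDegree φ ≤ c + 1) = T₀ ∪ X := by
        ext φ
        rw [hT₀def, hXdef, Finset.mem_union, Finset.mem_filter, Finset.mem_filter,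
          Finset.mem_filter]
        constructor
        · rintro ⟨h1, h2⟩
          rcases Nat.lt_or_ge (charDegree φ) (c + 1) with h | h
          · exact Or.inl ⟨h1, by omega⟩
          · exact Or.inr ⟨h1, by omega⟩
        · rintro (⟨h1, h2⟩ | ⟨h1, h2⟩)
          · exact ⟨h1, by omega⟩
          · exact ⟨h1, by omega⟩
      have hXF : X ⊆ F := by
        rw [hXdef]
        exact Finset.filter_subset _ _
      have hT₀F : T₀ ⊆ F := by
        rw [hT₀def]
        exact Finset.filter_subset _ _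
      have hXS : (↑X : Set (L → ℂ)) ⊆ S := fun φ hφ => hFS φ (hXF (Finset.mem_coe.mp hφ))
      have hT₀S : (↑T₀ : Set (L → ℂ)) ⊆ S := fun φ hφ => hFS φ (hT₀F (Finset.mem_coe.mp hφ))
      have hXc : ∀ φ ∈ X, conjFun φ ∈ X := by
        intro φ hφ
        rw [hXdef, Finset.mem_filter] at hφ ⊢
        exact ⟨hconjF φ hφ.1, by rw [charDegree_conjFun]; exact hφ.2⟩
      have hT₀c : ∀ φ ∈ T₀, conjFun φ ∈ T₀ := by
        intro φ hφ
        rw [hT₀def, Finset.mem_filter] at hφ ⊢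
        exact ⟨hconjF φ hφ.1, by rw [charDegree_conjFun]; exact hφ.2⟩
      rw [hunion]
      by_cases hX : X = ∅
      · rw [hX, Finset.union_empty, hT₀def]
        apply ih
        rw [hunion, hX, Finset.union_empty, hT₀def] at hne
        exact hne
      by_cases hT : T₀ = ∅
      · rw [hT, Finset.empty_union]
        have hsys := isCoherenceSystem_subset hS hXS (by
          obtain ⟨φ, hφ⟩ := Finset.nonempty_iff_ne_empty.mpr hX
          exact ⟨φ, Finset.mem_coe.mpr hφ⟩)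
          (fun φ hφ => Finset.mem_coe.mpr (hXc φ (Finset.mem_coe.mp hφ)))
        apply Cfsg.Agent.S1517.result _ τ R hsys
        intro φ hφ ψ hψ
        have h1 := Finset.mem_coe.mp hφ
        have h2 := Finset.mem_coe.mp hψ
        rw [hXdef, Finset.mem_filter] at h1 h2
        rw [hd φ (hFS φ h1.1), hd ψ (hFS ψ h2.1), h1.2, h2.2]
      · have hT₀ne := Finset.nonempty_iff_ne_empty.mpr hT
        have hT₀coh : IsCoherent (↑T₀ : Set (L → ℂ)) {1}ᶜ τ := by
          rw [hT₀def]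
          apply ih
          rw [← hT₀def]
          exact hT₀ne
        apply coherent_extend_finset S τ R hS (fun φ => charDegree φ) n hd hn T₀ X hT₀S hXS
          hT₀c hXc hT₀coh
        intro χ hχ _
        obtain ⟨χ₁, hχ₁⟩ := hT₀ne
        have hχ' := hχ
        have hχ₁' := hχ₁
        rw [hXdef, Finset.mem_filter] at hχ'
        rw [hT₀def, Finset.mem_filter] at hχ₁'
        obtain ⟨b, hb, hbq⟩ := hdeg χ hχ'.1
        obtain ⟨b₁, hb₁, -⟩ := hdeg χ₁ hχ₁'.1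
        refine ⟨χ₁, hχ₁, ?_, ?_⟩
        · show charDegree χ₁ ∣ charDegree χ
          have h1 : e * p ^ b₁ < e * p ^ b := by
            rw [← hb, ← hb₁]
            omega
          have h2 : p ^ b₁ < p ^ b := Nat.lt_of_mul_lt_mul_left h1
          have h3 : b₁ < b := (Nat.pow_lt_pow_iff_right hp.one_lt).mp h2
          rw [hb, hb₁]
          exact Nat.mul_dvd_mul_left e (pow_dvd_pow p h3.le)
        · have hkey := sum_sq_lt_ge F (fun φ => charDegree φ) conjFun e p q (Nat.card Z - 1)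
            (c + 1) b hp hp_odd he_odd hcop
            (fun φ hφ => by
              obtain ⟨b', hb', -⟩ := hdeg φ hφ
              exact ⟨b', hb'⟩) hW (by rw [← hχ'.2, hb]) hbq
            hconjF (fun φ _ => conjFun_conjFun φ) hconj_ne (fun φ _ => charDegree_conjFun φ)
            ⟨χ₁, by
              rw [Finset.mem_filter]
              exact ⟨hχ₁'.1, by omega⟩⟩
          have hfil : F.filter (fun φ => charDegree φ < c + 1) = T₀ := by
            rw [hT₀def]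
            apply Finset.filter_congr
            intro φ _
            omega
          rw [hfil] at hkey
          have hsumR : ∑ φ ∈ T₀, ((charDegree φ : ℝ) ^ 2 / (n φ : ℝ)) =
              ((∑ φ ∈ T₀, charDegree φ ^ 2 : ℕ) : ℝ) := by
            rw [Nat.cast_sum]
            apply Finset.sum_congr rfl
            intro φ hφ
            rw [hnF φ (hT₀F hφ)]
            push_cast
            ring
          rw [hsumR]
          have h1 : 2 * charDegree χ * charDegree χ₁ < ∑ φ ∈ T₀, charDegree φ ^ 2 := by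
            have h2 : charDegree χ = c + 1 := hχ'.2
            have h3 : charDegree χ₁ ≤ c := hχ₁'.2
            calc 2 * charDegree χ * charDegree χ₁ ≤ 2 * (c + 1) * c := by
                  rw [h2]
                  exact Nat.mul_le_mul_left _ h3
              _ < 2 * (c + 1) ^ 2 := by nlinarith
              _ ≤ _ := hkey
          exact_mod_cast h1
  obtain ⟨C, hC⟩ : ∃ C : ℕ, ∀ φ ∈ F, charDegree φ ≤ C :=
    ⟨∑ φ ∈ F, charDegree φ, fun φ hφ =>
      Finset.single_le_sum (f := fun φ => charDegree φ) (fun _ _ => Nat.zero_le _) hφ⟩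
  have hFfil : F.filter (fun φ => charDegree φ ≤ C) = F := Finset.filter_true_of_mem hC
  have := key C (by rw [hFfil]; exact hFne)
  rw [hFfil, hFcoe] at this
  exact this

/-- Peterfalvi (6.6), coherence part. -/
theorem coherent_sdiff_central (K : Subgroup L) [hK : K.Normal] (hsolv : Group.IsSolvable K)
    (τ : (L → ℂ) → (G → ℂ)) (R : (L → ℂ) → Finset (G → ℂ))
    (hS : IsCoherenceSystem (inducedIrrAbove K ⊥) τ R) (hodd : Odd (Nat.card L))
    (hnil : Group.IsNilpotent K) (hH₁K : ⁅K, K⁆ < K)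
    (hfrob : ∀ k ∈ K, k ∉ ⁅K, K⁆ → ∀ x : L, x * k * x⁻¹ * k⁻¹ ∈ ⁅K, K⁆ → x ∈ K)
    (Z : Subgroup L) [hZ : Z.Normal] (hZ1 : Z ≠ ⊥) (hZK : Z ≤ K)
    (hZc : ∀ z ∈ Z, ∀ k ∈ K, z * k = k * z)
    (hirr : ∀ χ ∈ inducedIrrAbove K ⊥ \ inducedIrrAbove K Z, IsIrrCharacter L χ) :
    IsCoherent (inducedIrrAbove K ⊥ \ inducedIrrAbove K Z) {1}ᶜ τ := by
  classical
  by_cases hpg : ∃ p m : ℕ, p.Prime ∧ Nat.card K = p ^ m
  · obtain ⟨p, m, hp, hm⟩ := hpg
    exact coherent_sdiff_pgroup K τ R hS hodd hH₁K hfrob Z hZ1 hZK hZc hirr p m hp hm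
  · have hnilq : Group.IsNilpotent (↥K ⧸ (⊥ : Subgroup L).subgroupOf K) := by
      have _i := hnil
      infer_instance
    have hall := coherent_frobenius_cases K hsolv τ R hS hodd ⊥ bot_le hnilq (⁅K, K⁆ ⊔ ⊥) rfl
      (by rw [sup_bot_eq]; exact hH₁K) (by rw [sup_bot_eq]; exact hfrob)
      (Or.inr (Or.inr (Or.inl (by rw [Subgroup.relIndex_bot_left]; exact hpg))))
    apply isCoherent_subset Set.sdiff_subset hall
    obtain ⟨θ, hθZ⟩ := exists_irr_nontrivial_on K Z hZ1 hZK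
    obtain ⟨hmem, -⟩ := indFun_mem_sdiff K Z hZK θ θ.2 hθZ
    have hχS : indFun K (θ : K → ℂ) ∈ inducedIrrAbove K ⊥ := hmem.1
    have hconj : conjFun (indFun K (θ : K → ℂ)) ∈
        inducedIrrAbove K ⊥ \ inducedIrrAbove K Z := by
      refine ⟨conj_mem_inducedIrrAbove K ⊥ hχS, fun h => hmem.2 ?_⟩
      have := conj_mem_inducedIrrAbove K Z h
      rwa [conjFun_conjFun] at this
    refine ⟨indFun K (θ : K → ℂ) - conjFun (indFun K (θ : K → ℂ)),
      sub_conj_mem_zspanOn hmem hconj (hS.isCharacter _ hχS), ?_⟩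
    intro h
    exact hS.conj_ne _ hχS (sub_eq_zero.mp h).symm

end PF66

end Cfsg.Agent.Helper11
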