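import Mathlib
import Cfsg.Agent.Helper1.Coprime
import Cfsg.Agent.Helper10.PComp
import Cfsg.Agent.Helper11.CNMax

/-!
# Normal Hall subgroups inside the commutator subgroup (helper11)
-/

set_option autoImplicit false

namespace Cfsg.Agent.Helper11

open Cfsg

open scoped commutatorElement

/-- A subgroup of a solvable group contained in its own commutator is trivial. -/
theorem eq_bot_of_le_commutator_self {Q : Type*} [Group Q] [Group.IsSolvable Q] (P : Subgroup Q)
    (h : P ≤ ⁅P, P⁆) : P = ⊥ := by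
  have key : ∀ n, P ≤ derivedSeries Q n := by
    intro n
    induction n with
    | zero => exact le_top
    | succ n ih => exact h.trans (Subgroup.commutator_mono ih ih)
  obtain ⟨n, hn⟩ := Group.IsSolvable.solvable (G := Q)
  exact le_bot_iff.mp (hn ▸ key n)

/-- `⁅H, K⁆` is normalised by `H` and `K`; so it is normal when `G = HK`. -/
theorem commutator_normal_of_prod {G : Type*} [Group G] (H K : Subgroup G) [hH : H.Normal]
    (hprod : ∀ g : G, ∃ h ∈ H, ∃ k ∈ K, g = h * k) : (⁅H, K⁆ : Subgroup G).Normal := by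
  have h1 : ∀ x ∈ H, ∀ n ∈ ⁅H, K⁆, x * n * x⁻¹ ∈ ⁅H, K⁆ := by
    intro x hx
    have hle : ⁅H, K⁆ ≤ (⁅H, K⁆ : Subgroup G).comap (MulAut.conj x).toMonoidHom := by
      rw [Subgroup.commutator_le]
      intro h hh k hk
      rw [Subgroup.mem_comap]
      show x * ⁅h, k⁆ * x⁻¹ ∈ ⁅H, K⁆
      have : x * ⁅h, k⁆ * x⁻¹ = ⁅x * h, k⁆ * ⁅x, k⁆⁻¹ := by
        simp only [commutatorElement_def]; group
      rw [this]
      exact Subgroup.mul_mem _ (Subgroup.commutator_mem_commutator (H.mul_mem hx hh) hk)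
        (Subgroup.inv_mem _ (Subgroup.commutator_mem_commutator hx hk))
    intro n hn
    exact hle hn
  have h2 : ∀ y ∈ K, ∀ n ∈ ⁅H, K⁆, y * n * y⁻¹ ∈ ⁅H, K⁆ := by
    intro y hy
    have hle : ⁅H, K⁆ ≤ (⁅H, K⁆ : Subgroup G).comap (MulAut.conj y).toMonoidHom := by
      rw [Subgroup.commutator_le]
      intro h hh k hk
      rw [Subgroup.mem_comap]
      show y * ⁅h, k⁆ * y⁻¹ ∈ ⁅H, K⁆
      have : y * ⁅h, k⁆ * y⁻¹ = ⁅y * h * y⁻¹, y * k * y⁻¹⁆ := by
        simp only [commutatorElement_def]; group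
      rw [this]
      exact Subgroup.commutator_mem_commutator (hH.conj_mem h hh y)
        (K.mul_mem (K.mul_mem hy hk) (K.inv_mem hy))
    intro n hn
    exact hle hn
  constructor
  intro n hn g
  obtain ⟨h, hh, k, hk, rfl⟩ := hprod g
  have := h1 h hh _ (h2 k hk n hn)
  have e : h * k * n * (h * k)⁻¹ = h * (k * n * k⁻¹) * h⁻¹ := by group
  rw [e]; exact this

/-- If `G = HK`, `H ∩ K = 1`, `M ⊴ G` lies in `H` and contains `[H,H]` and `[H,K]`, and
`H ≤ G'`, then `H ≤ M`. -/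
theorem le_of_central_mod {G : Type*} [Group G] (H K M : Subgroup G) [hM : M.Normal]
    (hMH : M ≤ H) (hHH : ⁅H, H⁆ ≤ M) (hHK : ⁅H, K⁆ ≤ M) (hinf : H ⊓ K = ⊥)
    (hprod : ∀ g : G, ∃ h ∈ H, ∃ k ∈ K, g = h * k) (hHG : H ≤ commutator G) : H ≤ M := by
  have c1 : ∀ h ∈ H, ∀ g : G, ⁅h, g⁆ ∈ M := by
    intro h hh g
    obtain ⟨h', hh', k', hk', rfl⟩ := hprod g
    have : ⁅h, h' * k'⁆ = ⁅h, h'⁆ * (h' * ⁅h, k'⁆ * h'⁻¹) := by
      simp only [commutatorElement_def]; group
    rw [this]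
    exact M.mul_mem (hHH (Subgroup.commutator_mem_commutator hh hh'))
      (hM.conj_mem _ (hHK (Subgroup.commutator_mem_commutator hh hk')) _)
  have c1' : ∀ h ∈ H, ∀ g : G, ⁅g, h⁆ ∈ M := by
    intro h hh g
    have := M.inv_mem (c1 h hh g)
    rwa [commutatorElement_inv] at this
  have hMK : M ≤ M ⊔ K := le_sup_left
  have hKK : K ≤ M ⊔ K := le_sup_right
  have c2 : ∀ g₁ g₂ : G, ⁅g₁, g₂⁆ ∈ M ⊔ K := by
    intro g₁ g₂
    obtain ⟨h₁, hh₁, k₁, hk₁, rfl⟩ := hprod g₁
    obtain ⟨h₂, hh₂, k₂, hk₂, rfl⟩ := hprod g₂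
    have hkk : ⁅k₁, k₂⁆ ∈ K := by
      rw [commutatorElement_def]
      exact K.mul_mem (K.mul_mem (K.mul_mem hk₁ hk₂) (K.inv_mem hk₁)) (K.inv_mem hk₂)
    have hd : h₂ * ⁅k₁, k₂⁆ * h₂⁻¹ ∈ M ⊔ K := by
      have : h₂ * ⁅k₁, k₂⁆ * h₂⁻¹ = ⁅h₂, ⁅k₁, k₂⁆⁆ * ⁅k₁, k₂⁆ := by
        simp only [commutatorElement_def]; group
      rw [this]
      exact Subgroup.mul_mem _ (hMK (c1 h₂ hh₂ _)) (hKK hkk)
    have hc : ⁅k₁, h₂ * k₂⁆ ∈ M ⊔ K := by
      have : ⁅k₁, h₂ * k₂⁆ = ⁅k₁, h₂⁆ * (h₂ * ⁅k₁, k₂⁆ * h₂⁻¹) := by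
        simp only [commutatorElement_def]; group
      rw [this]
      exact Subgroup.mul_mem _ (hMK (c1' h₂ hh₂ _)) hd
    have : ⁅h₁ * k₁, h₂ * k₂⁆ = ⁅h₁, ⁅k₁, h₂ * k₂⁆⁆ * ⁅k₁, h₂ * k₂⁆ * ⁅h₁, h₂ * k₂⁆ := by
      simp only [commutatorElement_def]; group
    rw [this]
    exact Subgroup.mul_mem _ (Subgroup.mul_mem _ (hMK (c1 h₁ hh₁ _)) hc) (hMK (c1 h₁ hh₁ _))
  have c3 : commutator G ≤ M ⊔ K := by
    rw [commutator_def, Subgroup.commutator_le]
    intro g₁ _ g₂ _
    exact c2 g₁ g₂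
  intro x hx
  have hx' : x ∈ ((M ⊔ K : Subgroup G) : Set G) := c3 (hHG hx)
  rw [Subgroup.normal_mul] at hx'
  obtain ⟨m, hm, k, hk, rfl⟩ := Set.mem_mul.mp hx'
  have hkH : k ∈ H := by
    have := H.mul_mem (H.inv_mem (hMH hm)) hx
    simpa using this
  have hk1 : k = 1 := by
    have : k ∈ H ⊓ K := ⟨hkH, hk⟩
    rw [hinf] at this
    exact Subgroup.mem_bot.mp this
  rw [hk1, mul_one]
  exact hm

/-- A normal Hall subgroup `H ≤ G'` of a solvable group with complement `K` satisfies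
`H = [H, K]` and `C_H(K) ≤ H'`. -/
theorem hall_commutator_a {G : Type*} [Group G] [Finite G] [Group.IsSolvable G]
    (H K : Subgroup G) (hH : H.Normal) (hcop : (Nat.card H).Coprime H.index)
    (hc : Subgroup.IsComplement' H K) (hHG : H ≤ commutator G) :
    H = ⁅H, K⁆ ∧ H ⊓ Subgroup.centralizer (K : Set G) ≤ ⁅H, H⁆ := by
  have := hH
  have hinf : H ⊓ K = ⊥ := hc.disjoint.eq_bot
  have hprod : ∀ g : G, ∃ h ∈ H, ∃ k ∈ K, g = h * k := by
    intro g
    obtain ⟨⟨h, k⟩, hk⟩ := hc.2 g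
    exact ⟨h, h.2, k, k.2, hk.symm⟩
  have hHKle : ⁅H, K⁆ ≤ H := Subgroup.commutator_le_left H K
  have hHHle : ⁅H, H⁆ ≤ H := Subgroup.commutator_le_left H H
  have hN1 : (⁅H, K⁆ : Subgroup G).Normal := commutator_normal_of_prod H K hprod
  have h1 : H ≤ ⁅H, H⁆ ⊔ ⁅H, K⁆ :=
    le_of_central_mod H K (⁅H, H⁆ ⊔ ⁅H, K⁆) (sup_le hHHle hHKle) le_sup_left le_sup_right hinf
      hprod hHG
  have h2 : H ≤ ⁅H, K⁆ := by
    have hP : (H.map (QuotientGroup.mk' ⁅H, K⁆)) = ⊥ := by
      apply eq_bot_of_le_commutator_self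
      rw [← Subgroup.map_commutator]
      calc H.map (QuotientGroup.mk' ⁅H, K⁆)
          ≤ (⁅H, H⁆ ⊔ ⁅H, K⁆).map (QuotientGroup.mk' ⁅H, K⁆) := Subgroup.map_mono h1
        _ = (⁅H, H⁆).map (QuotientGroup.mk' ⁅H, K⁆) ⊔ (⁅H, K⁆).map (QuotientGroup.mk' ⁅H, K⁆) :=
            Subgroup.map_sup _ _ _
        _ = (⁅H, H⁆).map (QuotientGroup.mk' ⁅H, K⁆) := by
            rw [QuotientGroup.map_mk'_self, sup_bot_eq]
    intro x hx
    have : QuotientGroup.mk' ⁅H, K⁆ x ∈ H.map (QuotientGroup.mk' ⁅H, K⁆) :=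
      Subgroup.mem_map_of_mem _ hx
    rw [hP, Subgroup.mem_bot] at this
    exact (QuotientGroup.eq_one_iff x).mp this
  have hEq : H = ⁅H, K⁆ := le_antisymm h2 hHKle
  refine ⟨hEq, ?_⟩
  have hVab : ⁅H.map (QuotientGroup.mk' ⁅H, H⁆), H.map (QuotientGroup.mk' ⁅H, H⁆)⁆ = ⊥ := by
    rw [← Subgroup.map_commutator, QuotientGroup.map_mk'_self]
  have : IsMulCommutative (H.map (QuotientGroup.mk' ⁅H, H⁆)) := ⟨⟨fun a b => by
    have : ⁅(a : G ⧸ ⁅H, H⁆), (b : G ⧸ ⁅H, H⁆)⁆ ∈
        ⁅H.map (QuotientGroup.mk' ⁅H, H⁆), H.map (QuotientGroup.mk' ⁅H, H⁆)⁆ :=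
      Subgroup.commutator_mem_commutator a.2 b.2
    rw [hVab, Subgroup.mem_bot, commutatorElement_eq_one_iff_mul_comm] at this
    exact Subtype.ext this⟩⟩
  have hVn : (H.map (QuotientGroup.mk' ⁅H, H⁆)).Normal :=
    hH.map _ (QuotientGroup.mk'_surjective _)
  have hAV : K.map (QuotientGroup.mk' ⁅H, H⁆) ≤
      Subgroup.normalizer ((H.map (QuotientGroup.mk' ⁅H, H⁆) : Subgroup (G ⧸ ⁅H, H⁆)) : Set _) := by
    rw [Subgroup.normalizer_eq_top]
    exact le_top
  have hcard : (Nat.card (K.map (QuotientGroup.mk' ⁅H, H⁆))).Coprime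
      (Nat.card (H.map (QuotientGroup.mk' ⁅H, H⁆))) := by
    have hAK : Nat.card (K.map (QuotientGroup.mk' ⁅H, H⁆)) ∣ Nat.card K := Subgroup.card_map_dvd _ _
    have hVH : Nat.card (H.map (QuotientGroup.mk' ⁅H, H⁆)) ∣ Nat.card H := Subgroup.card_map_dvd _ _
    have hKi : H.index = Nat.card K := hc.symm.index_eq_card
    rw [hKi] at hcop
    exact Nat.Coprime.coprime_dvd_left hAK (Nat.Coprime.coprime_dvd_right hVH hcop.symm)
  have key := Cfsg.Agent.Helper1.coprime_abelian_inf (K.map (QuotientGroup.mk' ⁅H, H⁆))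
    (H.map (QuotientGroup.mk' ⁅H, H⁆)) hAV hcard
  have hVA : ⁅H.map (QuotientGroup.mk' ⁅H, H⁆), K.map (QuotientGroup.mk' ⁅H, H⁆)⁆ =
      H.map (QuotientGroup.mk' ⁅H, H⁆) := by
    rw [← Subgroup.map_commutator]
    exact congrArg _ hEq.symm
  rw [hVA] at key
  intro x hx
  have hx1 : QuotientGroup.mk' ⁅H, H⁆ x ∈ H.map (QuotientGroup.mk' ⁅H, H⁆) :=
    Subgroup.mem_map_of_mem _ hx.1
  have hx2 : QuotientGroup.mk' ⁅H, H⁆ x ∈
      Subgroup.centralizer ((K.map (QuotientGroup.mk' ⁅H, H⁆) : Subgroup (G ⧸ ⁅H, H⁆)) : Set _) := by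
    rw [Subgroup.mem_centralizer_iff]
    rintro _ ⟨k, hk, rfl⟩
    rw [← map_mul, ← map_mul, (Subgroup.mem_centralizer_iff.mp hx.2) k hk]
  have : QuotientGroup.mk' ⁅H, H⁆ x ∈ (H.map (QuotientGroup.mk' ⁅H, H⁆) ⊓
      Subgroup.centralizer ((K.map (QuotientGroup.mk' ⁅H, H⁆) : Subgroup (G ⧸ ⁅H, H⁆)) : Set _)) ⊓
      H.map (QuotientGroup.mk' ⁅H, H⁆) := ⟨⟨hx1, hx2⟩, hx1⟩
  rw [key, Subgroup.mem_bot] at this
  exact (QuotientGroup.eq_one_iff x).mp this

/-- A nilpotent group with cyclic abelianisation is abelian. -/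
theorem commutator_eq_bot_of_nilpotent_of_cyclic {X : Type*} [Group X] [Group.IsNilpotent X]
    (hcyc : IsCyclic (X ⧸ commutator X)) : commutator X = ⊥ := by
  have hγn : (⁅commutator X, (⊤ : Subgroup X)⁆ : Subgroup X).Normal := inferInstance
  have hγle : ⁅commutator X, (⊤ : Subgroup X)⁆ ≤ commutator X := Subgroup.commutator_le_left _ _
  let f : X ⧸ ⁅commutator X, (⊤ : Subgroup X)⁆ →* X ⧸ commutator X :=
    QuotientGroup.map _ (commutator X) (MonoidHom.id X) hγle
  have hker : f.ker ≤ Subgroup.center (X ⧸ ⁅commutator X, (⊤ : Subgroup X)⁆) := by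
    intro y hy
    obtain ⟨a, rfl⟩ := QuotientGroup.mk_surjective y
    rw [MonoidHom.mem_ker] at hy
    have ha : a ∈ commutator X := by
      have : f (QuotientGroup.mk a) = QuotientGroup.mk a := rfl
      rw [this] at hy
      exact (QuotientGroup.eq_one_iff a).mp hy
    rw [Subgroup.mem_center_iff]
    intro z
    obtain ⟨b, rfl⟩ := QuotientGroup.mk_surjective z
    have h0 : ⁅a⁻¹, b⁻¹⁆ ∈ ⁅commutator X, (⊤ : Subgroup X)⁆ :=
      Subgroup.commutator_mem_commutator (Subgroup.inv_mem _ ha) (Subgroup.mem_top _)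
    rw [← QuotientGroup.mk_mul, ← QuotientGroup.mk_mul]
    apply QuotientGroup.eq.mpr
    have e : (b * a)⁻¹ * (a * b) = ⁅a⁻¹, b⁻¹⁆ := by
      rw [commutatorElement_def]; group
    rw [e]
    exact h0
  have hcomm : ∀ a b : X ⧸ ⁅commutator X, (⊤ : Subgroup X)⁆, a * b = b * a :=
    commutative_of_cyclic_center_quotient f hker
  have hle : commutator X ≤ ⁅commutator X, (⊤ : Subgroup X)⁆ := by
    rw [commutator_def, Subgroup.commutator_le]
    intro a _ b _
    have h1 := hcomm (QuotientGroup.mk a) (QuotientGroup.mk b)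
    rw [← commutator_def, ← QuotientGroup.eq_one_iff, commutatorElement_def]
    simp only [QuotientGroup.mk_mul, QuotientGroup.mk_inv]
    rw [h1]; group
  have hall : ∀ n, commutator X ≤ Subgroup.lowerCentralSeries (⊤ : Subgroup X) (n + 1) := by
    intro n
    induction n with
    | zero =>
      rw [Subgroup.lowerCentralSeries_succ, Subgroup.lowerCentralSeries_zero, commutator_def]
    | succ n ih =>
      rw [Subgroup.lowerCentralSeries_succ]
      exact hle.trans (Subgroup.commutator_mono ih le_rfl)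
  obtain ⟨n, hn⟩ := Subgroup.nilpotent_iff_lowerCentralSeries.mp
    (inferInstance : Group.IsNilpotent X)
  have h1 : Subgroup.lowerCentralSeries (⊤ : Subgroup X) (n + 1) = ⊥ := by
    rw [Subgroup.lowerCentralSeries_succ, hn]
    exact Subgroup.commutator_bot_left _
  exact le_bot_iff.mp (h1 ▸ hall n)

/-- If `G'` is nilpotent of prime index `q`, every `q'`-element lies in `O_{q'}(G)`. -/
theorem coprime_order_mem_pPrimeCore {G : Type*} [Group G] [Finite G] (q : ℕ) (hq : q.Prime)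
    (hnil : Group.IsNilpotent ↥(commutator G)) (hidx : (commutator G).index = q)
    (y : G) (hy : (orderOf y).Coprime q) : y ∈ pPrimeCore q G := by
  have : Fact q.Prime := ⟨hq⟩
  have hyN : y ∈ commutator G := by
    have h1 : orderOf (QuotientGroup.mk' (commutator G) y) ∣ orderOf y := orderOf_map_dvd _ y
    have h2 : orderOf (QuotientGroup.mk' (commutator G) y) ∣ q := by
      rw [← hidx, Subgroup.index_eq_card]
      exact orderOf_dvd_natCard _
    have h3 : orderOf (QuotientGroup.mk' (commutator G) y) = 1 := by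
      have := Nat.dvd_gcd h1 h2
      rw [Nat.Coprime.gcd_eq_one hy] at this
      exact Nat.dvd_one.mp this
    exact (QuotientGroup.eq_one_iff y).mp (orderOf_eq_one_iff.mp h3)
  by_contra hcon
  have hne : orderOf (QuotientGroup.mk' (pPrimeCore q G) y) ≠ 1 := by
    intro h
    exact hcon ((QuotientGroup.eq_one_iff y).mp (orderOf_eq_one_iff.mp h))
  obtain ⟨p, hp, hpd⟩ := Nat.exists_prime_and_dvd hne
  have : Fact p.Prime := ⟨hp⟩
  have hm : orderOf y ≠ 0 := (orderOf_pos y).ne'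
  have hzpow : (y ^ (ordCompl[p] (orderOf y))) ^ (p ^ (orderOf y).factorization p) = 1 := by
    rw [← pow_mul, mul_comm, Nat.ordProj_mul_ordCompl_eq_self, pow_orderOf_eq_one]
  have hzN : y ^ (ordCompl[p] (orderOf y)) ∈ commutator G := Subgroup.pow_mem _ hyN _
  have hpq : p ≠ q := by
    rintro rfl
    have h1 : p ∣ orderOf y := hpd.trans (orderOf_map_dvd _ y)
    exact hp.one_lt.ne' (Nat.Coprime.eq_one_of_dvd hy.symm h1)
  have hzR : y ^ (ordCompl[p] (orderOf y)) ∈ pPrimeCore q G := by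
    by_cases hz1 : y ^ (ordCompl[p] (orderOf y)) = 1
    · rw [hz1]; exact Subgroup.one_mem _
    · have hpN : p ∣ Nat.card (commutator G) := by
        have h1 : orderOf (y ^ (ordCompl[p] (orderOf y))) ∣ p ^ (orderOf y).factorization p :=
          orderOf_dvd_of_pow_eq_one hzpow
        have h2 : orderOf (y ^ (ordCompl[p] (orderOf y))) ≠ 1 :=
          fun h => hz1 (orderOf_eq_one_iff.mp h)
        obtain ⟨j, hj, hj'⟩ := (Nat.dvd_prime_pow hp).mp h1
        have hj0 : j ≠ 0 := by rintro rfl; exact h2 (by simpa using hj')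
        have h3 : p ∣ orderOf (y ^ (ordCompl[p] (orderOf y))) := by
          rw [hj']; exact dvd_pow_self p hj0
        have h4 : orderOf (y ^ (ordCompl[p] (orderOf y))) ∣ Nat.card (commutator G) := by
          have := orderOf_dvd_natCard (⟨_, hzN⟩ : commutator G)
          rwa [Subgroup.orderOf_mk] at this
        exact h3.trans h4
      obtain ⟨Rp, hRpN, hRpp, -, hRpall⟩ := exists_sylow_of_nilpotent (commutator G) hnil p hpN
      have hRpn : Rp.Normal := by
        constructor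
        intro r hr g
        obtain ⟨k, hk⟩ := hRpp ⟨r, hr⟩
        have hk' : r ^ p ^ k = 1 := by simpa using congrArg Subtype.val hk
        apply hRpall _ (Subgroup.Normal.conj_mem inferInstance r (hRpN hr) g) k
        rw [conj_pow, hk']; simp
      have hcop : (Nat.card Rp).Coprime q := by
        obtain ⟨n, hn⟩ := IsPGroup.iff_card.mp hRpp
        rw [hn]
        exact Nat.Coprime.pow_left n ((Nat.coprime_primes hp hq).mpr hpq)
      exact Helper10.le_pPrimeCore q hRpn hcop (hRpall _ hzN _ hzpow)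
  have h5 : (QuotientGroup.mk' (pPrimeCore q G) y) ^ (ordCompl[p] (orderOf y)) = 1 := by
    rw [← map_pow]
    exact (QuotientGroup.eq_one_iff _).mpr hzR
  have h6 : p ∣ ordCompl[p] (orderOf y) := hpd.trans (orderOf_dvd_of_pow_eq_one h5)
  exact Nat.not_dvd_ordCompl hp hm h6

/-- If `G'` is nilpotent of prime index `q` then `G' ≤ O_{q'}(G)`; in particular `|G'|` is
prime to `q`. -/
theorem commutator_le_pPrimeCore {G : Type*} [Group G] [Finite G] (q : ℕ) (hq : q.Prime)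
    (hnil : Group.IsNilpotent ↥(commutator G)) (hidx : (commutator G).index = q) :
    commutator G ≤ pPrimeCore q G := by
  have : Fact q.Prime := ⟨hq⟩
  have hPG : IsPGroup q (G ⧸ pPrimeCore q G) := by
    intro x
    obtain ⟨a, rfl⟩ := QuotientGroup.mk_surjective x
    refine ⟨(orderOf a).factorization q, ?_⟩
    have hm : orderOf a ≠ 0 := (orderOf_pos a).ne'
    have h1 : (a ^ (q ^ (orderOf a).factorization q)) ^ (ordCompl[q] (orderOf a)) = 1 := by
      rw [← pow_mul, Nat.ordProj_mul_ordCompl_eq_self, pow_orderOf_eq_one]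
    have h2 : (orderOf (a ^ (q ^ (orderOf a).factorization q))).Coprime q :=
      Nat.Coprime.coprime_dvd_left (orderOf_dvd_of_pow_eq_one h1)
        (Nat.coprime_ordCompl hq hm).symm
    have h3 := coprime_order_mem_pPrimeCore q hq hnil hidx _ h2
    rw [← QuotientGroup.mk_pow]
    exact (QuotientGroup.eq_one_iff _).mpr h3
  have : Group.IsNilpotent (G ⧸ pPrimeCore q G) := hPG.isNilpotent
  have hmapc : (commutator G).map (QuotientGroup.mk' (pPrimeCore q G)) ≤
      commutator (G ⧸ pPrimeCore q G) := by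
    rw [commutator_def, Subgroup.map_commutator, commutator_def]
    exact Subgroup.commutator_mono le_top le_top
  have hcycN : IsCyclic (G ⧸ commutator G) := by
    apply isCyclic_of_prime_card (p := q)
    rw [← Subgroup.index_eq_card, hidx]
  have hcyc : IsCyclic ((G ⧸ pPrimeCore q G) ⧸ commutator (G ⧸ pPrimeCore q G)) := by
    have hle : commutator G ≤ ((QuotientGroup.mk' (commutator (G ⧸ pPrimeCore q G))).comp
        (QuotientGroup.mk' (pPrimeCore q G))).ker := by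
      intro n hn
      rw [MonoidHom.mem_ker, MonoidHom.comp_apply]
      exact (QuotientGroup.eq_one_iff _).mpr (hmapc (Subgroup.mem_map_of_mem _ hn))
    have hsurj : Function.Surjective (QuotientGroup.lift (commutator G)
        ((QuotientGroup.mk' (commutator (G ⧸ pPrimeCore q G))).comp
          (QuotientGroup.mk' (pPrimeCore q G))) hle) := by
      apply QuotientGroup.lift_surjective_of_surjective
      exact (QuotientGroup.mk'_surjective _).comp (QuotientGroup.mk'_surjective _)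
    exact isCyclic_of_surjective _ hsurj
  have hbot := commutator_eq_bot_of_nilpotent_of_cyclic hcyc
  rw [hbot] at hmapc
  have := (Subgroup.map_eq_bot_iff _).mp (le_bot_iff.mp hmapc)
  rwa [QuotientGroup.ker_mk'] at this

end Cfsg.Agent.Helper11
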