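import Mathlib
import Cfsg.Prelude.Def_OddOrderChar
import Cfsg.Agent.Helper2.Ind
import Cfsg.Agent.Helper2.CycSum
import Cfsg.Agent.Helper11.SignedIrr
import Cfsg.Agent.Helper11.GalConj
import Cfsg.Agent.Helper11.CycTI3
import Cfsg.Agent.Helper11.ProdDecomp

/-!
# Uniqueness and Galois equivariance of a cyclic TI family (helper11)
-/

set_option autoImplicit false

namespace Cfsg.Agent.Helper11

open Cfsg Finset

/-- The abstract uniqueness step: two orthogonal families of signed irreducible characters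
satisfying `χ a + χ b - χ c = χ' a + χ' b - χ' c` for two "independent" triples agree at `a`. -/
theorem signed_family_eq {G : Type*} [Group G] [Fintype G] {I : Type*}
    (χ χ' : I → (G → ℂ))
    (hirr : ∀ i, IsIrrCharacter G (χ i) ∨ IsIrrCharacter G (-χ i))
    (hirr' : ∀ i, IsIrrCharacter G (χ' i) ∨ IsIrrCharacter G (-χ' i))
    (horth : ∀ i j, i ≠ j → classInner (χ i) (χ j) = 0)
    (horth' : ∀ i j, i ≠ j → classInner (χ' i) (χ' j) = 0)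
    (a b c b' c' : I) (hab : a ≠ b) (hac : a ≠ c) (hab' : a ≠ b') (hac' : a ≠ c')
    (hbb' : b ≠ b') (hbc' : b ≠ c') (hcb' : c ≠ b') (hcc' : c ≠ c')
    (h1 : ∀ g, χ a g + χ b g - χ c g = χ' a g + χ' b g - χ' c g)
    (h2 : ∀ g, χ a g + χ b' g - χ c' g = χ' a g + χ' b' g - χ' c' g) :
    χ a = χ' a := by
  classical
  choose e t he ht using fun i => signed_irr (hirr i)
  choose f s hf hs using fun i => signed_irr (hirr' i)
  have hff : ∀ i, (f i : ℂ) * (f i : ℂ) = 1 := by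
    intro i; rcases hf i with h | h <;> rw [h] <;> norm_num
  have inner1 : ∀ i j, classInner (χ i) (χ' j) =
      (e i : ℂ) * (f j : ℂ) * (if t i = s j then 1 else 0) := by
    intro i j
    have := classInner_signed_irr (e i) (f j) (t i) (s j)
    rw [← ht i, ← hs j] at this
    exact this
  have inner2 : ∀ i j, classInner (χ' i) (χ' j) =
      (f i : ℂ) * (f j : ℂ) * (if s i = s j then 1 else 0) := by
    intro i j
    have := classInner_signed_irr (f i) (f j) (s i) (s j)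
    rw [← hs i, ← hs j] at this
    exact this
  have inner0 : ∀ i j, classInner (χ i) (χ j) =
      (e i : ℂ) * (e j : ℂ) * (if t i = t j then 1 else 0) := by
    intro i j
    have := classInner_signed_irr (e i) (e j) (t i) (t j)
    rw [← ht i, ← ht j] at this
    exact this
  have tne : ∀ i j, i ≠ j → t i ≠ t j := by
    intro i j hij h
    have := horth i j hij
    rw [inner0, if_pos h, mul_one] at this
    rcases he i with h1 | h1 <;> rcases he j with h2 | h2 <;> rw [h1, h2] at this <;>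
      norm_num at this
  have sne : ∀ i j, i ≠ j → s i ≠ s j := by
    intro i j hij h
    have := horth' i j hij
    rw [inner2, if_pos h, mul_one] at this
    rcases hf i with h1 | h1 <;> rcases hf j with h2 | h2 <;> rw [h1, h2] at this <;>
      norm_num at this
  have key : ∀ b c : I, a ≠ b → a ≠ c →
      (∀ g, χ a g + χ b g - χ c g = χ' a g + χ' b g - χ' c g) →
      (e a : ℂ) * (f a : ℂ) * (if t a = s a then 1 else 0)
        + (e b : ℂ) * (f a : ℂ) * (if t b = s a then 1 else 0)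
        - (e c : ℂ) * (f a : ℂ) * (if t c = s a then 1 else 0) = 1 := by
    intro b c hab hac h
    have e1 : (fun g => χ a g + χ b g - χ c g) = (fun g => χ' a g + χ' b g - χ' c g) := funext h
    have e2 : classInner (fun g => χ a g + χ b g - χ c g) (χ' a) =
        classInner (fun g => χ' a g + χ' b g - χ' c g) (χ' a) := by rw [e1]
    rw [classInner_sub_left (fun g => χ a g + χ b g) (χ c) (χ' a),
      classInner_add_left (χ a) (χ b) (χ' a),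
      classInner_sub_left (fun g => χ' a g + χ' b g) (χ' c) (χ' a),
      classInner_add_left (χ' a) (χ' b) (χ' a),
      inner1, inner1, inner1, inner2, inner2, inner2, if_pos rfl,
      if_neg (sne b a (Ne.symm hab)), if_neg (sne c a (Ne.symm hac)), hff] at e2
    rw [e2]; ring
  have k1 := key b c hab hac h1
  have k2 := key b' c' hab' hac' h2
  by_cases hts : t a = s a
  · have hb : t b ≠ s a := fun h => tne a b hab (hts.trans h.symm)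
    have hc : t c ≠ s a := fun h => tne a c hac (hts.trans h.symm)
    rw [if_pos hts, if_neg hb, if_neg hc] at k1
    have hef : e a = f a := by
      rcases he a with h | h <;> rcases hf a with h' | h' <;> rw [h, h'] at k1 <;>
        norm_num at k1 <;> rw [h, h']
    rw [ht a, hs a, hts, hef]
  · exfalso
    rw [if_neg hts] at k1 k2
    have hb : t b = s a ∨ t c = s a := by
      by_contra hcon
      push Not at hcon
      rw [if_neg hcon.1, if_neg hcon.2] at k1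
      norm_num at k1
    have hb' : t b' = s a ∨ t c' = s a := by
      by_contra hcon
      push Not at hcon
      rw [if_neg hcon.1, if_neg hcon.2] at k2
      norm_num at k2
    rcases hb with h | h <;> rcases hb' with h' | h'
    · exact tne b b' hbb' (h.trans h'.symm)
    · exact tne b c' hbc' (h.trans h'.symm)
    · exact tne c b' hcb' (h.trans h'.symm)
    · exact tne c c' hcc' (h.trans h'.symm)

/-- A cyclic TI family is determined by orthogonality, irreducibility up to sign, the value at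
the trivial character and the induction identities (when each factor has at least two nontrivial
characters). -/
theorem cyclicTI_family_unique {G : Type*} [Group G] [Fintype G] (W₁ W₂ : Subgroup G)
    (hdisj : W₁ ⊓ W₂ = ⊥) (hcomm : ∀ a ∈ W₁, ∀ b ∈ W₂, a * b = b * a)
    (hex₁ : ∃ φ₁ φ₂ : ↥(W₁ ⊔ W₂) →* ℂˣ, φ₁ ≠ 1 ∧ φ₂ ≠ 1 ∧ φ₁ ≠ φ₂ ∧
      (∀ w : ↥(W₁ ⊔ W₂), (w : G) ∈ W₂ → φ₁ w = 1) ∧ (∀ w : ↥(W₁ ⊔ W₂), (w : G) ∈ W₂ → φ₂ w = 1))
    (hex₂ : ∃ ψ₁ ψ₂ : ↥(W₁ ⊔ W₂) →* ℂˣ, ψ₁ ≠ 1 ∧ ψ₂ ≠ 1 ∧ ψ₁ ≠ ψ₂ ∧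
      (∀ w : ↥(W₁ ⊔ W₂), (w : G) ∈ W₁ → ψ₁ w = 1) ∧ (∀ w : ↥(W₁ ⊔ W₂), (w : G) ∈ W₁ → ψ₂ w = 1))
    (χ χ' : (↥(W₁ ⊔ W₂) →* ℂˣ) → (G → ℂ))
    (hirr : ∀ ω, IsIrrCharacter G (χ ω) ∨ IsIrrCharacter G (-χ ω))
    (hirr' : ∀ ω, IsIrrCharacter G (χ' ω) ∨ IsIrrCharacter G (-χ' ω))
    (horth : ∀ ω ω', ω ≠ ω' → classInner (χ ω) (χ ω') = 0)
    (horth' : ∀ ω ω', ω ≠ ω' → classInner (χ' ω) (χ' ω') = 0)
    (hone : χ 1 = χ' 1)
    (hind : ∀ φ ψ : ↥(W₁ ⊔ W₂) →* ℂˣ, φ ≠ 1 → ψ ≠ 1 →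
      (∀ w : ↥(W₁ ⊔ W₂), (w : G) ∈ W₂ → φ w = 1) → (∀ w : ↥(W₁ ⊔ W₂), (w : G) ∈ W₁ → ψ w = 1) →
      ∀ g, χ φ g + χ ψ g - χ (φ * ψ) g = χ' φ g + χ' ψ g - χ' (φ * ψ) g) :
    χ = χ' := by
  obtain ⟨φ₁, φ₂, hφ₁, hφ₂, hφ₁₂, hφ₁t, hφ₂t⟩ := hex₁
  obtain ⟨ψ₁, ψ₂, hψ₁, hψ₂, hψ₁₂, hψ₁t, hψ₂t⟩ := hex₂
  have triv : ∀ ω : ↥(W₁ ⊔ W₂) →* ℂˣ, (∀ w : ↥(W₁ ⊔ W₂), (w : G) ∈ W₁ → ω w = 1) →
      (∀ w : ↥(W₁ ⊔ W₂), (w : G) ∈ W₂ → ω w = 1) → ω = 1 := by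
    intro ω h₁ h₂
    exact hom_ext_sup W₁ W₂ ω 1 (fun w hw => by rw [h₁ w hw, MonoidHom.one_apply])
      (fun w hw => by rw [h₂ w hw, MonoidHom.one_apply])
  -- the quotient `x * y⁻¹` of two characters trivial on a factor is trivial on that factor
  have tq₁ : ∀ x y : ↥(W₁ ⊔ W₂) →* ℂˣ, (∀ w : ↥(W₁ ⊔ W₂), (w : G) ∈ W₁ → x w = 1) →
      (∀ w : ↥(W₁ ⊔ W₂), (w : G) ∈ W₁ → y w = 1) →
      ∀ w : ↥(W₁ ⊔ W₂), (w : G) ∈ W₁ → (x * y⁻¹) w = 1 := by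
    intro x y hx hy w hw
    rw [MonoidHom.mul_apply, MonoidHom.inv_apply, hx w hw, hy w hw, inv_one, mul_one]
  have tq₂ : ∀ x y : ↥(W₁ ⊔ W₂) →* ℂˣ, (∀ w : ↥(W₁ ⊔ W₂), (w : G) ∈ W₂ → x w = 1) →
      (∀ w : ↥(W₁ ⊔ W₂), (w : G) ∈ W₂ → y w = 1) →
      ∀ w : ↥(W₁ ⊔ W₂), (w : G) ∈ W₂ → (x * y⁻¹) w = 1 := by
    intro x y hx hy w hw
    rw [MonoidHom.mul_apply, MonoidHom.inv_apply, hx w hw, hy w hw, inv_one, mul_one]
  -- Step A
  have stepA : ∀ φ : ↥(W₁ ⊔ W₂) →* ℂˣ, φ ≠ 1 → (∀ w : ↥(W₁ ⊔ W₂), (w : G) ∈ W₂ → φ w = 1) →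
      χ φ = χ' φ := by
    intro φ hφ hφt
    have n1 : ∀ ψ : ↥(W₁ ⊔ W₂) →* ℂˣ, ψ ≠ 1 → (∀ w : ↥(W₁ ⊔ W₂), (w : G) ∈ W₁ → ψ w = 1) →
        φ ≠ ψ := by
      intro ψ _ hψt h
      exact hφ (triv φ (fun w hw => by rw [h]; exact hψt w hw) hφt)
    have n2 : ∀ ψ : ↥(W₁ ⊔ W₂) →* ℂˣ, ψ ≠ 1 → φ ≠ φ * ψ := by
      intro ψ hψ h
      apply hψ
      have : φ * 1 = φ * ψ := by rw [mul_one φ]; exact h
      exact (mul_left_cancel this).symm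
    have n3 : ∀ ψ ψ' : ↥(W₁ ⊔ W₂) →* ℂˣ, (∀ w : ↥(W₁ ⊔ W₂), (w : G) ∈ W₁ → ψ w = 1) →
        (∀ w : ↥(W₁ ⊔ W₂), (w : G) ∈ W₁ → ψ' w = 1) → ψ ≠ φ * ψ' := by
      intro ψ ψ' hψt hψ't h
      apply hφ
      have e : φ = ψ * ψ'⁻¹ := by rw [h, mul_inv_cancel_right φ ψ']
      exact triv φ (fun w hw => by rw [e]; exact tq₁ ψ ψ' hψt hψ't w hw) hφt
    exact signed_family_eq χ χ' hirr hirr' horth horth' φ ψ₁ (φ * ψ₁) ψ₂ (φ * ψ₂)
      (n1 ψ₁ hψ₁ hψ₁t) (n2 ψ₁ hψ₁) (n1 ψ₂ hψ₂ hψ₂t) (n2 ψ₂ hψ₂) hψ₁₂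
      (n3 ψ₁ ψ₂ hψ₁t hψ₂t) (fun h => n3 ψ₂ ψ₁ hψ₂t hψ₁t h.symm)
      (fun h => hψ₁₂ (mul_left_cancel h))
      (hind φ ψ₁ hφ hψ₁ hφt hψ₁t) (hind φ ψ₂ hφ hψ₂ hφt hψ₂t)
  -- Step B
  have stepB : ∀ ψ : ↥(W₁ ⊔ W₂) →* ℂˣ, ψ ≠ 1 → (∀ w : ↥(W₁ ⊔ W₂), (w : G) ∈ W₁ → ψ w = 1) →
      χ ψ = χ' ψ := by
    intro ψ hψ hψt
    have n1 : ∀ φ : ↥(W₁ ⊔ W₂) →* ℂˣ, φ ≠ 1 → (∀ w : ↥(W₁ ⊔ W₂), (w : G) ∈ W₂ → φ w = 1) →
        ψ ≠ φ := by
      intro φ _ hφt h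
      exact hψ (triv ψ hψt (fun w hw => by rw [h]; exact hφt w hw))
    have n2 : ∀ φ : ↥(W₁ ⊔ W₂) →* ℂˣ, φ ≠ 1 → ψ ≠ φ * ψ := by
      intro φ hφ h
      apply hφ
      have : 1 * ψ = φ * ψ := by rw [one_mul ψ]; exact h
      exact (mul_right_cancel this).symm
    have n3 : ∀ φ φ' : ↥(W₁ ⊔ W₂) →* ℂˣ, (∀ w : ↥(W₁ ⊔ W₂), (w : G) ∈ W₂ → φ w = 1) →
        (∀ w : ↥(W₁ ⊔ W₂), (w : G) ∈ W₂ → φ' w = 1) → φ ≠ φ' * ψ := by
      intro φ φ' hφt hφ't h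
      apply hψ
      have e : ψ = φ * φ'⁻¹ := by rw [h, mul_comm φ' ψ, mul_inv_cancel_right ψ φ']
      exact triv ψ hψt (fun w hw => by rw [e]; exact tq₂ φ φ' hφt hφ't w hw)
    exact signed_family_eq χ χ' hirr hirr' horth horth' ψ φ₁ (φ₁ * ψ) φ₂ (φ₂ * ψ)
      (n1 φ₁ hφ₁ hφ₁t) (n2 φ₁ hφ₁) (n1 φ₂ hφ₂ hφ₂t) (n2 φ₂ hφ₂) hφ₁₂
      (n3 φ₁ φ₂ hφ₁t hφ₂t) (fun h => n3 φ₂ φ₁ hφ₂t hφ₁t h.symm)
      (fun h => hφ₁₂ (mul_right_cancel h))
      (fun g => by have := hind φ₁ ψ hφ₁ hψ hφ₁t hψt g; linear_combination this)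
      (fun g => by have := hind φ₂ ψ hφ₂ hψ hφ₂t hψt g; linear_combination this)
  funext ω
  have hω := lift_res W₁ W₂ hdisj hcomm ω
  have t1 : ∀ w : ↥(W₁ ⊔ W₂), (w : G) ∈ W₂ → lift₁ W₁ W₂ hdisj hcomm (res₁ W₁ W₂ ω) w = 1 :=
    fun w hw => lift₁_of_mem_right W₁ W₂ hdisj hcomm _ w hw
  have t2 : ∀ w : ↥(W₁ ⊔ W₂), (w : G) ∈ W₁ → lift₂ W₁ W₂ hdisj hcomm (res₂ W₁ W₂ ω) w = 1 :=
    fun w hw => lift₂_of_mem_left W₁ W₂ hdisj hcomm _ w hw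
  rw [← hω]
  generalize lift₁ W₁ W₂ hdisj hcomm (res₁ W₁ W₂ ω) = φ at t1 ⊢
  generalize lift₂ W₁ W₂ hdisj hcomm (res₂ W₁ W₂ ω) = ψ at t2 ⊢
  by_cases hφ : φ = 1
  · by_cases hψ : ψ = 1
    · rw [hφ, hψ, mul_one (1 : ↥(W₁ ⊔ W₂) →* ℂˣ)]; exact hone
    · rw [hφ, one_mul ψ]; exact stepB ψ hψ t2
  · by_cases hψ : ψ = 1
    · rw [hψ, mul_one φ]; exact stepA φ hφ t1
    · funext g
      have h := hind φ ψ hφ hψ t1 t2 g
      rw [stepA φ hφ t1, stepB ψ hψ t2] at h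
      linear_combination -h

/-- Induction commutes with the power map `g ↦ g ^ m` for `m` coprime to `|G|`. -/
theorem indFun_pow {G : Type*} [Group G] [Fintype G] (H : Subgroup G) (β : H → ℂ) (m : ℕ)
    (hm : m.Coprime (Nat.card G)) (g : G) :
    indFun H β (g ^ m) = indFun H (fun w => β (w ^ m)) g := by
  rw [Cfsg.Agent.Helper2.indFun_apply, Cfsg.Agent.Helper2.indFun_apply]
  congr 1
  apply Finset.sum_congr rfl
  intro x _
  have e : x⁻¹ * g ^ m * x = (x⁻¹ * g * x) ^ m := by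
    have := conj_pow (i := m) (a := x⁻¹) (b := g)
    rw [inv_inv] at this
    exact this.symm
  rw [e]
  by_cases hy : x⁻¹ * g * x ∈ H
  · rw [Cfsg.Agent.Helper2.extendByZero_of_mem H _ hy,
      Cfsg.Agent.Helper2.extendByZero_of_mem H _ (H.pow_mem hy m)]
    rfl
  · rw [Cfsg.Agent.Helper2.extendByZero_of_not_mem H _ hy,
      Cfsg.Agent.Helper2.extendByZero_of_not_mem H _ ?_]
    intro hym
    have hco : m.Coprime (orderOf (x⁻¹ * g * x)) :=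
      Nat.Coprime.coprime_dvd_right (orderOf_dvd_natCard _) hm
    obtain ⟨k, hk⟩ := exists_pow_eq_self_of_coprime hco
    exact hy (hk ▸ H.pow_mem hym k)

/-- The power map `g ↦ g ^ m`, `m` coprime to `|G|`, preserves inner products. -/
theorem classInner_pow {G : Type*} [Group G] [Fintype G] (m : ℕ) (hm : m.Coprime (Nat.card G))
    (f h : G → ℂ) :
    classInner (fun g => f (g ^ m)) (fun g => h (g ^ m)) = classInner f h := by
  unfold classInner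
  congr 1
  exact Equiv.sum_comp (powCoprime hm.symm) (fun g => f g * (starRingEnd ℂ) (h g))

theorem pow_of_modEq_one {A : Type*} [Group A] (x : A) (N k : ℕ) (hx : x ^ N = 1)
    (hk : k ≡ 1 [MOD N]) : x ^ k = x := by
  have h1 : k ≡ 1 [MOD orderOf x] := hk.of_dvd (orderOf_dvd_of_pow_eq_one hx)
  have := (pow_eq_pow_iff_modEq (x := x)).mpr h1
  rw [this, pow_one]

/-- Galois equivariance of a cyclic TI family: `χ_ω (g ^ m) = χ_{ω ^ m} (g)` for `m` coprime to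
`|G|`. -/
theorem cyclicTI_galois {G : Type*} [Group G] [Fintype G] (W₁ W₂ : Subgroup G)
    (hdisj : W₁ ⊓ W₂ = ⊥) (hcomm : ∀ a ∈ W₁, ∀ b ∈ W₂, a * b = b * a)
    (hex₁ : ∃ φ₁ φ₂ : ↥(W₁ ⊔ W₂) →* ℂˣ, φ₁ ≠ 1 ∧ φ₂ ≠ 1 ∧ φ₁ ≠ φ₂ ∧
      (∀ w : ↥(W₁ ⊔ W₂), (w : G) ∈ W₂ → φ₁ w = 1) ∧ (∀ w : ↥(W₁ ⊔ W₂), (w : G) ∈ W₂ → φ₂ w = 1))
    (hex₂ : ∃ ψ₁ ψ₂ : ↥(W₁ ⊔ W₂) →* ℂˣ, ψ₁ ≠ 1 ∧ ψ₂ ≠ 1 ∧ ψ₁ ≠ ψ₂ ∧
      (∀ w : ↥(W₁ ⊔ W₂), (w : G) ∈ W₁ → ψ₁ w = 1) ∧ (∀ w : ↥(W₁ ⊔ W₂), (w : G) ∈ W₁ → ψ₂ w = 1))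
    (χ : (↥(W₁ ⊔ W₂) →* ℂˣ) → (G → ℂ)) (hχ : IsCyclicTIFamily W₁ W₂ χ)
    (m : ℕ) (hm : m.Coprime (Nat.card G)) (ω : ↥(W₁ ⊔ W₂) →* ℂˣ) (g : G) :
    χ ω (g ^ m) = χ (ω ^ m) g := by
  classical
  have hN1 : 1 < Nat.card G := by
    obtain ⟨φ₁, φ₂, hφ₁, -, -, -, -⟩ := hex₁
    by_contra hcon
    have h1 : Nat.card G = 1 := le_antisymm (not_lt.mp hcon) Nat.card_pos
    have hsub : Subsingleton G := (Nat.card_eq_one_iff_unique.mp h1).1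
    apply hφ₁
    ext w
    have : w = 1 := Subtype.ext (Subsingleton.elim _ _)
    rw [this, map_one, MonoidHom.one_apply]
  obtain ⟨m', -, hm'⟩ := Nat.exists_mul_mod_eq_one_of_coprime hm hN1
  have hmm : m * m' ≡ 1 [MOD Nat.card G] := by
    show m * m' % Nat.card G = 1 % Nat.card G
    rw [hm', Nat.mod_eq_of_lt hN1]
  have hwN : ∀ w : ↥(W₁ ⊔ W₂), w ^ Nat.card G = 1 := by
    intro w
    apply Subtype.ext
    rw [Subgroup.coe_pow, Subgroup.coe_one]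
    exact pow_card_eq_one'
  have hwmm : ∀ w : ↥(W₁ ⊔ W₂), w ^ (m * m') = w := fun w =>
    pow_of_modEq_one w _ _ (hwN w) hmm
  have hωN : ∀ ω : ↥(W₁ ⊔ W₂) →* ℂˣ, ω ^ Nat.card G = 1 := by
    intro ω
    ext w
    rw [MonoidHom.pow_apply, ← map_pow, hwN, map_one, MonoidHom.one_apply]
  have hωmm : ∀ ω : ↥(W₁ ⊔ W₂) →* ℂˣ, (ω ^ m') ^ m = ω := by
    intro ω
    have h1 : (ω ^ m') ^ m = ω ^ (m * m') := by
      rw [mul_comm m m']; exact (pow_mul ω m' m).symm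
    rw [h1]
    exact pow_of_modEq_one ω _ _ (hωN ω) hmm
  have hωmm' : ∀ ω : ↥(W₁ ⊔ W₂) →* ℂˣ, (ω ^ m) ^ m' = ω := by
    intro ω
    have h1 : (ω ^ m) ^ m' = ω ^ (m * m') := (pow_mul ω m m').symm
    rw [h1]
    exact pow_of_modEq_one ω _ _ (hωN ω) hmm
  have hone_pow : ∀ k : ℕ, (1 : ↥(W₁ ⊔ W₂) →* ℂˣ) ^ k = 1 := by
    intro k
    ext w
    rw [MonoidHom.pow_apply, MonoidHom.one_apply, one_pow]
  have hinj : ∀ ω ω' : ↥(W₁ ⊔ W₂) →* ℂˣ, ω ^ m' = ω' ^ m' → ω = ω' := by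
    intro ω ω' h
    rw [← hωmm ω, ← hωmm ω', h]
  -- the twisted family
  have huniq : χ = fun ω g => χ (ω ^ m') (g ^ m) := by
    apply cyclicTI_family_unique W₁ W₂ hdisj hcomm hex₁ hex₂ χ (fun ω g => χ (ω ^ m') (g ^ m))
      hχ.irr_or_neg
    · intro ω
      rcases hχ.irr_or_neg (ω ^ m') with h | h
      · left
        exact (char_pow_coprime m hm (Cfsg.Agent.Helper25.isCharacter_of_irr h)).2 h
      · right
        have := (char_pow_coprime m hm (Cfsg.Agent.Helper25.isCharacter_of_irr h)).2 h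
        exact this
    · intro ω ω' hne
      rw [hχ.orthonormal, if_neg hne]
    · intro ω ω' hne
      show classInner (fun g => χ (ω ^ m') (g ^ m)) (fun g => χ (ω' ^ m') (g ^ m)) = 0
      rw [classInner_pow m hm, hχ.orthonormal, if_neg (fun h => hne (hinj ω ω' h))]
    · funext g
      show χ 1 g = χ (1 ^ m') (g ^ m)
      rw [hone_pow, hχ.map_one]
    · intro φ ψ hφ hψ hφt hψt g
      show χ φ g + χ ψ g - χ (φ * ψ) g =
        χ (φ ^ m') (g ^ m) + χ (ψ ^ m') (g ^ m) - χ ((φ * ψ) ^ m') (g ^ m)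
      have h1 := congrFun (hχ.induced_eq φ ψ hφ hψ hφt hψt) g
      have hφ' : φ ^ m' ≠ 1 := by
        intro h
        apply hφ
        rw [← hωmm φ, h, hone_pow]
      have hψ' : ψ ^ m' ≠ 1 := by
        intro h
        apply hψ
        rw [← hωmm ψ, h, hone_pow]
      have hφt' : ∀ w : ↥(W₁ ⊔ W₂), (w : G) ∈ W₂ → (φ ^ m') w = 1 := by
        intro w hw
        rw [MonoidHom.pow_apply, hφt w hw, one_pow]
      have hψt' : ∀ w : ↥(W₁ ⊔ W₂), (w : G) ∈ W₁ → (ψ ^ m') w = 1 := by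
        intro w hw
        rw [MonoidHom.pow_apply, hψt w hw, one_pow]
      have h2 := congrFun (hχ.induced_eq (φ ^ m') (ψ ^ m') hφ' hψ' hφt' hψt') (g ^ m)
      rw [indFun_pow _ _ m hm g] at h2
      have e : (fun w : ↥(W₁ ⊔ W₂) => 1 - (((φ ^ m') (w ^ m) : ℂˣ) : ℂ) - (((ψ ^ m') (w ^ m) : ℂˣ) : ℂ)
          + (((φ ^ m') (w ^ m) : ℂˣ) : ℂ) * (((ψ ^ m') (w ^ m) : ℂˣ) : ℂ)) =
          (fun w : ↥(W₁ ⊔ W₂) => 1 - ((φ w : ℂˣ) : ℂ) - ((ψ w : ℂˣ) : ℂ)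
          + ((φ w : ℂˣ) : ℂ) * ((ψ w : ℂˣ) : ℂ)) := by
        funext w
        have a1 : (φ ^ m') (w ^ m) = φ w := by
          rw [MonoidHom.pow_apply, ← map_pow, ← pow_mul, hwmm w]
        have a2 : (ψ ^ m') (w ^ m) = ψ w := by
          rw [MonoidHom.pow_apply, ← map_pow, ← pow_mul, hwmm w]
        rw [a1, a2]
      rw [e, h1] at h2
      rw [show (φ * ψ) ^ m' = φ ^ m' * ψ ^ m' from mul_pow φ ψ m']
      linear_combination -h2
  calc χ ω (g ^ m) = χ ((ω ^ m) ^ m') (g ^ m) := by rw [hωmm']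
    _ = χ (ω ^ m) g := (congrFun (congrFun huniq (ω ^ m)) g).symm

/-- Chinese remainder theorem with a coprimality side condition. -/
theorem exists_coprime_crt (N a b k : ℕ) (hN : N ≠ 0) (ha : a ∣ N) (hb : b ∣ N)
    (hab : a.Coprime b) (hk : k.Coprime N) :
    ∃ m, m.Coprime N ∧ m ≡ k [MOD a] ∧ m ≡ 1 [MOD b] := by
  have : NeZero N := ⟨hN⟩
  have hd : a * b ∣ N := Nat.Coprime.mul_dvd_of_dvd_of_dvd hab ha hb
  obtain ⟨x, hxa, hxb⟩ := Nat.chineseRemainder hab k 1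
  have hx : x.Coprime (a * b) := by
    apply Nat.Coprime.mul_right
    · have h1 : Nat.gcd x a = Nat.gcd k a := hxa.gcd_eq
      have h2 : k.Coprime a := Nat.Coprime.coprime_dvd_right ha hk
      show Nat.gcd x a = 1
      rw [h1]; exact h2
    · have h1 : Nat.gcd x b = Nat.gcd 1 b := hxb.gcd_eq
      show Nat.gcd x b = 1
      rw [h1]; exact Nat.gcd_one_left b
  obtain ⟨v, hv⟩ := ZMod.unitsMap_surjective hd (ZMod.unitOfCoprime x hx)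
  refine ⟨(v : ZMod N).val, ZMod.val_coe_unit_coprime v, ?_, ?_⟩
  all_goals
    have h3 : (((v : ZMod N).val : ℕ) : ZMod (a * b)) = (x : ZMod (a * b)) := by
      have := congrArg (fun u : (ZMod (a * b))ˣ => (u : ZMod (a * b))) hv
      simp only [ZMod.unitsMap_val, ZMod.coe_unitOfCoprime] at this
      rw [ZMod.natCast_val]
      exact this
    have h4 : (v : ZMod N).val ≡ x [MOD a * b] := (ZMod.natCast_eq_natCast_iff _ _ _).mp h3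
  · exact (Nat.ModEq.of_mul_right b h4).trans hxa
  · exact (Nat.ModEq.of_mul_left a h4).trans hxb

/-- A character value `χ(g)` with `χ(g ^ k) = χ(g)` for all `k` coprime to `|G|` is an integer. -/
theorem char_int_of_pow_invariant {G : Type*} [Group G] [Finite G] {n : ℕ}
    (ρ : Representation ℂ G (Fin n → ℂ)) (g : G)
    (h : ∀ k : ℕ, k.Coprime (Nat.card G) → ρ.character (g ^ k) = ρ.character g) :
    ∃ z : ℤ, ρ.character g = (z : ℂ) := by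
  have : NeZero (Nat.card G) := ⟨Nat.card_pos.ne'⟩
  obtain ⟨d, μ, hμ, hpow⟩ := Cfsg.Agent.Helper2.char_pow_eig ρ g
  obtain ⟨y, hyint, hy⟩ := Cfsg.Agent.Helper2.cyc_sum (Nat.card G) μ hμ
  have hval : ∀ σ : CyclotomicField (Nat.card G) ℚ ≃ₐ[ℚ] CyclotomicField (Nat.card G) ℚ,
      Cfsg.Agent.Helper2.cycEmb (Nat.card G) (σ y) = ρ.character g := by
    intro σ
    rw [hy σ, ← hpow, h _ (Cfsg.Agent.Helper2.galExp_coprime (Nat.card G) σ)]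
  have hy1 : Cfsg.Agent.Helper2.cycEmb (Nat.card G) y = ρ.character g := by
    have := hval AlgEquiv.refl
    simpa using this
  have hfix : ∀ σ : CyclotomicField (Nat.card G) ℚ ≃ₐ[ℚ] CyclotomicField (Nat.card G) ℚ,
      σ y = y := by
    intro σ
    apply (Cfsg.Agent.Helper2.cycEmb (Nat.card G)).toRingHom.injective
    show Cfsg.Agent.Helper2.cycEmb (Nat.card G) (σ y) = Cfsg.Agent.Helper2.cycEmb (Nat.card G) y
    rw [hval σ, hy1]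
  have hgal : IsGalois ℚ (CyclotomicField (Nat.card G) ℚ) :=
    IsCyclotomicExtension.isGalois {Nat.card G} ℚ (CyclotomicField (Nat.card G) ℚ)
  obtain ⟨q, hq⟩ := (IsGalois.mem_range_algebraMap_iff_fixed y).mpr hfix
  have hqint : IsIntegral ℤ q := by
    rw [← hq] at hyint
    exact (isIntegral_algebraMap_iff (algebraMap ℚ (CyclotomicField (Nat.card G) ℚ)).injective).mp
      hyint
  obtain ⟨z, hz⟩ := IsIntegrallyClosed.isIntegral_iff.mp hqint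
  refine ⟨z, ?_⟩
  rw [← hy1, ← hq, AlgHom.commutes, ← hz]
  simp

/-- A finite abelian group of order at least `3` has two distinct nontrivial linear characters. -/
theorem exists_two_nontrivial_hom (A : Type*) [Group A] [Finite A]
    (hab : ∀ a b : A, a * b = b * a) (h3 : 3 ≤ Nat.card A) :
    ∃ x y : A →* ℂˣ, x ≠ 1 ∧ y ≠ 1 ∧ x ≠ y := by
  classical
  have hc := card_hom_of_comm hab
  have hfin : Finite (A →* ℂˣ) := Nat.finite_of_card_ne_zero (by rw [hc]; omega)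
  let _ : Fintype (A →* ℂˣ) := Fintype.ofFinite _
  have h2 : 2 < Fintype.card (A →* ℂˣ) := by
    rw [← Nat.card_eq_fintype_card, hc]; omega
  obtain ⟨a, b, c, hab', hac, hbc⟩ := Fintype.two_lt_card_iff.mp h2
  by_cases ha : a = 1
  · exact ⟨b, c, fun h => hab' (ha.trans h.symm), fun h => hac (ha.trans h.symm), hbc⟩
  · by_cases hb : b = 1
    · exact ⟨a, c, ha, fun h => hbc (hb.trans h.symm), hac⟩
    · exact ⟨a, b, ha, hb, hab'⟩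

theorem exists_two_lift₁ {G : Type*} [Group G] (W₁ W₂ : Subgroup G) [Finite W₁]
    (hdisj : W₁ ⊓ W₂ = ⊥) (hcomm : ∀ a ∈ W₁, ∀ b ∈ W₂, a * b = b * a)
    (hab : ∀ a b : W₁, a * b = b * a) (h3 : 3 ≤ Nat.card W₁) :
    ∃ φ₁ φ₂ : ↥(W₁ ⊔ W₂) →* ℂˣ, φ₁ ≠ 1 ∧ φ₂ ≠ 1 ∧ φ₁ ≠ φ₂ ∧
      (∀ w : ↥(W₁ ⊔ W₂), (w : G) ∈ W₂ → φ₁ w = 1) ∧ (∀ w : ↥(W₁ ⊔ W₂), (w : G) ∈ W₂ → φ₂ w = 1) := by
  obtain ⟨x, y, hx, hy, hxy⟩ := exists_two_nontrivial_hom W₁ hab h3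
  have hinj : ∀ u v : W₁ →* ℂˣ, lift₁ W₁ W₂ hdisj hcomm u = lift₁ W₁ W₂ hdisj hcomm v → u = v := by
    intro u v h
    ext a
    have h1 := lift₁_of_mem_left W₁ W₂ hdisj hcomm u ⟨(a : G), le_sup_left (b := W₂) a.2⟩ a.2
    have h2 := lift₁_of_mem_left W₁ W₂ hdisj hcomm v ⟨(a : G), le_sup_left (b := W₂) a.2⟩ a.2
    rw [h] at h1
    rw [h1] at h2
    exact congrArg Units.val h2
  have hone : lift₁ W₁ W₂ hdisj hcomm (1 : W₁ →* ℂˣ) = 1 := by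
    ext w
    rfl
  refine ⟨lift₁ W₁ W₂ hdisj hcomm x, lift₁ W₁ W₂ hdisj hcomm y, ?_, ?_, ?_,
    fun w hw => lift₁_of_mem_right W₁ W₂ hdisj hcomm x w hw,
    fun w hw => lift₁_of_mem_right W₁ W₂ hdisj hcomm y w hw⟩
  · intro h; exact hx (hinj x 1 (h.trans hone.symm))
  · intro h; exact hy (hinj y 1 (h.trans hone.symm))
  · intro h; exact hxy (hinj x y h)

theorem exists_two_lift₂ {G : Type*} [Group G] (W₁ W₂ : Subgroup G) [Finite W₂]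
    (hdisj : W₁ ⊓ W₂ = ⊥) (hcomm : ∀ a ∈ W₁, ∀ b ∈ W₂, a * b = b * a)
    (hab : ∀ a b : W₂, a * b = b * a) (h3 : 3 ≤ Nat.card W₂) :
    ∃ ψ₁ ψ₂ : ↥(W₁ ⊔ W₂) →* ℂˣ, ψ₁ ≠ 1 ∧ ψ₂ ≠ 1 ∧ ψ₁ ≠ ψ₂ ∧
      (∀ w : ↥(W₁ ⊔ W₂), (w : G) ∈ W₁ → ψ₁ w = 1) ∧ (∀ w : ↥(W₁ ⊔ W₂), (w : G) ∈ W₁ → ψ₂ w = 1) := by
  obtain ⟨x, y, hx, hy, hxy⟩ := exists_two_nontrivial_hom W₂ hab h3
  have hinj : ∀ u v : W₂ →* ℂˣ, lift₂ W₁ W₂ hdisj hcomm u = lift₂ W₁ W₂ hdisj hcomm v → u = v := by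
    intro u v h
    ext a
    have h1 := lift₂_of_mem_right W₁ W₂ hdisj hcomm u ⟨(a : G), le_sup_right (a := W₁) a.2⟩ a.2
    have h2 := lift₂_of_mem_right W₁ W₂ hdisj hcomm v ⟨(a : G), le_sup_right (a := W₁) a.2⟩ a.2
    rw [h] at h1
    rw [h1] at h2
    exact congrArg Units.val h2
  have hone : lift₂ W₁ W₂ hdisj hcomm (1 : W₂ →* ℂˣ) = 1 := by
    ext w
    rfl
  refine ⟨lift₂ W₁ W₂ hdisj hcomm x, lift₂ W₁ W₂ hdisj hcomm y, ?_, ?_, ?_,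
    fun w hw => lift₂_of_mem_left W₁ W₂ hdisj hcomm x w hw,
    fun w hw => lift₂_of_mem_left W₁ W₂ hdisj hcomm y w hw⟩
  · intro h; exact hx (hinj x 1 (h.trans hone.symm))
  · intro h; exact hy (hinj y 1 (h.trans hone.symm))
  · intro h; exact hxy (hinj x y h)

/-- The values of a cyclic TI family at elements of order prime to the order of the index
character are integers. -/
theorem cyclicTI_int {G : Type*} [Group G] [Fintype G] (W₁ W₂ : Subgroup G)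
    (hW : IsSelfNormalizingCyclic W₁ W₂) (hodd : Odd (Nat.card ↥(W₁ ⊔ W₂)))
    (χ : (↥(W₁ ⊔ W₂) →* ℂˣ) → (G → ℂ)) (hχ : IsCyclicTIFamily W₁ W₂ χ)
    (ω : ↥(W₁ ⊔ W₂) →* ℂˣ) (g : G) (hg : Nat.Coprime (orderOf g) (orderOf ω)) :
    ∃ n : ℤ, χ ω g = n := by
  classical
  obtain ⟨hW1, hW2, hdisj, hcomm, hcyc, -⟩ := hW
  have hWcomm : ∀ a b : ↥(W₁ ⊔ W₂), a * b = b * a := fun a b =>
    (IsCyclic.isMulCommutative (α := ↥(W₁ ⊔ W₂))).is_comm.comm a b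
  have hab₁ : ∀ a b : W₁, a * b = b * a := by
    intro a b
    have := hWcomm ⟨a, le_sup_left (b := W₂) a.2⟩ ⟨b, le_sup_left (b := W₂) b.2⟩
    have h' : (a : G) * (b : G) = (b : G) * (a : G) := congrArg Subtype.val this
    exact Subtype.ext h'
  have hab₂ : ∀ a b : W₂, a * b = b * a := by
    intro a b
    have := hWcomm ⟨a, le_sup_right (a := W₁) a.2⟩ ⟨b, le_sup_right (a := W₁) b.2⟩
    have h' : (a : G) * (b : G) = (b : G) * (a : G) := congrArg Subtype.val this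
    exact Subtype.ext h'
  have three : ∀ K : Subgroup G, K ≤ W₁ ⊔ W₂ → K ≠ ⊥ → 3 ≤ Nat.card K := by
    intro K hK hne
    have h1 : Nat.card K ≠ 1 := fun h => hne (Subgroup.eq_bot_of_card_eq K h)
    have h2 : Odd (Nat.card K) := Odd.of_dvd_nat hodd (Subgroup.card_dvd_of_le hK)
    obtain ⟨k, hk⟩ := h2
    omega
  have hex₁ := exists_two_lift₁ W₁ W₂ hdisj hcomm hab₁ (three W₁ le_sup_left hW1)
  have hex₂ := exists_two_lift₂ W₁ W₂ hdisj hcomm hab₂ (three W₂ le_sup_right hW2)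
  have gal := cyclicTI_galois W₁ W₂ hdisj hcomm hex₁ hex₂ χ hχ
  have hωN : orderOf ω ∣ Nat.card G := by
    apply orderOf_dvd_of_pow_eq_one
    ext w
    have hw : w ^ Nat.card G = 1 := by
      apply Subtype.ext
      rw [Subgroup.coe_pow, Subgroup.coe_one]
      exact pow_card_eq_one'
    rw [MonoidHom.pow_apply, ← map_pow, hw, map_one, MonoidHom.one_apply]
  have hinv : ∀ k : ℕ, k.Coprime (Nat.card G) → χ ω (g ^ k) = χ ω g := by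
    intro k hk
    obtain ⟨m, hm, hmk, hm1⟩ := exists_coprime_crt (Nat.card G) (orderOf g) (orderOf ω) k
      Nat.card_pos.ne' (orderOf_dvd_natCard g) hωN hg hk
    have e1 : g ^ m = g ^ k := (pow_eq_pow_iff_modEq).mpr hmk
    have e2 : ω ^ m = ω := by
      have h1 : ω ^ m = ω ^ 1 := (pow_eq_pow_iff_modEq (x := ω)).mpr hm1
      exact h1.trans (pow_one ω)
    rw [← e1, gal m hm ω g, e2]
  rcases hχ.irr_or_neg ω with h | h
  · obtain ⟨n, ρ, -, hρ⟩ := h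
    obtain ⟨z, hz⟩ := char_int_of_pow_invariant ρ g (by intro k hk; rw [hρ]; exact hinv k hk)
    exact ⟨z, by rw [← hρ]; exact hz⟩
  · obtain ⟨n, ρ, -, hρ⟩ := h
    obtain ⟨z, hz⟩ := char_int_of_pow_invariant ρ g (by
      intro k hk; rw [hρ]; simp only [Pi.neg_apply]; rw [hinv k hk])
    refine ⟨-z, ?_⟩
    have h1 : χ ω g = -(ρ.character g) := by rw [hρ]; simp
    rw [h1, hz]; push_cast; ring

end Cfsg.Agent.Helper11
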