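import Cfsg.Prelude.Def_OddOrderChar
import Cfsg.Agent.Helper11.Basic

set_option autoImplicit false

namespace Cfsg.Agent.Helper11

open Cfsg Finset

section

variable {G : Type*} [Group G] {A : Set G} {L : Subgroup G} {H : G → Subgroup G}

theorem dade_mem_CL (hD : DadeHypothesis A L H) {a : G} (ha : a ∈ A) :
    a ∈ L ⊓ Subgroup.centralizer ({a} : Set G) := by
  refine Subgroup.mem_inf.mpr ⟨hD.subset ha, ?_⟩
  rw [Subgroup.mem_centralizer_singleton_iff]

theorem dade_commute (hD : DadeHypothesis A L H) {a : G} (ha : a ∈ A) {u : G} (hu : u ∈ H a) :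
    Commute a u := by
  have := hD.le_centralizer a ha hu
  rw [Subgroup.mem_centralizer_singleton_iff] at this
  exact this.symm

/-- If `g (a u) g⁻¹ = b v` then `g a g⁻¹ = b`. -/
theorem dade_conj (hD : DadeHypothesis A L H) {a b : G} (ha : a ∈ A) (hb : b ∈ A)
    {u v g : G} (hu : u ∈ H a) (hv : v ∈ H b) (hg : g * (a * u) * g⁻¹ = b * v) :
    g * a * g⁻¹ = b := by
  set m := Nat.card ↥(L ⊓ Subgroup.centralizer ({a} : Set G)) *
    Nat.card ↥(L ⊓ Subgroup.centralizer ({b} : Set G)) with hm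
  set n := Nat.card (H a) * Nat.card (H b) with hn
  have hmn : m.Coprime n := by
    rw [hm, hn]
    apply Nat.Coprime.mul_left
    · apply Nat.Coprime.mul_right
      · exact (hD.coprime a ha a ha).symm
      · exact (hD.coprime b hb a ha).symm
    · apply Nat.Coprime.mul_right
      · exact (hD.coprime a ha b hb).symm
      · exact (hD.coprime b hb b hb).symm
  obtain ⟨k, hk⟩ := exists_pow_eq_left m n hmn
  have ham : a ^ m = 1 := by
    rw [hm, pow_mul, pow_card_subgroup_eq_one _ (dade_mem_CL hD ha), one_pow]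
  have hbm : b ^ m = 1 := by
    rw [hm, mul_comm, pow_mul, pow_card_subgroup_eq_one _ (dade_mem_CL hD hb), one_pow]
  have hun : u ^ n = 1 := by
    rw [hn, pow_mul, pow_card_subgroup_eq_one _ hu, one_pow]
  have hvn : v ^ n = 1 := by
    rw [hn, mul_comm, pow_mul, pow_card_subgroup_eq_one _ hv, one_pow]
  have h1 : (a * u) ^ k = a := hk a u (dade_commute hD ha hu) ham hun
  have h2 : (b * v) ^ k = b := hk b v (dade_commute hD hb hv) hbm hvn
  rw [← h1, ← conj_pow', hg, h2]

/-- An element of `C(a)` of order coprime to `|C_L(a)|` lies in `H a`. -/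
theorem dade_mem_H_of_coprime (hD : DadeHypothesis A L H) {a : G} (ha : a ∈ A) {k : G}
    (hk : k ∈ Subgroup.centralizer ({a} : Set G))
    (hcop : (orderOf k).Coprime (Nat.card ↥(L ⊓ Subgroup.centralizer ({a} : Set G)))) :
    k ∈ H a :=
  mem_of_sup_eq_of_coprime (Subgroup.centralizer ({a} : Set G)) (H a)
    (L ⊓ Subgroup.centralizer ({a} : Set G)) (hD.conj_mem_H a ha) (hD.sup_eq a ha) k hk hcop

/-- Conjugating `H a` by any `t` with `t a t⁻¹ ∈ A` lands in `H (t a t⁻¹)`. -/
theorem dade_conj_mem_H (hD : DadeHypothesis A L H) {a : G} (ha : a ∈ A) {t : G}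
    (hb : t * a * t⁻¹ ∈ A) {u : G} (hu : u ∈ H a) : t * u * t⁻¹ ∈ H (t * a * t⁻¹) := by
  have hua : u * a = a * u := (dade_commute hD ha hu).eq.symm
  have h1 : t * u * t⁻¹ ∈ Subgroup.centralizer ({t * a * t⁻¹} : Set G) := by
    rw [Subgroup.mem_centralizer_singleton_iff]
    calc t * u * t⁻¹ * (t * a * t⁻¹) = t * (u * a) * t⁻¹ := by group
      _ = t * (a * u) * t⁻¹ := by rw [hua]
      _ = t * a * t⁻¹ * (t * u * t⁻¹) := by group
  have h2 : (orderOf (t * u * t⁻¹)).Coprime
      (Nat.card ↥(L ⊓ Subgroup.centralizer ({t * a * t⁻¹} : Set G))) := by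
    rw [orderOf_conj']
    exact Nat.Coprime.coprime_dvd_left (orderOf_dvd_of_pow_eq_one
      (pow_card_subgroup_eq_one _ hu)) (hD.coprime a ha _ hb)
  exact dade_mem_H_of_coprime hD hb h1 h2

theorem dade_card_H_conj (hD : DadeHypothesis A L H) {a : G} (ha : a ∈ A) {t : G}
    (hb : t * a * t⁻¹ ∈ A) : Nat.card (H (t * a * t⁻¹)) = Nat.card (H a) := by
  have e : H (t * a * t⁻¹) = (H a).map (MulAut.conj t).toMonoidHom := by
    apply le_antisymm
    · intro v hv
      have hb' : t⁻¹ * (t * a * t⁻¹) * t⁻¹⁻¹ ∈ A := by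
        have : t⁻¹ * (t * a * t⁻¹) * t⁻¹⁻¹ = a := by group
        rw [this]; exact ha
      have h3 := dade_conj_mem_H hD hb hb' hv
      have e1 : t⁻¹ * (t * a * t⁻¹) * t⁻¹⁻¹ = a := by group
      rw [e1] at h3
      refine ⟨t⁻¹ * v * t⁻¹⁻¹, h3, ?_⟩
      show t * (t⁻¹ * v * t⁻¹⁻¹) * t⁻¹ = v
      group
    · rintro _ ⟨u, hu, rfl⟩
      have := dade_conj_mem_H hD ha hb hu
      simpa [MulAut.conj_apply] using this
  rw [e]
  exact Subgroup.card_map_of_injective (MulAut.conj t).injective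

end

/-- Product decomposition inside a subgroup `C = N ⊔ K` with `N` normalised by `C`. -/
theorem exists_mul_of_sup_eq {G : Type*} [Group G] (C N K : Subgroup G)
    (hnorm : ∀ c ∈ C, ∀ u ∈ N, c * u * c⁻¹ ∈ N) (hsup : N ⊔ K = C) (c : G) (hc : c ∈ C) :
    ∃ k ∈ K, ∃ n ∈ N, c = k * n := by
  have hNC : N ≤ C := hsup ▸ le_sup_left
  have hKC : K ≤ C := hsup ▸ le_sup_right
  have : (N.subgroupOf C).Normal := by
    constructor
    intro n hn g
    rw [Subgroup.mem_subgroupOf] at hn ⊢
    exact hnorm g g.2 n hn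
  have hsup' : K.subgroupOf C ⊔ N.subgroupOf C = ⊤ := by
    rw [← Subgroup.subgroupOf_sup hKC hNC, sup_comm, hsup, Subgroup.subgroupOf_self]
  have hmem : (⟨c, hc⟩ : C) ∈ ((K.subgroupOf C ⊔ N.subgroupOf C : Subgroup C) : Set C) := by
    rw [hsup']; trivial
  rw [Subgroup.mul_normal] at hmem
  obtain ⟨k, hk, n, hn, hkn⟩ := Set.mem_mul.mp hmem
  refine ⟨k, Subgroup.mem_subgroupOf.mp hk, n, Subgroup.mem_subgroupOf.mp hn, ?_⟩
  have := congrArg (Subtype.val) hkn
  simpa using this.symm

open scoped Classical in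
/-- The number of `t` with `t a t⁻¹ ∈ A` is `|L| * |H a|`. -/
theorem dade_card_T {G : Type*} [Group G] [Fintype G] {A : Set G} {L : Subgroup G}
    {H : G → Subgroup G} (hD : DadeHypothesis A L H) {a : G} (ha : a ∈ A) :
    (univ.filter (fun t : G => t * a * t⁻¹ ∈ A)).card = Nat.card L * Nat.card (H a) := by
  have hL : Nat.card L = (univ.filter (fun y : G => y ∈ L)).card := by
    rw [Nat.card_eq_fintype_card, Fintype.card_subtype]
  have hH : Nat.card (H a) = (univ.filter (fun y : G => y ∈ H a)).card := by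
    rw [Nat.card_eq_fintype_card, Fintype.card_subtype]
  rw [hL, hH, ← Finset.card_product]
  symm
  have himg : (univ.filter (fun t : G => t * a * t⁻¹ ∈ A)) =
      ((univ.filter (fun y : G => y ∈ L)) ×ˢ (univ.filter (fun y : G => y ∈ H a))).image
        (fun p : G × G => p.1 * p.2) := by
    ext t
    simp only [Finset.mem_filter, Finset.mem_univ, true_and, Finset.mem_image, Finset.mem_product,
      Prod.exists]
    constructor
    · intro ht
      obtain ⟨y, hy, hya⟩ := hD.fusion a ha t ht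
      have hc : y⁻¹ * t ∈ Subgroup.centralizer ({a} : Set G) := by
        rw [Subgroup.mem_centralizer_singleton_iff]
        have : y⁻¹ * (y * a * y⁻¹) * y = y⁻¹ * (t * a * t⁻¹) * y := by rw [hya]
        have h2 : a = y⁻¹ * t * a * t⁻¹ * y := by simpa [mul_assoc] using this
        calc y⁻¹ * t * a = (y⁻¹ * t * a * t⁻¹ * y) * (y⁻¹ * t) := by group
          _ = a * (y⁻¹ * t) := by rw [← h2]
      obtain ⟨k, hk, n, hn, hkn⟩ := exists_mul_of_sup_eq (Subgroup.centralizer ({a} : Set G)) (H a)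
        (L ⊓ Subgroup.centralizer ({a} : Set G)) (hD.conj_mem_H a ha) (hD.sup_eq a ha) _ hc
      refine ⟨y * k, n, ⟨L.mul_mem hy (Subgroup.mem_inf.mp hk).1, hn⟩, ?_⟩
      calc y * k * n = y * (k * n) := by group
        _ = y * (y⁻¹ * t) := by rw [hkn]
        _ = t := by group
    · rintro ⟨y, v, ⟨hy, hv⟩, rfl⟩
      have hva : v * a = a * v := (dade_commute hD ha hv).eq.symm
      have : y * v * a * (y * v)⁻¹ = y * a * y⁻¹ := by
        calc y * v * a * (y * v)⁻¹ = y * (v * a) * v⁻¹ * y⁻¹ := by group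
          _ = y * (a * v) * v⁻¹ * y⁻¹ := by rw [hva]
          _ = y * a * y⁻¹ := by group
      rw [this]
      exact hD.conj_mem y hy a ha
  rw [himg]
  symm
  apply Finset.card_image_of_injOn
  rintro ⟨y, v⟩ hyv ⟨y', v'⟩ hyv' heq
  simp only [Finset.coe_product, Finset.coe_filter, Finset.mem_univ, true_and, Set.mem_prod,
    Set.mem_setOf_eq] at hyv hyv'
  simp only at heq
  have h1 : y'⁻¹ * y = v' * v⁻¹ := by
    calc y'⁻¹ * y = y'⁻¹ * (y * v) * v⁻¹ := by group
      _ = y'⁻¹ * (y' * v') * v⁻¹ := by rw [heq]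
      _ = v' * v⁻¹ := by group
  have h2 : v' * v⁻¹ ∈ H a := (H a).mul_mem hyv'.2 ((H a).inv_mem hyv.2)
  have h3 : v' * v⁻¹ ∈ L := by rw [← h1]; exact L.mul_mem (L.inv_mem hyv'.1) hyv.1
  have h4 : v' * v⁻¹ ∈ H a ⊓ (L ⊓ Subgroup.centralizer ({a} : Set G)) :=
    Subgroup.mem_inf.mpr ⟨h2, Subgroup.mem_inf.mpr ⟨h3, hD.le_centralizer a ha h2⟩⟩
  rw [hD.inf_eq_bot a ha, Subgroup.mem_bot] at h4
  have hv : v' = v := mul_inv_eq_one.mp h4
  have hy : y' = y := by
    rw [h4] at h1
    exact (inv_mul_eq_one.mp h1)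
  rw [hv, hy]

open scoped Classical in
/-- Weight function on `G`: `1/|H a|` on the coset `a H(a)` (`a ∈ A`), zero elsewhere. -/
noncomputable def dadeWeight {G : Type*} [Group G] [Fintype G] (A : Set G) (H : G → Subgroup G)
    (w : G) : ℂ :=
  ∑ a ∈ univ.filter (fun a : G => a ∈ A), ∑ u ∈ univ.filter (fun u : G => u ∈ H a),
    if a * u = w then ((Nat.card (H a) : ℂ))⁻¹ else 0

open scoped Classical in
theorem dadeWeight_conj {G : Type*} [Group G] [Fintype G] {A : Set G} {L : Subgroup G}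
    {H : G → Subgroup G} (hD : DadeHypothesis A L H) {a₀ : G} (ha₀ : a₀ ∈ A) {u₀ : G}
    (hu₀ : u₀ ∈ H a₀) (t : G) :
    dadeWeight A H (t * (a₀ * u₀) * t⁻¹) =
      if t * a₀ * t⁻¹ ∈ A then ((Nat.card (H a₀) : ℂ))⁻¹ else 0 := by
  by_cases hb : t * a₀ * t⁻¹ ∈ A
  · rw [if_pos hb]
    unfold dadeWeight
    rw [Finset.sum_eq_single (t * a₀ * t⁻¹)]
    · rw [Finset.sum_eq_single (t * u₀ * t⁻¹)]
      · rw [if_pos (by group), dade_card_H_conj hD ha₀ hb]
      · intro u _ hne
        rw [if_neg]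
        intro h
        apply hne
        have : u = (t * a₀ * t⁻¹)⁻¹ * (t * (a₀ * u₀) * t⁻¹) := by rw [← h]; group
        rw [this]; group
      · intro hnot
        exfalso
        apply hnot
        simp only [Finset.mem_filter, Finset.mem_univ, true_and]
        exact dade_conj_mem_H hD ha₀ hb hu₀
    · intro a haA hne
      apply Finset.sum_eq_zero
      intro u hu
      rw [if_neg]
      intro h
      apply hne
      simp only [Finset.mem_filter, Finset.mem_univ, true_and] at haA hu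
      exact (dade_conj hD ha₀ haA hu₀ hu h.symm).symm
    · intro hnot
      exfalso
      apply hnot
      simp only [Finset.mem_filter, Finset.mem_univ, true_and]
      exact hb
  · rw [if_neg hb]
    unfold dadeWeight
    apply Finset.sum_eq_zero
    intro a haA
    apply Finset.sum_eq_zero
    intro u hu
    rw [if_neg]
    intro h
    simp only [Finset.mem_filter, Finset.mem_univ, true_and] at haA hu
    apply hb
    rw [dade_conj hD ha₀ haA hu₀ hu h.symm]
    exact haA

open scoped Classical in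
/-- The Dade counting formula for a class function `F` of `G`. -/
theorem dade_count {G : Type*} [Group G] [Fintype G] {A : Set G} {L : Subgroup G}
    {H : G → Subgroup G} (hD : DadeHypothesis A L H) (F : G → ℂ)
    (hF : ∀ g x : G, F (x * g * x⁻¹) = F g) :
    (Nat.card L : ℂ) * ∑ g ∈ univ.filter
        (fun g : G => ∃ a ∈ A, ∃ u ∈ H a, ∃ x : G, x * g * x⁻¹ = a * u), F g =
      (Nat.card G : ℂ) * ∑ a ∈ univ.filter (fun a : G => a ∈ A),
        ((Nat.card (H a) : ℂ))⁻¹ * ∑ u ∈ univ.filter (fun u : G => u ∈ H a), F (a * u) := by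
  have hI : ∑ g : G, ∑ x : G, dadeWeight A H (x * g * x⁻¹) * F g =
      (Nat.card G : ℂ) * ∑ a ∈ univ.filter (fun a : G => a ∈ A),
        ((Nat.card (H a) : ℂ))⁻¹ * ∑ u ∈ univ.filter (fun u : G => u ∈ H a), F (a * u) := by
    rw [Finset.sum_comm]
    have h1 : ∀ x : G, ∑ g : G, dadeWeight A H (x * g * x⁻¹) * F g =
        ∑ w : G, dadeWeight A H w * F w := by
      intro x
      rw [← Equiv.sum_comp (MulAut.conj x).toEquiv (fun w => dadeWeight A H w * F w)]
      apply Finset.sum_congr rfl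
      intro g _
      show _ = dadeWeight A H (x * g * x⁻¹) * F (x * g * x⁻¹)
      rw [hF]
    rw [Finset.sum_congr rfl (fun x _ => h1 x), Finset.sum_const, Finset.card_univ, nsmul_eq_mul,
      Nat.card_eq_fintype_card]
    congr 1
    unfold dadeWeight
    simp_rw [Finset.sum_mul]
    rw [Finset.sum_comm]
    apply Finset.sum_congr rfl
    intro a _
    rw [Finset.sum_comm, Finset.mul_sum]
    apply Finset.sum_congr rfl
    intro u _
    simp [ite_mul]
  have hII : ∑ g : G, ∑ x : G, dadeWeight A H (x * g * x⁻¹) * F g =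
      (Nat.card L : ℂ) * ∑ g ∈ univ.filter
        (fun g : G => ∃ a ∈ A, ∃ u ∈ H a, ∃ x : G, x * g * x⁻¹ = a * u), F g := by
    have h2 : ∀ g : G, ∑ x : G, dadeWeight A H (x * g * x⁻¹) * F g =
        if (∃ a ∈ A, ∃ u ∈ H a, ∃ x : G, x * g * x⁻¹ = a * u) then (Nat.card L : ℂ) * F g
        else 0 := by
      intro g
      by_cases hg : ∃ a ∈ A, ∃ u ∈ H a, ∃ x : G, x * g * x⁻¹ = a * u
      · rw [if_pos hg]
        obtain ⟨a₀, ha₀, u₀, hu₀, x₀, hx₀⟩ := hg
        rw [← Finset.sum_mul]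
        congr 1
        rw [← Equiv.sum_comp (Equiv.mulRight x₀) (fun x => dadeWeight A H (x * g * x⁻¹))]
        have h3 : ∀ t : G, dadeWeight A H ((Equiv.mulRight x₀ t) * g * (Equiv.mulRight x₀ t)⁻¹) =
            if t * a₀ * t⁻¹ ∈ A then ((Nat.card (H a₀) : ℂ))⁻¹ else 0 := by
          intro t
          rw [← dadeWeight_conj hD ha₀ hu₀ t, ← hx₀]
          congr 1
          show t * x₀ * g * (t * x₀)⁻¹ = t * (x₀ * g * x₀⁻¹) * t⁻¹
          group
        rw [Finset.sum_congr rfl (fun t _ => h3 t), ← Finset.sum_filter, Finset.sum_const,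
          dade_card_T hD ha₀, nsmul_eq_mul]
        have hH0 : (Nat.card (H a₀) : ℂ) ≠ 0 := Nat.cast_ne_zero.mpr Nat.card_pos.ne'
        push_cast
        field_simp
      · rw [if_neg hg]
        apply Finset.sum_eq_zero
        intro x _
        have h0 : dadeWeight A H (x * g * x⁻¹) = 0 := by
          unfold dadeWeight
          apply Finset.sum_eq_zero
          intro a ha
          apply Finset.sum_eq_zero
          intro u hu
          rw [if_neg]
          intro h
          simp only [Finset.mem_filter, Finset.mem_univ, true_and] at ha hu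
          exact hg ⟨a, ha, u, hu, x, h.symm⟩
        rw [h0, zero_mul]
    rw [Finset.sum_congr rfl (fun g _ => h2 g), ← Finset.sum_filter, Finset.mul_sum]
  rw [← hII, hI]

end Cfsg.Agent.Helper11
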