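import Cfsg.Prelude.Def_OddOrderChar
import Cfsg.Agent.Helper11.Dade

set_option autoImplicit false

namespace Cfsg.Agent.Helper11

open Cfsg Finset

section

variable {G : Type*} [Group G] {A : Set G} {L : Subgroup G} {H : G → Subgroup G}

/-- Value of the Dade map at an element conjugate into `a H(a)`. -/
theorem dadeIsometry_apply [Finite G] (hD : DadeHypothesis A L H) (α : L → ℂ)
    (hα : IsClassFunction L α) {a : G} (ha : a ∈ A) {u : G} (hu : u ∈ H a) {g x : G}
    (hx : x * g * x⁻¹ = a * u) :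
    dadeIsometry A L H α g = α ⟨a, hD.subset ha⟩ := by
  classical
  have h : ∃ a' : ↥L, (a' : G) ∈ A ∧ ∃ x' : G, ∃ u' ∈ H (a' : G), x' * g * x'⁻¹ = (a' : G) * u' :=
    ⟨⟨a, hD.subset ha⟩, ha, x, u, hu, hx⟩
  unfold dadeIsometry
  rw [dif_pos h]
  obtain ⟨ha', x', u', hu', hx'⟩ := Classical.choose_spec h
  set a' := Classical.choose h with ha'def
  have h1 : (x' * x⁻¹) * (a * u) * (x' * x⁻¹)⁻¹ = (a' : G) * u' := by
    rw [← hx, ← hx']; group
  have h2 := dade_conj hD ha ha' hu hu' h1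
  obtain ⟨y, hy, hya⟩ := hD.fusion a ha (x' * x⁻¹) (by rw [h2]; exact ha')
  have h3 : a' = (⟨y, hy⟩ : L) * ⟨a, hD.subset ha⟩ * (⟨y, hy⟩ : L)⁻¹ := by
    apply Subtype.ext
    show (a' : G) = y * a * y⁻¹
    rw [hya, h2]
  rw [h3]
  exact hα _ _

theorem dadeIsometry_apply_of_not (α : L → ℂ) {g : G}
    (hg : ¬ ∃ a ∈ A, ∃ u ∈ H a, ∃ x : G, x * g * x⁻¹ = a * u) :
    dadeIsometry A L H α g = 0 := by
  classical
  unfold dadeIsometry
  rw [dif_neg]
  rintro ⟨a', ha', x', u', hu', hx'⟩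
  exact hg ⟨a', ha', u', hu', x', hx'⟩

theorem dadeIsometry_isClassFunction [Finite G] (hD : DadeHypothesis A L H) (α : L → ℂ)
    (hα : IsClassFunction L α) : IsClassFunction G (dadeIsometry A L H α) := by
  intro g h
  by_cases hg : ∃ a ∈ A, ∃ u ∈ H a, ∃ x : G, x * g * x⁻¹ = a * u
  · obtain ⟨a, ha, u, hu, x, hx⟩ := hg
    rw [dadeIsometry_apply hD α hα ha hu hx]
    have hx' : (x * h⁻¹) * (h * g * h⁻¹) * (x * h⁻¹)⁻¹ = a * u := by
      rw [← hx]; group
    rw [dadeIsometry_apply hD α hα ha hu hx']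
  · rw [dadeIsometry_apply_of_not α hg]
    apply dadeIsometry_apply_of_not
    rintro ⟨a, ha, u, hu, x, hx⟩
    apply hg
    refine ⟨a, ha, u, hu, x * h, ?_⟩
    rw [← hx]; group

end

open scoped Classical in
/-- Sum over a subgroup of a function vanishing off `A ⊆ L`, as a filtered sum over `G`. -/
theorem sum_subgroup_eq_sum_filter {G : Type*} [Group G] [Fintype G] {A : Set G} {L : Subgroup G}
    [Fintype L] {M : Type*} [AddCommMonoid M] (hAL : A ⊆ (L : Set G)) (f : L → M)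
    (hf : ∀ x : L, (x : G) ∉ A → f x = 0) :
    ∑ x : L, f x = ∑ a ∈ univ.filter (fun a : G => a ∈ A),
      if h : a ∈ L then f ⟨a, h⟩ else 0 := by
  have h1 : ∑ a ∈ univ.filter (fun a : G => a ∈ L), (if h : a ∈ L then f ⟨a, h⟩ else 0) =
      ∑ x : L, f x := by
    rw [Finset.sum_subtype (p := fun a : G => a ∈ L) (univ.filter (fun a : G => a ∈ L))
      (by intro x; simp) (fun a : G => if h : a ∈ L then f ⟨a, h⟩ else 0)]
    apply Finset.sum_congr rfl
    intro x _
    rw [dif_pos x.2]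
  rw [← h1]
  symm
  apply Finset.sum_subset
  · intro a ha
    simp only [Finset.mem_filter, Finset.mem_univ, true_and] at ha ⊢
    exact hAL ha
  · intro a haL haA
    simp only [Finset.mem_filter, Finset.mem_univ, true_and] at haL haA
    rw [dif_pos haL]
    exact hf ⟨a, haL⟩ haA

open scoped Classical in
/-- Dade reciprocity: `⟨α^τ, χ⟩_G = ⟨α, ψ⟩_L` where `ψ a` is the average of `χ` over `a H(a)`. -/
theorem dade_reciprocity {G : Type*} [Group G] [Fintype G] {A : Set G} {L : Subgroup G}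
    [Fintype L] {H : G → Subgroup G} (hD : DadeHypothesis A L H) (α : L → ℂ)
    (hα : IsClassFunction L α) (hαA : ∀ x : L, (x : G) ∉ A → α x = 0)
    (χ : G → ℂ) (ψ : L → ℂ) (hχ : IsClassFunction G χ)
    (hψ : ∀ a : L, (a : G) ∈ A →
      ψ a = (Nat.card (H a) : ℂ)⁻¹ * ∑ᶠ u ∈ (H a : Set G), χ (a * u)) :
    classInner (dadeIsometry A L H α) χ = classInner α ψ := by
  unfold classInner
  set F : G → ℂ := fun g => dadeIsometry A L H α g * (starRingEnd ℂ) (χ g) with hF
  have hFc : ∀ g x : G, F (x * g * x⁻¹) = F g := by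
    intro g x
    simp only [hF]
    rw [dadeIsometry_isClassFunction hD α hα g x, hχ g x]
  have hcount := dade_count hD F hFc
  have hsupp : ∑ g : G, F g = ∑ g ∈ univ.filter
        (fun g : G => ∃ a ∈ A, ∃ u ∈ H a, ∃ x : G, x * g * x⁻¹ = a * u), F g := by
    symm
    apply Finset.sum_subset (Finset.filter_subset _ _)
    intro g _ hg
    simp only [Finset.mem_filter, Finset.mem_univ, true_and] at hg
    simp only [hF]
    rw [dadeIsometry_apply_of_not α hg, zero_mul]
  have hR : ∑ x : L, α x * (starRingEnd ℂ) (ψ x) = ∑ a ∈ univ.filter (fun a : G => a ∈ A),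
      ((Nat.card (H a) : ℂ))⁻¹ * ∑ u ∈ univ.filter (fun u : G => u ∈ H a), F (a * u) := by
    rw [sum_subgroup_eq_sum_filter hD.subset (fun x : L => α x * (starRingEnd ℂ) (ψ x))
      (by intro x hx; show α x * _ = 0; rw [hαA x hx, zero_mul])]
    apply Finset.sum_congr rfl
    intro a ha
    simp only [Finset.mem_filter, Finset.mem_univ, true_and] at ha
    rw [dif_pos (show a ∈ L from hD.subset ha)]
    have h1 : ∀ u ∈ univ.filter (fun u : G => u ∈ H a),
        F (a * u) = α ⟨a, hD.subset ha⟩ * (starRingEnd ℂ) (χ (a * u)) := by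
      intro u hu
      simp only [Finset.mem_filter, Finset.mem_univ, true_and] at hu
      simp only [hF]
      rw [dadeIsometry_apply hD α hα ha hu (x := 1) (by group)]
    rw [Finset.sum_congr rfl h1, ← Finset.mul_sum, hψ ⟨a, hD.subset ha⟩ ha]
    have h2 : ((H a : Subgroup G) : Set G) = ↑(univ.filter (fun u : G => u ∈ H a)) := by
      ext u; simp
    show α ⟨a, _⟩ * (starRingEnd ℂ) ((Nat.card (H a) : ℂ)⁻¹ *
      ∑ᶠ u ∈ ((H a : Subgroup G) : Set G), χ (a * u)) = _
    rw [h2, finsum_mem_coe_finset, map_mul, map_sum, map_inv₀, Complex.conj_natCast]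
    ring
  have hL0 : (Nat.card L : ℂ) ≠ 0 := Nat.cast_ne_zero.mpr Nat.card_pos.ne'
  have hG0 : (Nat.card G : ℂ) ≠ 0 := Nat.cast_ne_zero.mpr Nat.card_pos.ne'
  show (Nat.card G : ℂ)⁻¹ * ∑ g : G, F g = _
  rw [hsupp, hR, ← mul_right_inj' hL0, ← mul_assoc, mul_comm (Nat.card L : ℂ), mul_assoc, hcount]
  field_simp

end Cfsg.Agent.Helper11
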