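import Mathlib
import Cfsg.Agent.Helper11.DadeIso
import Cfsg.Agent.Helper11.ConjFun
import Cfsg.Agent.Helper2.CharExtra

set_option autoImplicit false

namespace Cfsg.Agent.Helper11

open Cfsg Finset

universe u

open scoped Classical in
/-- Orbit counting: a weighted sum of an invariant integer-valued function over a finite `L`-set,
with weights the stabilizer orders, is an integer multiple of `|L|`. -/
theorem orbit_sum_int {L : Type*} [Group L] [Fintype L] {X : Type*} [Fintype X] [MulAction L X]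
    (g : X → ℂ) (hg : ∀ (l : L) (x : X), g (l • x) = g x) (hint : ∀ x, ∃ m : ℤ, g x = (m : ℂ)) :
    ∃ m : ℤ, ∑ x, (Nat.card (MulAction.stabilizer L x) : ℂ) * g x =
      (Nat.card L : ℂ) * (m : ℂ) := by
  have key : ∀ q : MulAction.orbitRel.Quotient L X, ∃ m : ℤ,
      ∑ x ∈ univ.filter (fun x : X => (Quotient.mk'' x : MulAction.orbitRel.Quotient L X) = q),
        (Nat.card (MulAction.stabilizer L x) : ℂ) * g x = (Nat.card L : ℂ) * (m : ℂ) := by
    intro q
    obtain ⟨x0, rfl⟩ := Quotient.mk''_surjective q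
    obtain ⟨m, hm⟩ := hint x0
    refine ⟨m, ?_⟩
    have h1 : ∀ x ∈ univ.filter (fun x : X =>
        (Quotient.mk'' x : MulAction.orbitRel.Quotient L X) = Quotient.mk'' x0),
        (Nat.card (MulAction.stabilizer L x) : ℂ) * g x =
          (Nat.card (MulAction.stabilizer L x0) : ℂ) * g x0 := by
      intro x hx
      simp only [mem_filter, mem_univ, true_and] at hx
      have hx' : x ∈ MulAction.orbit L x0 := MulAction.orbitRel_apply.mp (Quotient.exact' hx)
      obtain ⟨l, rfl⟩ := hx'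
      rw [hg, MulAction.stabilizer_smul_eq_stabilizer_map_conj,
        Subgroup.card_map_of_injective (MulAut.conj l).injective]
    rw [Finset.sum_congr rfl h1, Finset.sum_const, nsmul_eq_mul]
    have h2 : (univ.filter (fun x : X =>
        (Quotient.mk'' x : MulAction.orbitRel.Quotient L X) = Quotient.mk'' x0)).card
        = (MulAction.orbit L x0).ncard := by
      rw [Set.ncard_eq_toFinset_card']
      congr 1
      ext x
      simp only [mem_filter, mem_univ, true_and, Set.mem_toFinset]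
      rw [← MulAction.orbitRel_apply]
      exact Quotient.eq''
    rw [h2, ← MulAction.index_stabilizer, hm, ← Subgroup.index_mul_card (MulAction.stabilizer L x0)]
    push_cast
    ring
  choose m hm using key
  refine ⟨∑ q, m q, ?_⟩
  rw [← Finset.sum_fiberwise univ (fun x : X => (Quotient.mk'' x : MulAction.orbitRel.Quotient L X))]
  rw [Finset.sum_congr rfl (fun q _ => hm q)]
  push_cast
  rw [Finset.mul_sum]

/-- Counting form of the coset averaging lemma. -/
theorem coset_avg_aux {G : Type*} [Group G] [DecidableEq G] (K : Subgroup G) (a : G)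
    (Kf Cf : Finset G) (hKf : ∀ x, x ∈ Kf ↔ x ∈ K) (hCf : ∀ x, x ∈ Cf ↔ x ∈ K ∧ x * a = a * x)
    (hnorm : ∀ h ∈ K, a⁻¹ * h * a ∈ K) (e : ℕ)
    (he : ∀ k ∈ K, k * a = a * k → (a * k) ^ e = a)
    (f : G → ℂ) (hf : ∀ g x : G, f (x * g * x⁻¹) = f g) :
    (Cf.card : ℂ) * ∑ h ∈ Kf, f (a * h) = (Kf.card : ℂ) * ∑ k ∈ Cf, f (a * k) := by
  have hΦ : ∀ p ∈ Kf ×ˢ Cf, p.1 * (a * p.2) * p.1⁻¹ ∈ Kf.image (fun h => a * h) := by
    intro p hp
    rw [Finset.mem_product, hKf, hCf] at hp
    rw [Finset.mem_image]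
    refine ⟨a⁻¹ * p.1 * a * p.2 * p.1⁻¹, ?_, by group⟩
    rw [hKf]
    exact K.mul_mem (K.mul_mem (hnorm _ hp.1) hp.2.1) (K.inv_mem hp.1)
  have hfib : ∀ p0 ∈ Kf ×ˢ Cf, ((Kf ×ˢ Cf).filter
      (fun p => p.1 * (a * p.2) * p.1⁻¹ = p0.1 * (a * p0.2) * p0.1⁻¹)).card = Cf.card := by
    intro p0 hp0
    rw [Finset.mem_product, hKf, hCf] at hp0
    obtain ⟨hu0, hk0, hk0a⟩ := hp0
    have himg : (Kf ×ˢ Cf).filter
        (fun p => p.1 * (a * p.2) * p.1⁻¹ = p0.1 * (a * p0.2) * p0.1⁻¹)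
        = Cf.image (fun w => (p0.1 * w⁻¹, w * p0.2 * w⁻¹)) := by
      ext ⟨u, k⟩
      simp only [Finset.mem_filter, Finset.mem_product, Finset.mem_image, hKf, hCf, Prod.mk.injEq]
      constructor
      · rintro ⟨⟨hu, hk, hka⟩, h⟩
        have hw : u⁻¹ * p0.1 ∈ K := K.mul_mem (K.inv_mem hu) hu0
        have h1 : a * k = (u⁻¹ * p0.1) * (a * p0.2) * (u⁻¹ * p0.1)⁻¹ := by
          have : a * k = u⁻¹ * (u * (a * k) * u⁻¹) * u := by group
          rw [this, h]; group
        have h2 : a = (u⁻¹ * p0.1) * a * (u⁻¹ * p0.1)⁻¹ := by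
          have h : (a * k) ^ e = ((u⁻¹ * p0.1) * (a * p0.2) * (u⁻¹ * p0.1)⁻¹) ^ e := by rw [← h1]
          rw [conj_pow', he k hk hka, he p0.2 hk0 hk0a] at h
          exact h
        have hwa : (u⁻¹ * p0.1) * a = a * (u⁻¹ * p0.1) := by
          calc (u⁻¹ * p0.1) * a = ((u⁻¹ * p0.1) * a * (u⁻¹ * p0.1)⁻¹) * (u⁻¹ * p0.1) := by group
            _ = a * (u⁻¹ * p0.1) := by rw [← h2]
        refine ⟨u⁻¹ * p0.1, ⟨hw, hwa⟩, by group, ?_⟩
        have h3 : a * k = a * ((u⁻¹ * p0.1) * p0.2 * (u⁻¹ * p0.1)⁻¹) := by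
          calc a * k = (u⁻¹ * p0.1) * (a * p0.2) * (u⁻¹ * p0.1)⁻¹ := h1
            _ = ((u⁻¹ * p0.1) * a * (u⁻¹ * p0.1)⁻¹) *
                ((u⁻¹ * p0.1) * p0.2 * (u⁻¹ * p0.1)⁻¹) := by group
            _ = a * ((u⁻¹ * p0.1) * p0.2 * (u⁻¹ * p0.1)⁻¹) := by rw [← h2]
        exact (mul_left_cancel h3).symm
      · rintro ⟨w, ⟨hw, hwa⟩, rfl, rfl⟩
        have cw : Commute w a := hwa
        have ck : Commute p0.2 a := hk0a
        refine ⟨⟨K.mul_mem hu0 (K.inv_mem hw), K.mul_mem (K.mul_mem hw hk0) (K.inv_mem hw), ?_⟩, ?_⟩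
        · exact ((cw.mul_left ck).mul_left cw.inv_left).eq
        · have h5 : w⁻¹ * a * w = a := by
            have := cw.inv_left.eq
            calc w⁻¹ * a * w = a * w⁻¹ * w := by rw [this]
              _ = a := by group
          calc p0.1 * w⁻¹ * (a * (w * p0.2 * w⁻¹)) * (p0.1 * w⁻¹)⁻¹
              = p0.1 * ((w⁻¹ * a * w) * p0.2) * p0.1⁻¹ := by group
            _ = p0.1 * (a * p0.2) * p0.1⁻¹ := by rw [h5]
    rw [himg, Finset.card_image_of_injective]
    intro w w' h
    have h6 := (Prod.mk.inj h).1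
    exact inv_injective (mul_left_cancel h6)
  have hfib_le : ∀ b ∈ Kf.image (fun h => a * h),
      ((Kf ×ˢ Cf).filter (fun p => p.1 * (a * p.2) * p.1⁻¹ = b)).card ≤ Cf.card := by
    intro b _
    by_cases hne : ((Kf ×ˢ Cf).filter (fun p => p.1 * (a * p.2) * p.1⁻¹ = b)).Nonempty
    · obtain ⟨p0, hp0⟩ := hne
      rw [Finset.mem_filter] at hp0
      rw [← hp0.2, hfib p0 hp0.1]
    · rw [Finset.not_nonempty_iff_eq_empty] at hne
      rw [hne]; simp
  have hcardt : (Kf.image (fun h => a * h)).card = Kf.card :=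
    Finset.card_image_of_injective _ (mul_right_injective a)
  have htot : ∑ b ∈ Kf.image (fun h => a * h),
      ((Kf ×ˢ Cf).filter (fun p => p.1 * (a * p.2) * p.1⁻¹ = b)).card
      = ∑ b ∈ Kf.image (fun h => a * h), Cf.card := by
    rw [← Finset.card_eq_sum_card_fiberwise (fun p hp => hΦ p hp), Finset.sum_const, hcardt,
      Finset.card_product, smul_eq_mul]
  have hall := (Finset.sum_eq_sum_iff_of_le hfib_le).mp htot
  have h1 : ∑ p ∈ Kf ×ˢ Cf, f (p.1 * (a * p.2) * p.1⁻¹) = (Cf.card : ℂ) * ∑ h ∈ Kf, f (a * h) := by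
    rw [← Finset.sum_fiberwise_of_maps_to hΦ]
    rw [Finset.sum_image (fun x _ y _ h => mul_left_cancel h)]
    rw [Finset.mul_sum]
    apply Finset.sum_congr rfl
    intro h hh
    rw [Finset.sum_congr rfl (fun p hp => by rw [(Finset.mem_filter.mp hp).2])]
    rw [Finset.sum_const, hall (a * h) (Finset.mem_image_of_mem _ hh), nsmul_eq_mul]
  have h2 : ∑ p ∈ Kf ×ˢ Cf, f (p.1 * (a * p.2) * p.1⁻¹) = (Kf.card : ℂ) * ∑ k ∈ Cf, f (a * k) := by
    rw [Finset.sum_congr rfl (fun p _ => hf (a * p.2) p.1), Finset.sum_product]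
    simp only [Finset.sum_const, nsmul_eq_mul]
  rw [← h1, h2]

open scoped Classical in
/-- Coset averaging: if `a` normalises `K` and has order prime to `|K|`, then the average of a class
function over the coset `aK` equals its average over `a C_K(a)`. -/
theorem coset_avg {G : Type*} [Group G] [Fintype G] (K : Subgroup G) (a : G)
    (hnorm : ∀ h ∈ K, a⁻¹ * h * a ∈ K) (hcop : (orderOf a).Coprime (Nat.card K))
    (f : G → ℂ) (hf : ∀ g x : G, f (x * g * x⁻¹) = f g) :
    (Nat.card ↥(K ⊓ Subgroup.centralizer ({a} : Set G)) : ℂ) *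
        ∑ h ∈ univ.filter (fun h : G => h ∈ K), f (a * h)
      = (Nat.card K : ℂ) *
        ∑ k ∈ univ.filter (fun k : G => k ∈ K ⊓ Subgroup.centralizer ({a} : Set G)), f (a * k) := by
  obtain ⟨e, he⟩ := exists_pow_eq_left (orderOf a) (Nat.card K) hcop
  have hcardK : Nat.card K = (univ.filter (fun y : G => y ∈ K)).card := by
    rw [Nat.card_eq_fintype_card, Fintype.card_subtype]
  have hcardC : Nat.card ↥(K ⊓ Subgroup.centralizer ({a} : Set G)) =
      (univ.filter (fun y : G => y ∈ K ⊓ Subgroup.centralizer ({a} : Set G))).card := by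
    rw [Nat.card_eq_fintype_card, Fintype.card_subtype]
  rw [hcardK, hcardC]
  refine coset_avg_aux K a _ _ (by intro x; simp) ?_ hnorm e ?_ f hf
  · intro x
    simp only [mem_filter, mem_univ, true_and, Subgroup.mem_inf,
      Subgroup.mem_centralizer_singleton_iff]
  · intro k hk hka
    exact he a k hka.symm (pow_orderOf_eq_one a) (pow_card_subgroup_eq_one K hk)

open scoped Classical in
/-- The average of `χ` over the coset `a K`. -/
noncomputable def avgK {G : Type*} [Group G] [Fintype G] (K : Subgroup G) (χ : G → ℂ) (a : G) : ℂ :=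
  (Nat.card K : ℂ)⁻¹ * ∑ h ∈ univ.filter (fun h : G => h ∈ K), χ (a * h)

theorem avgK_conj {G : Type*} [Group G] [Fintype G] (K K' : Subgroup G) (χ : G → ℂ)
    (hχ : IsClassFunction G χ) (l a : G) (hK : K' = K.map (MulAut.conj l).toMonoidHom) :
    avgK K' χ (l * a * l⁻¹) = avgK K χ a := by
  classical
  unfold avgK
  rw [hK, Subgroup.card_map_of_injective (MulAut.conj l).injective]
  congr 1
  rw [Finset.sum_filter, Finset.sum_filter]
  rw [← (MulAut.conj l).toEquiv.sum_comp]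
  apply Finset.sum_congr rfl
  intro h _
  have h1 : ((MulAut.conj l).toEquiv h) = l * h * l⁻¹ := rfl
  rw [h1]
  have h2 : l * h * l⁻¹ ∈ K.map (MulAut.conj l).toMonoidHom ↔ h ∈ K := by
    constructor
    · rintro ⟨x, hx, hxe⟩
      have : x = h := (MulAut.conj l).injective hxe
      rwa [← this]
    · intro hh; exact ⟨h, hh, rfl⟩
  have h3 : l * a * l⁻¹ * (l * h * l⁻¹) = l * (a * h) * l⁻¹ := by group
  simp only [h2, h3, hχ (a * h) l]

theorem avgK_eq_of_centralizer {G : Type*} [Group G] [Fintype G] (K C : Subgroup G) (a : G)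
    (hnorm : ∀ h ∈ K, a⁻¹ * h * a ∈ K) (hcop : (orderOf a).Coprime (Nat.card K))
    (hC : K ⊓ Subgroup.centralizer ({a} : Set G) = C)
    (f : G → ℂ) (hf : IsClassFunction G f) : avgK K f a = avgK C f a := by
  classical
  have h := coset_avg K a hnorm hcop f hf
  rw [hC] at h
  unfold avgK
  have hK0 : (Nat.card K : ℂ) ≠ 0 := Nat.cast_ne_zero.mpr Nat.card_pos.ne'
  have hC0 : (Nat.card C : ℂ) ≠ 0 := Nat.cast_ne_zero.mpr Nat.card_pos.ne'
  field_simp
  linear_combination h

end Cfsg.Agent.Helper11
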