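import Mathlib
import Cfsg.Agent.Helper11.DadeZ1

set_option autoImplicit false

namespace Cfsg.Agent.Helper11

open Cfsg Finset

universe u

/-- The subgroup `{(l h, l) : l ∈ N, h ∈ K}` of `G × L`, for `N ≤ L` normalising `K`. -/
def graphSub {G : Type u} [Group G] (L : Subgroup G) (K : Subgroup G) (N : Subgroup L)
    (hN : ∀ l ∈ N, ∀ h ∈ K, (l : G) * h * (l : G)⁻¹ ∈ K) : Subgroup (G × L) where
  carrier := {p | p.2 ∈ N ∧ (p.2 : G)⁻¹ * p.1 ∈ K}
  one_mem' := by
    refine ⟨N.one_mem, ?_⟩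
    simp [K.one_mem]
  mul_mem' := by
    rintro ⟨g, l⟩ ⟨g', l'⟩ ⟨hl, hg⟩ ⟨hl', hg'⟩
    refine ⟨N.mul_mem hl hl', ?_⟩
    have h1 := hN l'⁻¹ (N.inv_mem hl') _ hg
    have h2 : (((l * l' : L) : G))⁻¹ * (g * g') =
        ((l'⁻¹ : L) : G) * ((l : G)⁻¹ * g) * ((l'⁻¹ : L) : G)⁻¹ * ((l' : G)⁻¹ * g') := by
      simp only [Subgroup.coe_mul, Subgroup.coe_inv]; group
    show (((l * l' : L) : G))⁻¹ * (g * g') ∈ K
    rw [h2]
    exact K.mul_mem h1 hg'
  inv_mem' := by
    rintro ⟨g, l⟩ ⟨hl, hg⟩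
    refine ⟨N.inv_mem hl, ?_⟩
    have h1 := hN l hl _ (K.inv_mem hg)
    have h2 : (((l⁻¹ : L) : G))⁻¹ * g⁻¹ = (l : G) * ((l : G)⁻¹ * g)⁻¹ * (l : G)⁻¹ := by
      simp only [Subgroup.coe_inv]; group
    show (((l⁻¹ : L) : G))⁻¹ * g⁻¹ ∈ K
    rw [h2]; exact h1

open scoped Classical in
/-- `|N|⁻¹ ∑_{l ∈ N} α(l) conj(avg of χ over l K)`. -/
noncomputable def graphT {G : Type u} [Group G] [Fintype G] (L : Subgroup G) [Fintype L]
    (K : Subgroup G) (N : Subgroup L) (α : L → ℂ) (χ : G → ℂ) : ℂ :=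
  (Nat.card N : ℂ)⁻¹ * ∑ l : L, if l ∈ N then α l * (starRingEnd ℂ) (avgK K χ (l : G)) else 0

open scoped Classical in
theorem graph_sum {G : Type u} [Group G] [Fintype G] (L : Subgroup G) [Fintype L]
    (K : Subgroup G) (N : Subgroup L)
    (hN : ∀ l ∈ N, ∀ h ∈ K, (l : G) * h * (l : G)⁻¹ ∈ K) (F : G × L → ℂ) :
    ∑ s : graphSub L K N hN, F (s : G × L) =
      ∑ l : L, if l ∈ N then ∑ h ∈ univ.filter (fun h : G => h ∈ K), F ((l : G) * h, l) else 0 := by
  have h1 : ∑ s : graphSub L K N hN, F (s : G × L) =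
      ∑ p : G × L, if p ∈ graphSub L K N hN then F p else 0 := by
    rw [← Finset.sum_filter]
    exact (Finset.sum_subtype (univ.filter (fun p : G × L => p ∈ graphSub L K N hN))
      (by intro x; simp) F).symm
  rw [h1, Fintype.sum_prod_type_right]
  apply Finset.sum_congr rfl
  intro l _
  by_cases hl : l ∈ N
  · rw [if_pos hl, Finset.sum_filter, ← Equiv.sum_comp (Equiv.mulLeft (l : G))]
    apply Finset.sum_congr rfl
    intro h _
    have h2 : ((Equiv.mulLeft (l : G)) h, l) ∈ graphSub L K N hN ↔ h ∈ K := by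
      show (l ∈ N ∧ (l : G)⁻¹ * ((l : G) * h) ∈ K) ↔ h ∈ K
      rw [inv_mul_cancel_left]
      exact ⟨fun h => h.2, fun h => ⟨hl, h⟩⟩
    simp only [h2]
    rfl
  · rw [if_neg hl]
    apply Finset.sum_eq_zero
    intro g _
    rw [if_neg]
    intro h; exact hl h.1

theorem graphT_int {G : Type u} [Group G] [Fintype G] (L : Subgroup G) [Fintype L]
    (K : Subgroup G) (N : Subgroup L)
    (hN : ∀ l ∈ N, ∀ h ∈ K, (l : G) * h * (l : G)⁻¹ ∈ K) (α : L → ℂ)
    (hα : IsGeneralizedCharacter L α) (χ : G → ℂ) (hχ : IsCharacter G χ) :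
    ∃ m : ℤ, graphT L K N α χ = (m : ℂ) := by
  classical
  have hχS : IsCharacter (graphSub L K N hN)
      (fun s => χ (((MonoidHom.fst G L).comp (graphSub L K N hN).subtype) s)) :=
    Helper2.isCharacter_comp _ hχ
  obtain ⟨c1, c2, hc1, hc2, rfl⟩ := hα
  have hαS : IsGeneralizedCharacter (graphSub L K N hN)
      (fun s => (c1 - c2) (((MonoidHom.snd G L).comp (graphSub L K N hN).subtype) s)) :=
    ⟨fun s => c1 (((MonoidHom.snd G L).comp (graphSub L K N hN).subtype) s),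
      fun s => c2 (((MonoidHom.snd G L).comp (graphSub L K N hN).subtype) s),
      Helper2.isCharacter_comp _ hc1, Helper2.isCharacter_comp _ hc2, rfl⟩
  have hχS' : IsGeneralizedCharacter (graphSub L K N hN)
      (fun s => χ (((MonoidHom.fst G L).comp (graphSub L K N hN).subtype) s)) :=
    ⟨_, 0, hχS, Helper2.isCharacter_zero, by simp⟩
  obtain ⟨m, hm⟩ := classInner_virtual_int hαS hχS'
  refine ⟨m, ?_⟩
  rw [← hm]
  unfold classInner graphT
  have hsum := graph_sum L K N hN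
  have hcard : (Nat.card (graphSub L K N hN) : ℂ) = (Nat.card N : ℂ) * (Nat.card K : ℂ) := by
    have h1 := hsum (fun _ => 1)
    simp only [Finset.sum_const, Finset.card_univ, nsmul_eq_mul, mul_one] at h1
    rw [Nat.card_eq_fintype_card, h1, ← Finset.sum_filter, Finset.sum_const, nsmul_eq_mul]
    rw [Nat.card_eq_fintype_card (α := N), Fintype.card_subtype,
      Nat.card_eq_fintype_card (α := K), Fintype.card_subtype]
  rw [hcard]
  have h2 := hsum (fun p => (c1 - c2) p.2 * (starRingEnd ℂ) (χ p.1))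
  rw [show (∑ s : graphSub L K N hN,
      (c1 - c2) (((MonoidHom.snd G L).comp (graphSub L K N hN).subtype) s) *
        (starRingEnd ℂ) (χ (((MonoidHom.fst G L).comp (graphSub L K N hN).subtype) s))) =
      ∑ s : graphSub L K N hN,
        (fun p : G × L => (c1 - c2) p.2 * (starRingEnd ℂ) (χ p.1)) (s : G × L) from rfl, h2]
  rw [Finset.mul_sum, Finset.mul_sum]
  apply Finset.sum_congr rfl
  intro l _
  by_cases hl : l ∈ N
  · rw [if_pos hl, if_pos hl]
    unfold avgK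
    have e1 : (starRingEnd ℂ) ((Nat.card K : ℂ)⁻¹ *
        ∑ h ∈ univ.filter (fun h : G => h ∈ K), χ ((l : G) * h)) =
        (Nat.card K : ℂ)⁻¹ *
          ∑ h ∈ univ.filter (fun h : G => h ∈ K), (starRingEnd ℂ) (χ ((l : G) * h)) := by
      rw [map_mul, map_inv₀, Complex.conj_natCast, map_sum]
    rw [e1]
    simp only [← Finset.mul_sum]
    rw [mul_inv]
    ring
  · rw [if_neg hl, if_neg hl, mul_zero, mul_zero]

end Cfsg.Agent.Helper11
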