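import Mathlib
import Cfsg.Agent.Helper11.DadeZ2

set_option autoImplicit false

namespace Cfsg.Agent.Helper11

open Cfsg Finset

universe u

section

variable {G : Type u} [Group G]

open scoped Classical in
/-- Conjugate of a finset. -/
noncomputable def cjF (l : G) (B : Finset G) : Finset G := B.image (fun b => l * b * l⁻¹)

theorem mem_cjF {l x : G} {B : Finset G} : x ∈ cjF l B ↔ ∃ b ∈ B, l * b * l⁻¹ = x := by
  classical
  unfold cjF
  exact Finset.mem_image

theorem cjF_one (B : Finset G) : cjF 1 B = B := by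
  ext x
  rw [mem_cjF]
  constructor
  · rintro ⟨b, hb, rfl⟩; simpa using hb
  · intro hx; exact ⟨x, hx, by simp⟩

theorem cjF_mul (l l' : G) (B : Finset G) : cjF (l * l') B = cjF l (cjF l' B) := by
  ext x
  simp only [mem_cjF]
  constructor
  · rintro ⟨b, hb, rfl⟩
    exact ⟨l' * b * l'⁻¹, ⟨b, hb, rfl⟩, by group⟩
  · rintro ⟨_, ⟨b, hb, rfl⟩, rfl⟩
    exact ⟨b, hb, by group⟩

theorem cjF_inv_cjF (l : G) (B : Finset G) : cjF l⁻¹ (cjF l B) = B := by
  rw [← cjF_mul, inv_mul_cancel, cjF_one]

theorem card_cjF (l : G) (B : Finset G) : (cjF l B).card = B.card := by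
  classical
  unfold cjF
  apply Finset.card_image_of_injective
  intro x y h
  simpa using h

theorem cjF_nonempty {l : G} {B : Finset G} (h : B.Nonempty) : (cjF l B).Nonempty := by
  classical
  unfold cjF
  exact h.image _

/-- conjugation action of `L` on finsets of `G` -/
@[reducible] noncomputable def conjFinAct (L : Subgroup G) : MulAction L (Finset G) where
  smul l B := cjF (l : G) B
  one_smul B := cjF_one B
  mul_smul l l' B := cjF_mul (l : G) (l' : G) B

/-- the stabiliser `N_L(B)` -/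
noncomputable def NB (L : Subgroup G) (B : Finset G) : Subgroup L :=
  @MulAction.stabilizer L (Finset G) _ (conjFinAct L) B

theorem mem_NB {L : Subgroup G} {B : Finset G} {l : L} : l ∈ NB L B ↔ cjF (l : G) B = B :=
  Iff.rfl

theorem NB_cjF (L : Subgroup G) (B : Finset G) (l : L) :
    NB L (cjF (l : G) B) = (NB L B).map (MulAut.conj l).toMonoidHom :=
  @MulAction.stabilizer_smul_eq_stabilizer_map_conj L (Finset G) _ (conjFinAct L) l B

/-- the intersection `H_B` -/
def HB (H : G → Subgroup G) (B : Finset G) : Subgroup G := ⨅ b ∈ B, H b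

theorem mem_HB {H : G → Subgroup G} {B : Finset G} {h : G} :
    h ∈ HB H B ↔ ∀ b ∈ B, h ∈ H b := by
  simp only [HB, Subgroup.mem_iInf]

theorem HB_singleton (H : G → Subgroup G) (a : G) : HB H {a} = H a := by
  ext h; simp [mem_HB]

theorem HB_insert [DecidableEq G] (H : G → Subgroup G) (a : G) (B : Finset G) :
    HB H (insert a B) = H a ⊓ HB H B := by
  ext h; simp [mem_HB, Subgroup.mem_inf]

variable {A : Set G} {L : Subgroup G} {H : G → Subgroup G}

theorem HB_conj (hD : DadeHypothesis A L H) {B : Finset G} (hB : ∀ b ∈ B, b ∈ A) {l : G}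
    (hl : l ∈ L) {h : G} (hh : h ∈ HB H B) : l * h * l⁻¹ ∈ HB H (cjF l B) := by
  rw [mem_HB]
  intro b' hb'
  obtain ⟨b, hb, rfl⟩ := mem_cjF.mp hb'
  exact dade_conj_mem_H hD (hB b hb) (hD.conj_mem l hl b (hB b hb)) (mem_HB.mp hh b hb)

theorem cjF_subset (hD : DadeHypothesis A L H) {B : Finset G} (hB : ∀ b ∈ B, b ∈ A) {l : G}
    (hl : l ∈ L) : ∀ b ∈ cjF l B, b ∈ A := by
  intro b' hb'
  obtain ⟨b, hb, rfl⟩ := mem_cjF.mp hb'
  exact hD.conj_mem l hl b (hB b hb)

theorem HB_cjF (hD : DadeHypothesis A L H) {B : Finset G} (hB : ∀ b ∈ B, b ∈ A) {l : G}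
    (hl : l ∈ L) : HB H (cjF l B) = (HB H B).map (MulAut.conj l).toMonoidHom := by
  apply le_antisymm
  · intro x hx
    have h1 := HB_conj hD (cjF_subset hD hB hl) (L.inv_mem hl) hx
    rw [cjF_inv_cjF] at h1
    refine ⟨l⁻¹ * x * l⁻¹⁻¹, h1, ?_⟩
    show l * (l⁻¹ * x * l⁻¹⁻¹) * l⁻¹ = x
    group
  · rintro _ ⟨h, hh, rfl⟩
    exact HB_conj hD hB hl hh

theorem HB_normalized (hD : DadeHypothesis A L H) {B : Finset G} (hB : ∀ b ∈ B, b ∈ A) {l : L}
    (hl : l ∈ NB L B) {h : G} (hh : h ∈ HB H B) : (l : G) * h * (l : G)⁻¹ ∈ HB H B := by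
  have := HB_conj hD hB l.2 hh
  rwa [mem_NB.mp hl] at this

theorem dade_coprime_HB (hD : DadeHypothesis A L H) {B : Finset G} (hne : B.Nonempty)
    (hB : ∀ b ∈ B, b ∈ A) {a : G} (ha : a ∈ A) :
    (Nat.card (HB H B)).Coprime (Nat.card ↥(L ⊓ Subgroup.centralizer ({a} : Set G))) := by
  obtain ⟨b, hb⟩ := hne
  exact Nat.Coprime.coprime_dvd_left
    (Subgroup.card_dvd_of_le (fun h hh => mem_HB.mp hh b hb)) (hD.coprime b (hB b hb) a ha)

open scoped Classical in
theorem avgK_insert [Fintype G] (hD : DadeHypothesis A L H) (χ : G → ℂ) (hχ : IsClassFunction G χ)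
    {B : Finset G} (hne : B.Nonempty) (hB : ∀ b ∈ B, b ∈ A) {a : G} (ha : a ∈ A)
    (haB : cjF a B = B) : avgK (HB H B) χ a = avgK (HB H (insert a B)) χ a := by
  have haL : a ∈ L := hD.subset ha
  have hcopB := dade_coprime_HB hD hne hB ha
  apply avgK_eq_of_centralizer (HB H B) _ a
  · intro h hh
    have h1 := HB_conj hD hB (L.inv_mem haL) hh
    have h2 : cjF a⁻¹ B = B := by
      conv_lhs => rw [← haB]
      exact cjF_inv_cjF a B
    rw [h2, inv_inv] at h1
    exact h1
  · exact Nat.Coprime.coprime_dvd_left (orderOf_dvd_of_pow_eq_one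
      (pow_card_subgroup_eq_one _ (dade_mem_CL hD ha))) hcopB.symm
  · rw [HB_insert]
    ext k
    simp only [Subgroup.mem_inf]
    constructor
    · rintro ⟨hk, hkc⟩
      refine ⟨dade_mem_H_of_coprime hD ha hkc ?_, hk⟩
      exact Nat.Coprime.coprime_dvd_left (orderOf_dvd_of_pow_eq_one
        (pow_card_subgroup_eq_one _ hk)) hcopB
    · rintro ⟨hka, hk⟩
      exact ⟨hk, hD.le_centralizer a ha hka⟩
  · exact hχ

open scoped Classical in
/-- The inclusion–exclusion identity behind the Dade character formula. -/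
theorem dade_incl_excl [Fintype G] (hD : DadeHypothesis A L H) (χ : G → ℂ)
    (hχ : IsClassFunction G χ) {a : G} (ha : a ∈ A) :
    ∑ B ∈ (univ : Finset (Finset G)).filter
        (fun B => (B.Nonempty ∧ ∀ b ∈ B, b ∈ A) ∧ cjF a B = B),
      (-1 : ℂ) ^ (B.card + 1) * avgK (HB H B) χ a = avgK (H a) χ a := by
  obtain ⟨fam, hfam⟩ : ∃ fam : Finset (Finset G), fam = (univ : Finset (Finset G)).filter
        (fun B => (B.Nonempty ∧ ∀ b ∈ B, b ∈ A) ∧ cjF a B = B) := ⟨_, rfl⟩
  have hmf : ∀ B, B ∈ fam ↔ (B.Nonempty ∧ ∀ b ∈ B, b ∈ A) ∧ cjF a B = B := by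
    intro B; rw [hfam]; simp
  rw [← hfam]
  have haa : a * a * a⁻¹ = a := by group
  have hmem : ({a} : Finset G) ∈ fam := by
    rw [hmf]
    refine ⟨⟨Finset.singleton_nonempty a, ?_⟩, ?_⟩
    · intro b hb; rw [Finset.mem_singleton] at hb; rw [hb]; exact ha
    · unfold cjF; rw [Finset.image_singleton, haa]
  rw [← Finset.add_sum_erase _ _ hmem]
  have hpair : ∀ B0 : Finset G, B0.Nonempty → (∀ b ∈ B0, b ∈ A) → cjF a B0 = B0 → a ∉ B0 →
      (insert a B0 ∈ fam.erase {a}) ∧
      (-1 : ℂ) ^ (B0.card + 1) * avgK (HB H B0) χ a +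
        (-1 : ℂ) ^ ((insert a B0).card + 1) * avgK (HB H (insert a B0)) χ a = 0 := by
    intro B0 hne hB0 hcj ha0
    constructor
    · rw [Finset.mem_erase, hmf]
      refine ⟨?_, ⟨Finset.insert_nonempty a B0, ?_⟩, ?_⟩
      · intro h
        obtain ⟨b, hb⟩ := hne
        have : b ∈ insert a B0 := Finset.mem_insert_of_mem hb
        rw [h, Finset.mem_singleton] at this
        rw [this] at hb
        exact ha0 hb
      · intro b hb
        rw [Finset.mem_insert] at hb
        rcases hb with rfl | hb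
        · exact ha
        · exact hB0 b hb
      · have h1 : cjF a (insert a B0) = insert (a * a * a⁻¹) (cjF a B0) := by
          unfold cjF
          rw [Finset.image_insert]
        rw [h1, haa, hcj]
    · rw [Finset.card_insert_of_notMem ha0, ← avgK_insert hD χ hχ hne hB0 ha hcj]
      ring
  have herase : ∀ B ∈ fam.erase {a}, a ∈ B →
      (B.erase a).Nonempty ∧ (∀ b ∈ B.erase a, b ∈ A) ∧ cjF a (B.erase a) = B.erase a := by
    intro B hB haB
    rw [Finset.mem_erase, hmf] at hB
    obtain ⟨hBa, ⟨hne, hBA⟩, hcj⟩ := hB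
    refine ⟨?_, fun b hb => hBA b (Finset.mem_of_mem_erase hb), ?_⟩
    · by_contra h0
      rw [Finset.not_nonempty_iff_eq_empty] at h0
      apply hBa
      rw [← Finset.insert_erase haB, h0]
      rfl
    · have h1 : cjF a (B.erase a) = (cjF a B).erase (a * a * a⁻¹) := by
        unfold cjF
        rw [Finset.image_erase (by intro x y h; simpa using h)]
      rw [h1, haa, hcj]
  have hrest : ∑ B ∈ fam.erase {a}, (-1 : ℂ) ^ (B.card + 1) * avgK (HB H B) χ a = 0 := by
    apply Finset.sum_involution (fun B _ => if a ∈ B then B.erase a else insert a B)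
    · intro B hB
      by_cases haB : a ∈ B
      · rw [if_pos haB]
        obtain ⟨hne0, hB0A, hcj0⟩ := herase B hB haB
        have h := (hpair (B.erase a) hne0 hB0A hcj0 (Finset.notMem_erase a B)).2
        rw [Finset.insert_erase haB] at h
        rw [add_comm]; exact h
      · rw [if_neg haB]
        rw [Finset.mem_erase, hmf] at hB
        obtain ⟨hBa, ⟨hne, hBA⟩, hcj⟩ := hB
        exact (hpair B hne hBA hcj haB).2
    · intro B hB _
      by_cases haB : a ∈ B
      · rw [if_pos haB]
        intro h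
        have := Finset.notMem_erase a B
        rw [h] at this
        exact this haB
      · rw [if_neg haB]
        intro h
        apply haB
        rw [← h]
        exact Finset.mem_insert_self a B
    · intro B hB
      by_cases haB : a ∈ B
      · simp only [if_pos haB]
        rw [if_neg (Finset.notMem_erase a B)]
        exact Finset.insert_erase haB
      · simp only [if_neg haB]
        rw [if_pos (Finset.mem_insert_self a B)]
        exact Finset.erase_insert haB
    · intro B hB
      by_cases haB : a ∈ B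
      · rw [if_pos haB]
        obtain ⟨hne0, hB0A, hcj0⟩ := herase B hB haB
        rw [Finset.mem_erase, hmf]
        refine ⟨?_, ⟨hne0, hB0A⟩, hcj0⟩
        intro h
        have := Finset.notMem_erase a B
        rw [h] at this
        exact this (Finset.mem_singleton_self a)
      · rw [if_neg haB]
        rw [Finset.mem_erase, hmf] at hB
        obtain ⟨hBa, ⟨hne, hBA⟩, hcj⟩ := hB
        exact (hpair B hne hBA hcj haB).1
  rw [hrest, add_zero, Finset.card_singleton, HB_singleton]
  norm_num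

end

end Cfsg.Agent.Helper11
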