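import Mathlib
import Cfsg.Agent.Helper11.DadeZ3

set_option autoImplicit false

namespace Cfsg.Agent.Helper11

open Cfsg Finset

universe u

open scoped Classical in
/-- Under the Dade hypothesis, the Dade map sends generalized characters of `L` supported on `A`
to generalized characters of `G` (Peterfalvi (2.5)). -/
theorem dade_genChar {G : Type u} [Group G] [Fintype G] (A : Set G) (L : Subgroup G) [Fintype L]
    (H : G → Subgroup G) (hD : DadeHypothesis A L H) (α : L → ℂ)
    (hα : IsGeneralizedCharacter L α) (hαA : ∀ x : L, (x : G) ∉ A → α x = 0) :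
    IsGeneralizedCharacter G (dadeIsometry A L H α) := by
  have hαc : IsClassFunction L α := (Helper2.isGeneralizedCharacter_iff.mp hα).1
  rw [Helper2.isGeneralizedCharacter_iff]
  refine ⟨dadeIsometry_isClassFunction hD α hαc, ?_⟩
  intro χ
  have hχc : IsClassFunction G (χ : G → ℂ) := Helper1.isClassFunction_irr χ
  have hχchar : IsCharacter G (χ : G → ℂ) := Helper2.isCharacter_of_isIrrCharacter χ.2
  have hrec := dade_reciprocity hD α hαc hαA (χ : G → ℂ)
    (fun a : L => avgK (H (a : G)) (χ : G → ℂ) (a : G)) hχc (by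
      intro a ha
      show avgK (H (a : G)) (χ : G → ℂ) (a : G) = _
      unfold avgK
      have h2 : ((H (a : G) : Subgroup G) : Set G) =
          ↑(univ.filter (fun u : G => u ∈ H (a : G))) := by
        ext u; simp
      rw [h2, finsum_mem_coe_finset])
  rw [hrec]
  obtain ⟨gB, hgB⟩ : ∃ gB : Finset G → ℂ, gB = fun B =>
      if (B.Nonempty ∧ ∀ b ∈ B, b ∈ A) then
        (-1 : ℂ) ^ (B.card + 1) * graphT L (HB H B) (NB L B) α (χ : G → ℂ) else 0 := ⟨_, rfl⟩
  have hint : ∀ B, ∃ m : ℤ, gB B = (m : ℂ) := by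
    intro B
    rw [hgB]
    by_cases hP : (B.Nonempty ∧ ∀ b ∈ B, b ∈ A)
    · simp only [if_pos hP]
      obtain ⟨m, hm⟩ := graphT_int L (HB H B) (NB L B)
        (fun l hl h hh => HB_normalized hD hP.2 hl hh) α hα (χ : G → ℂ) hχchar
      refine ⟨(-1) ^ (B.card + 1) * m, ?_⟩
      rw [hm]; push_cast; ring
    · simp only [if_neg hP]
      exact ⟨0, by simp⟩
  have hinv : ∀ (l : L) (B : Finset G), gB (cjF (l : G) B) = gB B := by
    intro l B
    rw [hgB]
    have hP : ((cjF (l : G) B).Nonempty ∧ ∀ b ∈ cjF (l : G) B, b ∈ A) ↔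
        (B.Nonempty ∧ ∀ b ∈ B, b ∈ A) := by
      constructor
      · rintro ⟨h1, h2⟩
        have h3 := cjF_subset hD h2 (L.inv_mem l.2)
        rw [cjF_inv_cjF] at h3
        have h4 := cjF_nonempty (l := (l : G)⁻¹) h1
        rw [cjF_inv_cjF] at h4
        exact ⟨h4, h3⟩
      · rintro ⟨h1, h2⟩
        exact ⟨cjF_nonempty h1, cjF_subset hD h2 l.2⟩
    by_cases hB : (B.Nonempty ∧ ∀ b ∈ B, b ∈ A)
    · simp only [if_pos hB, if_pos (hP.mpr hB), card_cjF]
      congr 1
      unfold graphT
      rw [NB_cjF, Subgroup.card_map_of_injective (MulAut.conj l).injective]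
      congr 1
      rw [← Equiv.sum_comp (MulAut.conj l).toEquiv]
      apply Finset.sum_congr rfl
      intro x _
      have h1 : ((MulAut.conj l).toEquiv x) = l * x * l⁻¹ := rfl
      rw [h1]
      have h2 : l * x * l⁻¹ ∈ (NB L B).map (MulAut.conj l).toMonoidHom ↔ x ∈ NB L B := by
        constructor
        · rintro ⟨y, hy, hye⟩
          have : y = x := (MulAut.conj l).injective hye
          rwa [← this]
        · intro hx; exact ⟨x, hx, rfl⟩
      have h3 : avgK (HB H (cjF (l : G) B)) (χ : G → ℂ) ((l * x * l⁻¹ : L) : G) =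
          avgK (HB H B) (χ : G → ℂ) (x : G) := by
        have : ((l * x * l⁻¹ : L) : G) = (l : G) * (x : G) * (l : G)⁻¹ := by simp
        rw [this]
        exact avgK_conj _ _ _ hχc _ _ (HB_cjF hD hB.2 l.2)
      simp only [h2, h3, hαc x l]
    · simp only [if_neg hB, if_neg (fun h => hB (hP.mp h))]
  obtain ⟨m, hm⟩ := @orbit_sum_int L _ _ (Finset G) _ (conjFinAct L) gB hinv hint
  refine ⟨m, ?_⟩
  unfold classInner
  have hL0 : (Nat.card L : ℂ) ≠ 0 := Nat.cast_ne_zero.mpr Nat.card_pos.ne'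
  have hmain : ∑ a : L, α a * (starRingEnd ℂ) (avgK (H (a : G)) (χ : G → ℂ) (a : G)) =
      ∑ B : Finset G, (Nat.card (NB L B) : ℂ) * gB B := by
    have hpt : ∀ a : L, α a * (starRingEnd ℂ) (avgK (H (a : G)) (χ : G → ℂ) (a : G)) =
        ∑ B : Finset G, if a ∈ NB L B then
          (if (B.Nonempty ∧ ∀ b ∈ B, b ∈ A) then (-1 : ℂ) ^ (B.card + 1) *
            (α a * (starRingEnd ℂ) (avgK (HB H B) (χ : G → ℂ) (a : G))) else 0) else 0 := by
      intro a
      by_cases haA : (a : G) ∈ A
      · rw [← dade_incl_excl hD (χ : G → ℂ) hχc haA, map_sum, Finset.mul_sum, Finset.sum_filter]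
        apply Finset.sum_congr rfl
        intro B _
        by_cases h1 : a ∈ NB L B
        · by_cases h2 : (B.Nonempty ∧ ∀ b ∈ B, b ∈ A)
          · rw [if_pos h1, if_pos h2, if_pos ⟨h2, mem_NB.mp h1⟩, map_mul, map_pow, map_neg,
              map_one]
            ring
          · rw [if_pos h1, if_neg h2, if_neg (fun h => h2 h.1)]
        · rw [if_neg h1, if_neg (fun h => h1 (mem_NB.mpr h.2))]
      · rw [hαA a haA, zero_mul]
        symm
        apply Finset.sum_eq_zero
        intro B _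
        simp
    rw [Finset.sum_congr rfl (fun a _ => hpt a), Finset.sum_comm]
    apply Finset.sum_congr rfl
    intro B _
    rw [hgB]
    by_cases h2 : (B.Nonempty ∧ ∀ b ∈ B, b ∈ A)
    · simp only [if_pos h2]
      unfold graphT
      have hN0 : (Nat.card (NB L B) : ℂ) ≠ 0 := Nat.cast_ne_zero.mpr Nat.card_pos.ne'
      have e1 : ∀ a : L, (if a ∈ NB L B then (-1 : ℂ) ^ (B.card + 1) *
            (α a * (starRingEnd ℂ) (avgK (HB H B) (χ : G → ℂ) (a : G))) else 0) =
          (-1 : ℂ) ^ (B.card + 1) * (if a ∈ NB L B then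
            α a * (starRingEnd ℂ) (avgK (HB H B) (χ : G → ℂ) (a : G)) else 0) := by
        intro a; split_ifs <;> simp
      rw [Finset.sum_congr rfl (fun a _ => e1 a), ← Finset.mul_sum]
      have e2 : ∀ X : ℂ, (Nat.card (NB L B) : ℂ) * ((-1 : ℂ) ^ (B.card + 1) *
          ((Nat.card (NB L B) : ℂ)⁻¹ * X)) = (-1 : ℂ) ^ (B.card + 1) * X := by
        intro X; field_simp
      rw [e2]
    · simp only [if_neg h2, ite_self, Finset.sum_const_zero, mul_zero]
  rw [hmain]
  have hm' : ∑ B : Finset G, (Nat.card (NB L B) : ℂ) * gB B = (Nat.card L : ℂ) * (m : ℂ) := hm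
  rw [hm', ← mul_assoc, inv_mul_cancel₀ hL0, one_mul]

end Cfsg.Agent.Helper11
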