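import Mathlib
import Cfsg.Agent.Helper11.DadeZ4
import Cfsg.Agent.Helper11.Virtual
import Cfsg.Agent.Helper1.Burnside
import Cfsg.Agent.S1500

set_option autoImplicit false

namespace Cfsg.Agent.Helper11

open Cfsg Finset

universe u

theorem dz_irr_inner {Γ : Type u} [Group Γ] [Fintype Γ] {f g : Γ → ℂ} (hf : IsIrrCharacter Γ f)
    (hg : IsIrrCharacter Γ g) : classInner f g = if f = g then 1 else 0 := by
  classical
  have h := Cfsg.Agent.Helper25.irr_classInner (⟨f, hf⟩ : IrrCharacter Γ) ⟨g, hg⟩
  by_cases hfg : f = g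
  · rw [if_pos hfg]
    rw [if_pos (Subtype.ext hfg)] at h
    exact h
  · rw [if_neg hfg]
    rw [if_neg (fun h' => hfg (congrArg Subtype.val h'))] at h
    exact h

/-- The Dade map commutes with complex conjugation. -/
theorem dadeIsometry_conjFun {G : Type u} [Group G] (A : Set G) (L : Subgroup G)
    (H : G → Subgroup G) (α : L → ℂ) :
    dadeIsometry A L H (conjFun α) = conjFun (dadeIsometry A L H α) := by
  classical
  funext g
  show _ = (starRingEnd ℂ) (dadeIsometry A L H α g)
  unfold dadeIsometry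
  split_ifs with h
  · rfl
  · simp

/-- The Dade image vanishes at `1`. -/
theorem dadeIsometry_one {G : Type u} [Group G] {A : Set G} {L : Subgroup G}
    {H : G → Subgroup G} (hD : DadeHypothesis A L H) (α : L → ℂ) :
    dadeIsometry A L H α 1 = 0 := by
  apply dadeIsometry_apply_of_not
  rintro ⟨a, ha, u, hu, x, hx⟩
  have h1 : a * u = 1 := by rw [← hx]; group
  have hu' : u = a⁻¹ := eq_inv_of_mul_eq_one_right h1
  have hmem : a⁻¹ ∈ H a ⊓ (L ⊓ Subgroup.centralizer ({a} : Set G)) :=
    Subgroup.mem_inf.mpr ⟨hu' ▸ hu, Subgroup.inv_mem _ (dade_mem_CL hD ha)⟩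
  rw [hD.inf_eq_bot a ha, Subgroup.mem_bot, inv_eq_one] at hmem
  rw [hmem] at ha
  exact hD.one_not_mem ha

/-- Dade image of `χ - conj χ` is `μ - conj μ` for an irreducible `μ`. -/
theorem dade_sub_conj {G : Type u} [Group G] [Fintype G] (A : Set G) (L : Subgroup G) [Fintype L]
    (H : G → Subgroup G) (hD : DadeHypothesis A L H) (χ : L → ℂ) (hχ : IsIrrCharacter L χ)
    (hsupp : ∀ x : L, x ≠ 1 → (x : G) ∉ A → χ x = 0) :
    ∃ μ : G → ℂ, IsIrrCharacter G μ ∧
      dadeIsometry A L H (χ - conjFun χ) = μ - conjFun μ := by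
  classical
  by_cases hreal : conjFun χ = χ
  · refine ⟨fun _ => 1, Helper1.isIrrCharacter_one G, ?_⟩
    rw [hreal, sub_self]
    funext g
    have h0 : dadeIsometry A L H (0 : L → ℂ) g = 0 := by
      unfold dadeIsometry
      split_ifs <;> rfl
    rw [h0]
    simp [conjFun]
  · have hχc : IsCharacter L χ := Helper2.isCharacter_of_isIrrCharacter hχ
    have hχbar : IsIrrCharacter L (conjFun χ) := Helper2.isIrrCharacter_conj hχ
    have hα : IsGeneralizedCharacter L (χ - conjFun χ) :=
      ⟨χ, conjFun χ, hχc, Helper2.isCharacter_of_isIrrCharacter hχbar, rfl⟩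
    have hαc : IsClassFunction L (χ - conjFun χ) := (Helper2.isGeneralizedCharacter_iff.mp hα).1
    have hχ1 : conjFun χ 1 = χ 1 := by
      have h := Helper25.irr_one_eq_degree (⟨χ, hχ⟩ : IrrCharacter L)
      show (starRingEnd ℂ) (χ 1) = χ 1
      rw [show χ 1 = (charDegree χ : ℂ) from h]
      exact Complex.conj_natCast _
    have hαA : ∀ x : L, (x : G) ∉ A → (χ - conjFun χ) x = 0 := by
      intro x hx
      by_cases h1 : x = 1
      · rw [h1, Pi.sub_apply, hχ1, sub_self]
      · rw [Pi.sub_apply, show conjFun χ x = (starRingEnd ℂ) (χ x) from rfl, hsupp x h1 hx,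
          map_zero, sub_self]
    have hgen := dade_genChar A L H hD _ hα hαA
    have hiso := (Cfsg.Agent.S1500.result A L H hD _ hαc hαA).1 _ hαc hαA
    have hnorm : classInner (χ - conjFun χ) (χ - conjFun χ) = 2 := by
      rw [Helper2.classInner_sub_left, Helper2.classInner_sub_right, Helper2.classInner_sub_right,
        dz_irr_inner hχ hχ, dz_irr_inner hχ hχbar, dz_irr_inner hχbar hχ, dz_irr_inner hχbar hχbar]
      rw [if_pos rfl, if_pos rfl, if_neg (fun h => hreal h.symm), if_neg hreal]
      norm_num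
    have hone : dadeIsometry A L H (χ - conjFun χ) 1 = 0 := dadeIsometry_one hD _
    obtain ⟨ψ₁, ψ₂, hne, heq⟩ := virtual_norm_two hgen (by rw [hiso, hnorm]) hone
    have hconj : conjFun (dadeIsometry A L H (χ - conjFun χ)) =
        - dadeIsometry A L H (χ - conjFun χ) := by
      rw [← dadeIsometry_conjFun]
      have e : conjFun (χ - conjFun χ) = -(χ - conjFun χ) := by
        funext x
        simp only [Pi.sub_apply, Pi.neg_apply, conjFun, map_sub, Complex.conj_conj]
        ring
      rw [e]
      funext g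
      show _ = -(dadeIsometry A L H (χ - conjFun χ) g)
      unfold dadeIsometry
      split_ifs with h
      · rfl
      · simp
    have hψ1bar : IsIrrCharacter G (conjFun (ψ₁ : G → ℂ)) := Helper2.isIrrCharacter_conj ψ₁.2
    have key : classInner (dadeIsometry A L H (χ - conjFun χ)) (conjFun (ψ₁ : G → ℂ)) = -1 := by
      have h1 : classInner (conjFun (dadeIsometry A L H (χ - conjFun χ)))
          (conjFun (ψ₁ : G → ℂ)) =
          (starRingEnd ℂ) (classInner (dadeIsometry A L H (χ - conjFun χ)) (ψ₁ : G → ℂ)) :=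
        classInner_conjFun_conjFun _ _
      rw [hconj, Helper2.classInner_neg_left] at h1
      have h2 : classInner (dadeIsometry A L H (χ - conjFun χ)) (ψ₁ : G → ℂ) = 1 := by
        rw [heq, Helper2.classInner_sub_left, Helper2.classInner_irr_irr,
          Helper2.classInner_irr_irr, if_pos rfl, if_neg (Ne.symm hne)]
        norm_num
      rw [h2, map_one] at h1
      linear_combination (-1 : ℂ) * h1
    rw [heq, Helper2.classInner_sub_left, dz_irr_inner ψ₁.2 hψ1bar, dz_irr_inner ψ₂.2 hψ1bar]
      at key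
    have h2eq : (ψ₂ : G → ℂ) = conjFun (ψ₁ : G → ℂ) := by
      by_contra hcon
      rw [if_neg hcon] at key
      split_ifs at key <;> norm_num at key
    refine ⟨ψ₁, ψ₁.2, ?_⟩
    rw [heq, h2eq]

end Cfsg.Agent.Helper11
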