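import Mathlib
import Cfsg.Agent.Helper11.Feit1
import Cfsg.Agent.Helper11.BrauerConj
import Cfsg.Agent.Helper11.Coh8
import Cfsg.Agent.S1528

/-!
# Characters of Frobenius groups and coherence descent (helper11)

`Γ` is a finite group with a normal subgroup `K` such that `C_Γ(k) ≤ K` for `1 ≠ k ∈ K`.

* `frob_ind_irr`: `Ind θ` is irreducible for a non-principal irreducible character `θ` of `K`.
* `frob_irr_set_eq`: the irreducible characters of `Γ` not trivial on `K` are exactly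
  `inducedIrrAbove K ⊥`.
* `frob_sum_degree_sq`, `frob_dvd_relIndex_pred`: `∑_{S(A)} χ(1)² = |Γ:K| (|K:A| - 1)` and
  `|Γ:K| ∣ |K:A| - 1` for `A ⊴ Γ`.
* `frob_descent`, `frob_descent_strict`, `frob_descent_big`: descent of coherence.
* `commChain`, `frob_chain_descent`, `frob_chain_descent_big`: descent along iterated commutators.
-/

set_option autoImplicit false

namespace Cfsg.Agent.Helper11

open Cfsg

universe u v

section FrobChar

variable {Γ : Type u} [Group Γ] [Fintype Γ] (K : Subgroup Γ) [hK : K.Normal]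

theorem frob_ind_irr (hC : ∀ n ∈ K, n ≠ 1 → Subgroup.centralizer ({n} : Set Γ) ≤ K)
    (φ : IrrCharacter K) (hφne : (φ : K → ℂ) ≠ (fun _ => 1)) :
    IsIrrCharacter Γ (indFun K (φ : K → ℂ)) := by
  classical
  have hN : K.Normal := inferInstance
  have : Fintype K := Fintype.ofFinite K
  have hfix : ∀ g : Γ, g ∉ K → (fun h => (φ : K → ℂ) (conjMap K g h)) ≠ (φ : K → ℂ) := by
    intro g hg hfix
    apply hφne
    apply eq_one_of_conj_fixed K g _ φ hfix
    intro c hc hconj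
    obtain ⟨u, hu⟩ := isConj_iff.mp hconj
    have huM : (u : Γ) * (g * c * g⁻¹) * (u : Γ)⁻¹ = c := by
      have := congrArg Subtype.val hu
      simpa [conjMap] using this
    have hcen : (u : Γ) * g ∈ Subgroup.centralizer ({(c : Γ)} : Set Γ) := by
      rw [Subgroup.mem_centralizer_singleton_iff]
      calc (u : Γ) * g * c = ((u : Γ) * (g * c * g⁻¹) * (u : Γ)⁻¹) * ((u : Γ) * g) := by group
        _ = c * ((u : Γ) * g) := by rw [huM]
    have hmem := hC c c.2 (fun h => hc (Subtype.ext h)) hcen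
    apply hg
    have : g = (u : Γ)⁻¹ * ((u : Γ) * g) := by group
    rw [this]
    exact K.mul_mem (K.inv_mem u.2) hmem
  have hnorm : classInner (indFun K (φ : K → ℂ)) (indFun K (φ : K → ℂ)) = 1 := by
    rw [Cfsg.Agent.Helper2.frobenius_reciprocity K (φ : K → ℂ) (indFun K φ)
      (Cfsg.Agent.Helper2.indFun_isClassFunction K φ),
      Cfsg.Agent.Helper2.indFun_restrict_normal K (φ : K → ℂ),
      Cfsg.Agent.Helper2.classInner_smul_right, Cfsg.Agent.Helper2.classInner_sum_right]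
    have hterm : ∀ x : Γ, classInner (φ : K → ℂ) (Cfsg.Agent.Helper2.conjChar K φ x⁻¹) =
        if x ∈ K then 1 else 0 := by
      intro x
      by_cases hx : x ∈ K
      · rw [if_pos hx, Cfsg.Agent.Helper2.conjChar_of_mem K φ
          (Cfsg.Agent.Helper1.isClassFunction_irr φ) (K.inv_mem hx)]
        exact (Cfsg.Agent.Helper25.irr_classInner φ φ).trans (if_pos rfl)
      · rw [if_neg hx]
        have hne : (⟨Cfsg.Agent.Helper2.conjChar K φ x⁻¹,
            Cfsg.Agent.Helper2.isIrrCharacter_conjChar K φ.2 x⁻¹⟩ : IrrCharacter K) ≠ φ := by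
          intro h
          exact hfix x⁻¹ (fun h' => hx (by simpa using K.inv_mem h')) (congrArg Subtype.val h)
        have := Cfsg.Agent.Helper25.irr_classInner φ
          ⟨_, Cfsg.Agent.Helper2.isIrrCharacter_conjChar K φ.2 x⁻¹⟩
        rw [if_neg (Ne.symm hne)] at this
        exact this
    rw [Finset.sum_congr rfl (fun x _ => hterm x), Finset.sum_boole]
    have hcard : Nat.card K = (Finset.univ.filter (fun y : Γ => y ∈ K)).card := by
      rw [Nat.card_eq_fintype_card, Fintype.card_subtype]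
    rw [← hcard, map_inv₀, Complex.conj_natCast]
    have hN0 : (Nat.card K : ℂ) ≠ 0 := Nat.cast_ne_zero.mpr Nat.card_pos.ne'
    field_simp
  exact Cfsg.Agent.Helper2.isIrrCharacter_of_classInner_self
    (Cfsg.Agent.Helper2.isCharacter_indFun K (Cfsg.Agent.Helper25.irr_isCharacter φ)) hnorm

theorem frob_irr_of_mem (hC : ∀ n ∈ K, n ≠ 1 → Subgroup.centralizer ({n} : Set Γ) ≤ K)
    {A : Subgroup Γ} {φ : Γ → ℂ} (hφ : φ ∈ inducedIrrAbove K A) : IsIrrCharacter Γ φ := by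
  obtain ⟨θ, hθ, hne, -, rfl⟩ := hφ
  exact frob_ind_irr K hC ⟨θ, hθ⟩ hne

theorem frob_degree (hC : ∀ n ∈ K, n ≠ 1 → Subgroup.centralizer ({n} : Set Γ) ≤ K)
    (θ : IrrCharacter K) (hne : (θ : K → ℂ) ≠ (fun _ => 1)) :
    charDegree (indFun K (θ : K → ℂ)) = K.index * charDegree (θ : K → ℂ) := by
  have h1 := Cfsg.Agent.Helper25.irr_one_eq_degree
    (⟨indFun K (θ : K → ℂ), frob_ind_irr K hC θ hne⟩ : IrrCharacter Γ)
  have h2 : indFun K (θ : K → ℂ) 1 = (charDegree (indFun K (θ : K → ℂ)) : ℂ) := h1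
  rw [Cfsg.Agent.Helper2.indFun_one_apply, Cfsg.Agent.Helper25.irr_one_eq_degree] at h2
  exact_mod_cast h2.symm

theorem frob_irr_set_eq (hC : ∀ n ∈ K, n ≠ 1 → Subgroup.centralizer ({n} : Set Γ) ≤ K) :
    {χ : Γ → ℂ | IsIrrCharacter Γ χ ∧ ∃ h ∈ K, χ h ≠ χ 1} = inducedIrrAbove K ⊥ := by
  classical
  have : Fintype K := Fintype.ofFinite K
  ext χ
  constructor
  · rintro ⟨hχ, hker⟩
    obtain ⟨φ, hφ, rfl⟩ := Cfsg.Agent.S1528.result K hC χ hχ hker
    refine ⟨φ, hφ, ?_, ?_, rfl⟩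
    · rintro rfl
      obtain ⟨h, hh, hne⟩ := hker
      apply hne
      rw [Cfsg.Agent.Helper7.indFun_apply_invariant K (fun _ => (1 : ℂ)) (fun _ _ => rfl) ⟨h, hh⟩,
        Cfsg.Agent.Helper2.indFun_one_apply]
    · intro a ha
      have h1 : a = 1 := Subtype.ext (Subgroup.mem_bot.mp ha)
      rw [h1]
  · rintro ⟨θ, hθ, hne, -, rfl⟩
    have hirr := frob_ind_irr K hC ⟨θ, hθ⟩ hne
    refine ⟨hirr, ?_⟩
    by_contra hcon
    push Not at hcon
    have h1 : classInner (indFun K θ) (indFun K θ) = 1 :=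
      (irr_inner_fun hirr hirr).trans (if_pos rfl)
    rw [Cfsg.Agent.Helper2.frobenius_reciprocity K θ (indFun K θ)
      (Cfsg.Agent.Helper2.indFun_isClassFunction K θ)] at h1
    have h2 : (fun h : K => indFun K θ h) = (indFun K θ 1) • (fun _ : K => (1 : ℂ)) := by
      funext h
      simp [hcon h h.2]
    have h3 : classInner θ (fun _ : K => (1 : ℂ)) = 0 := by
      have h4 : ((Cfsg.Agent.Helper25.trivChar K : IrrCharacter K) : K → ℂ) = fun _ => 1 := by
        funext k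
        exact Cfsg.Agent.Helper25.trivChar_apply k
      have h5 := irr_inner_fun hθ (Cfsg.Agent.Helper25.trivChar K).2
      rw [h4, if_neg hne] at h5
      exact h5
    rw [h2, Cfsg.Agent.Helper2.classInner_smul_right, h3, mul_zero] at h1
    exact zero_ne_one h1

theorem frob_sum_degree_sq (hC : ∀ n ∈ K, n ≠ 1 → Subgroup.centralizer ({n} : Set Γ) ≤ K)
    (A : Subgroup Γ) [A.Normal] :
    ∑ φ ∈ indAbove K A, charDegree φ ^ 2 = K.index * (A.relIndex K - 1) := by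
  classical
  have hirr : ∀ φ ∈ inducedIrrAbove K A, IsIrrCharacter Γ φ := fun φ hφ => frob_irr_of_mem K hC hφ
  have h1 := sum_sq_div_indAbove K A (fun φ hφ ψ hψ hne => by
    rw [irr_inner_fun (hirr φ hφ) (hirr ψ hψ), if_neg hne])
  have hpos : 1 ≤ A.relIndex K := relIndex_pos_of_finite A K
  have h2 : ((∑ φ ∈ indAbove K A, charDegree φ ^ 2 : ℕ) : ℂ) =
      ((K.index * (A.relIndex K - 1) : ℕ) : ℂ) := by
    rw [Nat.cast_mul, Nat.cast_sub hpos, Nat.cast_one, ← h1, Nat.cast_sum]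
    apply Finset.sum_congr rfl
    intro φ hφ
    have hφ' := hirr φ ((mem_indAbove K A φ).mp hφ)
    have h3 : φ 1 = (charDegree φ : ℂ) :=
      Cfsg.Agent.Helper25.irr_one_eq_degree (⟨φ, hφ'⟩ : IrrCharacter Γ)
    rw [irr_inner_fun hφ' hφ', if_pos rfl, div_one, h3]
    push_cast
    rfl
  exact_mod_cast h2

theorem frob_dvd_relIndex_pred (hC : ∀ n ∈ K, n ≠ 1 → Subgroup.centralizer ({n} : Set Γ) ≤ K)
    (A : Subgroup Γ) [A.Normal] : K.index ∣ A.relIndex K - 1 := by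
  classical
  have h1 := frob_sum_degree_sq K hC A
  have hKidx : 0 < K.index := Nat.pos_of_ne_zero Subgroup.index_ne_zero_of_finite
  have h2 : K.index * K.index ∣ ∑ φ ∈ indAbove K A, charDegree φ ^ 2 := by
    apply Finset.dvd_sum
    intro φ hφ
    obtain ⟨θ, hθ, rfl⟩ := (mem_inducedIrrAbove_iff K A φ).mp ((mem_indAbove K A φ).mp hφ)
    rw [frob_degree K hC θ ((mem_irrAbove K A θ).mp hθ).1]
    exact ⟨charDegree (θ : K → ℂ) ^ 2, by ring⟩
  rw [h1] at h2
  exact Nat.dvd_of_mul_dvd_mul_left hKidx h2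

theorem frob_relIndex_ge (hC : ∀ n ∈ K, n ≠ 1 → Subgroup.centralizer ({n} : Set Γ) ≤ K)
    (X D : Subgroup Γ) [X.Normal] [D.Normal] (hXD : X < D) (hDK : D ≤ K) :
    K.index + 1 ≤ X.relIndex D := by
  have hm1 := frob_dvd_relIndex_pred K hC D
  have hx1 := frob_dvd_relIndex_pred K hC X
  have hmul : X.relIndex D * D.relIndex K = X.relIndex K :=
    Subgroup.relIndex_mul_relIndex X D K hXD.le hDK
  have hmpos : 0 < D.relIndex K := relIndex_pos_of_finite D K
  have hrpos : 0 < X.relIndex D := relIndex_pos_of_finite X D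
  have hrne : X.relIndex D ≠ 1 := fun h => (not_le_of_gt hXD) (Subgroup.relIndex_eq_one.mp h)
  have hr1 : K.index ∣ X.relIndex D - 1 := by
    apply dvd_pred_of_mul K.index (D.relIndex K) (X.relIndex D) hmpos hrpos hm1
    rw [mul_comm, hmul]
    exact hx1
  have := Nat.le_of_dvd (by omega) hr1
  omega

end FrobChar

section CommChain

variable {Γ : Type u} [Group Γ]

/-- The chain `M₀ ≥ ⁅M₀, K⁆ ≥ ⁅⁅M₀, K⁆, K⁆ ≥ …`. -/
def commChain (K M₀ : Subgroup Γ) : ℕ → Subgroup Γ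
  | 0 => M₀
  | k + 1 => ⁅commChain K M₀ k, K⁆

theorem commChain_zero (K M₀ : Subgroup Γ) : commChain K M₀ 0 = M₀ := rfl

theorem commChain_succ (K M₀ : Subgroup Γ) (k : ℕ) :
    commChain K M₀ (k + 1) = ⁅commChain K M₀ k, K⁆ := rfl

theorem commChain_normal (K M₀ : Subgroup Γ) [hK : K.Normal] [hM : M₀.Normal] (k : ℕ) :
    (commChain K M₀ k).Normal := by
  induction k with
  | zero => exact hM
  | succ k ih =>
    rw [commChain_succ]
    have _hih := ih
    infer_instance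

theorem commChain_succ_le (K M₀ : Subgroup Γ) [hK : K.Normal] [hM : M₀.Normal] (k : ℕ) :
    commChain K M₀ (k + 1) ≤ commChain K M₀ k := by
  rw [commChain_succ]
  have _hcn := commChain_normal K M₀ k
  exact Subgroup.commutator_le_left _ _

theorem commChain_le_zero (K M₀ : Subgroup Γ) [hK : K.Normal] [hM : M₀.Normal] (k : ℕ) :
    commChain K M₀ k ≤ M₀ := by
  induction k with
  | zero => exact le_rfl
  | succ k ih => exact le_trans (commChain_succ_le K M₀ k) ih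

theorem commChain_antitone (K M₀ : Subgroup Γ) [hK : K.Normal] [hM : M₀.Normal] :
    Antitone (commChain K M₀) :=
  antitone_nat_of_succ_le (commChain_succ_le K M₀)

theorem commChain_le_lcs (K M₀ : Subgroup Γ) (hM : M₀ ≤ K) (k : ℕ) :
    commChain K M₀ k ≤ K.lowerCentralSeries k := by
  induction k with
  | zero => exact hM
  | succ k ih =>
    rw [commChain_succ, Subgroup.lowerCentralSeries_succ]
    exact Subgroup.commutator_mono ih le_rfl

theorem commChain_eq_bot (K M₀ : Subgroup Γ) (hnil : Group.IsNilpotent K) (hM : M₀ ≤ K) :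
    ∃ k, commChain K M₀ k = ⊥ := by
  obtain ⟨n, hn⟩ := (Subgroup.isNilpotent_iff_lowerCentralSeries K).mp hnil
  refine ⟨n, le_bot_iff.mp ?_⟩
  rw [← hn]
  exact commChain_le_lcs K M₀ hM n

/-- Commutators with a join. -/
theorem comm_mem_of_sup (A B C Y : Subgroup Γ) [hY : Y.Normal]
    (hA : ∀ a ∈ A, ∀ y ∈ C, a * y * a⁻¹ * y⁻¹ ∈ Y)
    (hB : ∀ b ∈ B, ∀ y ∈ C, b * y * b⁻¹ * y⁻¹ ∈ Y) :
    ∀ x ∈ A ⊔ B, ∀ y ∈ C, x * y * x⁻¹ * y⁻¹ ∈ Y := by
  let T : Subgroup Γ :=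
    { carrier := {x | ∀ y ∈ C, x * y * x⁻¹ * y⁻¹ ∈ Y}
      one_mem' := by
        intro y _
        have h1 : (1 : Γ) * y * 1⁻¹ * y⁻¹ = 1 := by group
        rw [h1]
        exact Y.one_mem
      mul_mem' := by
        intro a b ha hb y hy
        have h1 : a * b * y * (a * b)⁻¹ * y⁻¹ =
            (a * (b * y * b⁻¹ * y⁻¹) * a⁻¹) * (a * y * a⁻¹ * y⁻¹) := by group
        rw [h1]
        exact Y.mul_mem (hY.conj_mem _ (hb y hy) a) (ha y hy)
      inv_mem' := by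
        intro a ha y hy
        have h1 : a⁻¹ * y * a⁻¹⁻¹ * y⁻¹ = a⁻¹ * (a * y * a⁻¹ * y⁻¹)⁻¹ * a⁻¹⁻¹ := by group
        rw [h1]
        exact hY.conj_mem _ (Y.inv_mem (ha y hy)) a⁻¹ }
  have hle : A ⊔ B ≤ T := sup_le (fun a ha => hA a ha) (fun b hb => hB b hb)
  exact fun x hx => hle hx

end CommChain

theorem frob_arith (e r m : ℕ) (he : 1 ≤ e) (hr : e + 1 ≤ r) (hm : e + 1 ≤ m) :
    4 * e ^ 2 * m < (r * m - 1) ^ 2 := by
  have h1 : e * m + e + 1 ≤ r * m := by nlinarith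
  obtain ⟨q, hq⟩ : ∃ q, r * m = q + 1 := ⟨r * m - 1, by omega⟩
  rw [hq, Nat.add_sub_cancel]
  have h2 : e * m + e ≤ q := by omega
  have h3 : (e * m + e) ^ 2 ≤ q ^ 2 := Nat.pow_le_pow_left h2 2
  obtain ⟨k, rfl⟩ : ∃ k, m = k + 2 := ⟨m - 2, by omega⟩
  have h4 : (e * (k + 2) + e) ^ 2 = 4 * e ^ 2 * (k + 2) + e ^ 2 * (k + 1) ^ 2 := by ring
  have h5 : 0 < e ^ 2 * (k + 1) ^ 2 := Nat.mul_pos (pow_pos he 2) (pow_pos (Nat.succ_pos k) 2)
  omega

section FrobDescent

variable {Γ : Type u} [Group Γ] [Fintype Γ] {G : Type v} [Group G] [Fintype G]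
  (K : Subgroup Γ) [hK : K.Normal]

/-- Descent of coherence in a Frobenius group (Peterfalvi (6.2) for irreducible characters). -/
theorem frob_descent (hC : ∀ n ∈ K, n ≠ 1 → Subgroup.centralizer ({n} : Set Γ) ≤ K)
    (hsolv : Group.IsSolvable K) (τ : (Γ → ℂ) → (G → ℂ))
    (hτ : IsLinearIsometryOn (zspanOn (inducedIrrAbove K ⊥) {1}ᶜ) τ)
    (hτ1 : ∀ α ∈ zspanOn (inducedIrrAbove K ⊥) {1}ᶜ, τ α 1 = 0)
    (X Y D : Subgroup Γ) [X.Normal] [Y.Normal] [D.Normal]
    (hYX : Y ≤ X) (hXK : X < K) (hDK : D ≤ K)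
    (hcent : ∀ x ∈ D, ∀ y ∈ K, x * y * x⁻¹ * y⁻¹ ∈ Y)
    (hX : IsCoherent (inducedIrrAbove K X) {1}ᶜ τ)
    (hlt : 4 * K.index ^ 2 * D.relIndex K < (X.relIndex K - 1) ^ 2) :
    IsCoherent (inducedIrrAbove K Y) {1}ᶜ τ := by
  classical
  obtain ⟨S, hSdef⟩ : ∃ S : Set (Γ → ℂ), S = inducedIrrAbove K ⊥ := ⟨_, rfl⟩
  rw [← hSdef] at hτ hτ1
  have hsubS : ∀ E : Subgroup Γ, inducedIrrAbove K E ⊆ S := by
    intro E
    rw [hSdef]
    exact inducedIrrAbove_mono K bot_le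
  have hirrS : ∀ φ ∈ S, IsIrrCharacter Γ φ := by
    intro φ hφ
    rw [hSdef] at hφ
    exact frob_irr_of_mem K hC hφ
  obtain ⟨T₀, hT₀def⟩ : ∃ T₀ : Finset (Γ → ℂ), T₀ = indAbove K X := ⟨_, rfl⟩
  obtain ⟨Z, hZdef⟩ : ∃ Z : Finset (Γ → ℂ), Z = indAbove K Y := ⟨_, rfl⟩
  have hT₀S : (↑T₀ : Set (Γ → ℂ)) ⊆ S := by
    rw [hT₀def, coe_indAbove]
    exact hsubS X
  have hZS : (↑Z : Set (Γ → ℂ)) ⊆ S := by
    rw [hZdef, coe_indAbove]
    exact hsubS Y
  have hcoh : IsCoherent (↑T₀ : Set (Γ → ℂ)) {1}ᶜ τ := by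
    rw [hT₀def, coe_indAbove]
    exact hX
  have hsum := frob_sum_degree_sq K hC X
  rw [← hT₀def] at hsum
  obtain ⟨lamA, hlamA, hlamA1⟩ := exists_linear_irrAbove K hsolv X hXK
  obtain ⟨χ₁, hχ₁def⟩ : ∃ χ₁ : Γ → ℂ, χ₁ = indFun K (lamA : K → ℂ) := ⟨_, rfl⟩
  have hχ₁T : χ₁ ∈ T₀ := by
    rw [hT₀def, hχ₁def]
    exact (mem_indAbove K X _).mpr ((mem_inducedIrrAbove_iff K X _).mpr ⟨lamA, hlamA, rfl⟩)
  have hdlam : charDegree (lamA : K → ℂ) = 1 := by
    have h1 := Cfsg.Agent.Helper25.irr_one_eq_degree lamA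
    rw [hlamA1] at h1
    exact_mod_cast h1.symm
  have hdχ₁ : charDegree χ₁ = K.index := by
    rw [hχ₁def, frob_degree K hC lamA ((mem_irrAbove K X lamA).mp hlamA).1, hdlam, mul_one]
  have hKidx : 0 < K.index := Nat.pos_of_ne_zero Subgroup.index_ne_zero_of_finite
  have hcardD : Nat.card D * D.relIndex K = Nat.card K := by
    have := (D.subgroupOf K).card_mul_index
    rwa [Nat.card_congr (Subgroup.subgroupOfEquivOfLe hDK).toEquiv] at this
  have hstep : ∀ χ ∈ Z, χ ∉ T₀ → ∃ ψ ∈ T₀, charDegree ψ ∣ charDegree χ ∧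
      2 * charDegree ψ * charDegree χ < ∑ ξ ∈ T₀, charDegree ξ ^ 2 := by
    intro χ hχ _
    rw [hZdef] at hχ
    obtain ⟨θ, hθ, hχθ⟩ := (mem_inducedIrrAbove_iff K Y χ).mp ((mem_indAbove K Y χ).mp hχ)
    obtain ⟨hθne, hθker⟩ := (mem_irrAbove K Y θ).mp hθ
    obtain ⟨t, ht⟩ : ∃ t : ℕ, t = charDegree (θ : K → ℂ) := ⟨_, rfl⟩
    have hdχ : charDegree χ = K.index * t := by
      rw [hχθ, ht]
      exact frob_degree K hC θ hθne
    refine ⟨χ₁, hχ₁T, ?_, ?_⟩
    · rw [hdχ₁, hdχ]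
      exact dvd_mul_right _ _
    · rw [hsum, hdχ₁, hdχ]
      have hbound := irr_degree_bound θ (D.subgroupOf K) (⊤ : Subgroup K) le_top
        (by
          intro x hx y _
          apply hθker
          have h1 := hcent (x : Γ) (Subgroup.mem_subgroupOf.mp hx) (y : Γ) y.2
          have h2 := Y.inv_mem h1
          simpa [mul_assoc] using h2)
      rw [← ht, Nat.card_congr (Subgroup.subgroupOfEquivOfLe hDK).toEquiv, Subgroup.card_top]
        at hbound
      have hcDpos : 0 < Nat.card D := Nat.card_pos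
      have hcKpos : 0 < Nat.card K := Nat.card_pos
      have ht2 : t ^ 2 ≤ D.relIndex K := by
        have h1 : t ^ 2 * (Nat.card D * Nat.card K) ≤
            D.relIndex K * (Nat.card D * Nat.card K) := by
          calc t ^ 2 * (Nat.card D * Nat.card K) = t ^ 2 * Nat.card D * Nat.card K := by ring
            _ ≤ Nat.card K ^ 2 := hbound
            _ = (Nat.card D * D.relIndex K) * Nat.card K := by rw [hcardD]; ring
            _ = D.relIndex K * (Nat.card D * Nat.card K) := by ring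
        exact Nat.le_of_mul_le_mul_right h1 (Nat.mul_pos hcDpos hcKpos)
      have hN : 2 * K.index * t < X.relIndex K - 1 := by
        apply lt_of_pow_lt_pow_left₀ 2 (Nat.zero_le _)
        calc (2 * K.index * t) ^ 2 = 4 * K.index ^ 2 * t ^ 2 := by ring
          _ ≤ 4 * K.index ^ 2 * D.relIndex K := Nat.mul_le_mul_left _ ht2
          _ < _ := hlt
      calc 2 * K.index * (K.index * t) = K.index * (2 * K.index * t) := by ring
        _ < K.index * (X.relIndex K - 1) := Nat.mul_lt_mul_of_pos_left hN hKidx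
  have hall := feit_extend_finset S hirrS τ hτ hτ1 T₀ Z hT₀S hZS hcoh hstep
  have hsub : inducedIrrAbove K Y ⊆ (↑(T₀ ∪ Z) : Set (Γ → ℂ)) := by
    intro φ hφ
    rw [Finset.mem_coe, hZdef]
    exact Finset.mem_union_right _ ((mem_indAbove K Y φ).mpr hφ)
  apply isCoherent_subset hsub hall
  obtain ⟨⟨α, hα, hαne⟩, -⟩ := hX
  exact ⟨α, zspanOn_mono (inducedIrrAbove_mono K hYX) _ hα, hαne⟩

/-- Descent when `Y ≤ X < D < K` and `⁅D, K⁆ ≤ Y`: the inequality is automatic. -/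
theorem frob_descent_strict (hC : ∀ n ∈ K, n ≠ 1 → Subgroup.centralizer ({n} : Set Γ) ≤ K)
    (hsolv : Group.IsSolvable K) (τ : (Γ → ℂ) → (G → ℂ))
    (hτ : IsLinearIsometryOn (zspanOn (inducedIrrAbove K ⊥) {1}ᶜ) τ)
    (hτ1 : ∀ α ∈ zspanOn (inducedIrrAbove K ⊥) {1}ᶜ, τ α 1 = 0)
    (X Y D : Subgroup Γ) [X.Normal] [Y.Normal] [D.Normal]
    (hYX : Y ≤ X) (hXD : X < D) (hDK : D < K)
    (hcent : ∀ x ∈ D, ∀ y ∈ K, x * y * x⁻¹ * y⁻¹ ∈ Y)
    (hX : IsCoherent (inducedIrrAbove K X) {1}ᶜ τ) :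
    IsCoherent (inducedIrrAbove K Y) {1}ᶜ τ := by
  apply frob_descent K hC hsolv τ hτ hτ1 X Y D hYX (lt_trans hXD hDK) hDK.le hcent hX
  have hKidx : 0 < K.index := Nat.pos_of_ne_zero Subgroup.index_ne_zero_of_finite
  have hm1 := frob_dvd_relIndex_pred K hC D
  have hx1 := frob_dvd_relIndex_pred K hC X
  have hmul : X.relIndex D * D.relIndex K = X.relIndex K :=
    Subgroup.relIndex_mul_relIndex X D K hXD.le hDK.le
  have hmpos : 0 < D.relIndex K := relIndex_pos_of_finite D K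
  have hrpos : 0 < X.relIndex D := relIndex_pos_of_finite X D
  have hmne : D.relIndex K ≠ 1 := fun h => (not_le_of_gt hDK) (Subgroup.relIndex_eq_one.mp h)
  have hrne : X.relIndex D ≠ 1 := fun h => (not_le_of_gt hXD) (Subgroup.relIndex_eq_one.mp h)
  have hr1 : K.index ∣ X.relIndex D - 1 := by
    apply dvd_pred_of_mul K.index (D.relIndex K) (X.relIndex D) hmpos hrpos hm1
    rw [mul_comm, hmul]
    exact hx1
  have hm : K.index + 1 ≤ D.relIndex K := by
    have := Nat.le_of_dvd (by omega) hm1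
    omega
  have hr : K.index + 1 ≤ X.relIndex D := by
    have := Nat.le_of_dvd (by omega) hr1
    omega
  rw [← hmul]
  exact frob_arith _ _ _ hKidx hr hm

/-- Descent when `⁅X, K⁆ ≤ Y ≤ X < K` and `|K : X| > 4 e² + 1`. -/
theorem frob_descent_big (hC : ∀ n ∈ K, n ≠ 1 → Subgroup.centralizer ({n} : Set Γ) ≤ K)
    (hsolv : Group.IsSolvable K) (τ : (Γ → ℂ) → (G → ℂ))
    (hτ : IsLinearIsometryOn (zspanOn (inducedIrrAbove K ⊥) {1}ᶜ) τ)
    (hτ1 : ∀ α ∈ zspanOn (inducedIrrAbove K ⊥) {1}ᶜ, τ α 1 = 0)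
    (X Y : Subgroup Γ) [X.Normal] [Y.Normal] (hYX : Y ≤ X) (hXK : X < K)
    (hcent : ∀ x ∈ X, ∀ y ∈ K, x * y * x⁻¹ * y⁻¹ ∈ Y)
    (hX : IsCoherent (inducedIrrAbove K X) {1}ᶜ τ)
    (hbig : 4 * K.index ^ 2 + 2 ≤ X.relIndex K) :
    IsCoherent (inducedIrrAbove K Y) {1}ᶜ τ := by
  apply frob_descent K hC hsolv τ hτ hτ1 X Y X hYX hXK hXK.le hcent hX
  have := pf63_arith (X.relIndex K) 1 K.index one_pos hbig
  simpa using this

/-- Descent along the chain `commChain K M₀ k ⊔ V`, with auxiliary `W`. -/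
theorem frob_chain_descent (hC : ∀ n ∈ K, n ≠ 1 → Subgroup.centralizer ({n} : Set Γ) ≤ K)
    (hsolv : Group.IsSolvable K) (τ : (Γ → ℂ) → (G → ℂ))
    (hτ : IsLinearIsometryOn (zspanOn (inducedIrrAbove K ⊥) {1}ᶜ) τ)
    (hτ1 : ∀ α ∈ zspanOn (inducedIrrAbove K ⊥) {1}ᶜ, τ α 1 = 0)
    (M₀ V W : Subgroup Γ) [M₀.Normal] [V.Normal] [W.Normal] (hVW : V ≤ W)
    (hWV : ∀ x ∈ W, ∀ y ∈ K, x * y * x⁻¹ * y⁻¹ ∈ V)
    (hs1 : ¬ W ≤ M₀ ⊔ V) (hs2 : M₀ ⊔ W < K)
    (h0 : IsCoherent (inducedIrrAbove K (M₀ ⊔ V)) {1}ᶜ τ) (k : ℕ) :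
    IsCoherent (inducedIrrAbove K (commChain K M₀ k ⊔ V)) {1}ᶜ τ := by
  induction k with
  | zero => exact h0
  | succ k ih =>
    have _hcn := commChain_normal K M₀ k
    have _hcn := commChain_normal K M₀ (k + 1)
    have hle := commChain_le_zero K M₀ k
    apply frob_descent_strict K hC hsolv τ hτ hτ1 (commChain K M₀ k ⊔ V)
      (commChain K M₀ (k + 1) ⊔ V) (commChain K M₀ k ⊔ W) ?_ ?_ ?_ ?_ ih
    · exact sup_le_sup_right (commChain_succ_le K M₀ k) V
    · refine lt_of_le_of_ne (sup_le_sup_left hVW _) ?_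
      intro h
      apply hs1
      calc W ≤ commChain K M₀ k ⊔ W := le_sup_right
        _ = commChain K M₀ k ⊔ V := h.symm
        _ ≤ M₀ ⊔ V := sup_le_sup_right hle V
    · exact lt_of_le_of_lt (sup_le_sup_right hle W) hs2
    · apply comm_mem_of_sup
      · intro a ha y hy
        apply Subgroup.mem_sup_left
        rw [commChain_succ]
        exact Subgroup.commutator_mem_commutator ha hy
      · intro b hb y hy
        exact Subgroup.mem_sup_right (hWV b hb y hy)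

/-- Descent along the chain `commChain K M₀ k` when `|K : M₀| > 4 e² + 1`. -/
theorem frob_chain_descent_big (hC : ∀ n ∈ K, n ≠ 1 → Subgroup.centralizer ({n} : Set Γ) ≤ K)
    (hsolv : Group.IsSolvable K) (τ : (Γ → ℂ) → (G → ℂ))
    (hτ : IsLinearIsometryOn (zspanOn (inducedIrrAbove K ⊥) {1}ᶜ) τ)
    (hτ1 : ∀ α ∈ zspanOn (inducedIrrAbove K ⊥) {1}ᶜ, τ α 1 = 0)
    (M₀ : Subgroup Γ) [M₀.Normal] (hM₀K : M₀ < K)
    (hbig : 4 * K.index ^ 2 + 2 ≤ M₀.relIndex K)
    (h0 : IsCoherent (inducedIrrAbove K M₀) {1}ᶜ τ) (k : ℕ) :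
    IsCoherent (inducedIrrAbove K (commChain K M₀ k)) {1}ᶜ τ := by
  induction k with
  | zero => exact h0
  | succ k ih =>
    have _hcn := commChain_normal K M₀ k
    have _hcn := commChain_normal K M₀ (k + 1)
    have hle := commChain_le_zero K M₀ k
    apply frob_descent_big K hC hsolv τ hτ hτ1 (commChain K M₀ k) (commChain K M₀ (k + 1))
      (commChain_succ_le K M₀ k) (lt_of_le_of_lt hle hM₀K) ?_ ih ?_
    · intro a ha y hy
      rw [commChain_succ]
      exact Subgroup.commutator_mem_commutator ha hy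
    · have h1 : M₀.relIndex K ∣ (commChain K M₀ k).relIndex K :=
        Subgroup.relIndex_dvd_of_le_left K hle
      exact le_trans hbig (Nat.le_of_dvd (relIndex_pos_of_finite _ _) h1)

end FrobDescent

end Cfsg.Agent.Helper11
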