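import Mathlib
import Cfsg.Agent.Lead.Coprime

set_option autoImplicit false
open Pointwise

namespace Cfsg.Agent.Helper11

universe u

/-- Core fusion lemma (Schur–Zassenhaus form): `K` normal, `H ≤ U`, coprime orders, and
`k ∈ K` conjugates `H` into `U`.  Then `k = w c` with `w ∈ U ∩ K` and `c ∈ C_K(H)`. -/
theorem fusion_core {G : Type u} [Group G] [Finite G] (K U H : Subgroup G) [K.Normal]
    (hH : H ≤ U) (hcop : (Nat.card H).Coprime (Nat.card K))
    (hsolv : Group.IsSolvable H ∨ Group.IsSolvable K)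
    (k : G) (hk : k ∈ K) (hkU : ∀ h ∈ H, k * h * k⁻¹ ∈ U) :
    ∃ w ∈ U ⊓ K, ∃ c ∈ K ⊓ Subgroup.centralizer (H : Set G), k = w * c := by
  have hHN : H ≤ Subgroup.normalizer ((U ⊓ K : Subgroup G) : Set G) := by
    intro h hh
    rw [Subgroup.mem_normalizer_iff]
    intro x
    constructor
    · rintro ⟨hxU, hxK⟩
      exact ⟨U.mul_mem (U.mul_mem (hH hh) hxU) (U.inv_mem (hH hh)),
        ‹K.Normal›.conj_mem x hxK h⟩
    · rintro ⟨hxU, hxK⟩
      refine ⟨?_, ?_⟩
      · have := U.mul_mem (U.mul_mem (U.inv_mem (hH hh)) hxU) (hH hh)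
        simpa [mul_assoc] using this
      · have := ‹K.Normal›.conj_mem _ hxK h⁻¹
        simpa [mul_assoc] using this
  have hcop' : (Nat.card H).Coprime (Nat.card (U ⊓ K : Subgroup G)) :=
    Nat.Coprime.coprime_dvd_right (Subgroup.card_dvd_of_le inf_le_right) hcop
  have hsolv' : Group.IsSolvable H ∨ Group.IsSolvable (U ⊓ K : Subgroup G) := by
    rcases hsolv with h | h
    · exact Or.inl h
    · exact Or.inr (Lead.isSolvable_of_le inf_le_right h)
  have hB : MulAut.conj k • H ≤ H ⊔ (U ⊓ K) := by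
    intro y hy
    rw [Lead.mem_conj_smul'] at hy
    -- y = k h k⁻¹ with h = k⁻¹ y k
    set h := k⁻¹ * y * k with hh
    have hy' : y = k * h * k⁻¹ := by rw [hh]; group
    have h1 : k * h * k⁻¹ * h⁻¹ ∈ U ⊓ K := by
      refine ⟨U.mul_mem (hkU h hy) (U.inv_mem (hH hy)), ?_⟩
      have h2 : h * k⁻¹ * h⁻¹ ∈ K := ‹K.Normal›.conj_mem _ (K.inv_mem hk) h
      have h3 := K.mul_mem hk h2
      have h4 : k * (h * k⁻¹ * h⁻¹) = k * h * k⁻¹ * h⁻¹ := by group
      rw [h4] at h3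
      exact h3
    have h5 : y = (k * h * k⁻¹ * h⁻¹) * h := by rw [hy']; group
    rw [h5, sup_comm]
    exact Subgroup.mul_mem_sup h1 hy
  obtain ⟨n, hn, hnA⟩ := Lead.conj_in_sup (U ⊓ K) H (MulAut.conj k • H) hHN hcop' hsolv' hB
    (S0001.card_conj_smul _ _)
  rw [← S0001.conj_mul_smul] at hnA
  have hnk : n * k ∈ Subgroup.normalizer (H : Set G) := by
    rw [Subgroup.mem_normalizer_iff]
    intro y
    have h1 : (n * k) * y * (n * k)⁻¹ ∈ H ↔ (n * k) * y * (n * k)⁻¹ ∈ MulAut.conj (n * k) • H := by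
      rw [hnA]
    rw [h1, Lead.mem_conj_smul']
    have : (n * k)⁻¹ * ((n * k) * y * (n * k)⁻¹) * (n * k) = y := by group
    rw [this]
  have hHK : H ≤ Subgroup.normalizer (K : Set G) := by
    rw [Subgroup.normalizer_eq_top]; exact le_top
  have hc := Lead.mem_centralizer_of_mem_normalizer hHK hcop (K.mul_mem hn.2 hk) hnk
  refine ⟨n⁻¹, (U ⊓ K).inv_mem hn, n * k, ⟨K.mul_mem hn.2 hk, hc⟩, by group⟩

end Cfsg.Agent.Helper11
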