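import Mathlib
import Cfsg.Agent.Lead.Glauberman

set_option autoImplicit false

namespace Cfsg.Agent.Helper11

/-- Wrapper type carrying the conjugation action of a group on itself. -/
structure ConjPt (M : Type*) where
  /-- the underlying element -/
  val : M

instance conjPtAction {M : Type*} [Group M] : MulAction M (ConjPt M) where
  smul g x := ⟨g * x.val * g⁻¹⟩
  one_smul x := by
    show (⟨1 * x.val * 1⁻¹⟩ : ConjPt M) = x
    simp
  mul_smul g h x := by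
    show (⟨g * h * x.val * (g * h)⁻¹⟩ : ConjPt M) = ⟨g * (h * x.val * h⁻¹) * g⁻¹⟩
    congr 1
    group

theorem conjPt_smul {M : Type*} [Group M] (g : M) (x : ConjPt M) :
    (g • x : ConjPt M) = ⟨g * x.val * g⁻¹⟩ := rfl

/-- Glauberman's lemma for the conjugation action on elements. -/
theorem glauberman_conj_elt {M : Type*} [Group M] [Finite M] (A K : Subgroup M)
    (hAK : A ≤ Subgroup.normalizer (K : Set M))
    (hcop : (Nat.card A).Coprime (Nat.card K)) (hsolv : Group.IsSolvable A ∨ Group.IsSolvable K)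
    (c : M) (h : ∀ a ∈ A, ∃ k ∈ K, a * c * a⁻¹ = k * c * k⁻¹) :
    ∃ n ∈ K, ∀ a ∈ A, a * (n * c * n⁻¹) * a⁻¹ = n * c * n⁻¹ := by
  obtain ⟨n, hn, hfix⟩ := Cfsg.Agent.Lead.glauberman_exists (Ω := ConjPt M) A K hAK hcop hsolv
    ⟨c⟩ (fun a ha => by
      obtain ⟨k, hk, hak⟩ := h a ha
      exact ⟨k, hk, congrArg ConjPt.mk hak⟩)
  exact ⟨n, hn, fun a ha => congrArg ConjPt.val (hfix a ha)⟩

/-- Elements whose conjugation preserves the `K`-class of `c`, for a normal subgroup `K`. -/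
def classStab {M : Type*} [Group M] (K : Subgroup M) [hK : K.Normal] (c : M) : Subgroup M where
  carrier := {a | ∃ k ∈ K, a * c * a⁻¹ = k * c * k⁻¹}
  one_mem' := ⟨1, K.one_mem, rfl⟩
  mul_mem' := by
    rintro a b ⟨ka, hka, ha⟩ ⟨kb, hkb, hb⟩
    refine ⟨a * kb * a⁻¹ * ka, K.mul_mem (hK.conj_mem kb hkb a) hka, ?_⟩
    calc a * b * c * (a * b)⁻¹ = a * (b * c * b⁻¹) * a⁻¹ := by group
      _ = a * (kb * c * kb⁻¹) * a⁻¹ := by rw [hb]
      _ = (a * kb * a⁻¹) * (a * c * a⁻¹) * (a * kb * a⁻¹)⁻¹ := by group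
      _ = (a * kb * a⁻¹) * (ka * c * ka⁻¹) * (a * kb * a⁻¹)⁻¹ := by rw [ha]
      _ = a * kb * a⁻¹ * ka * c * (a * kb * a⁻¹ * ka)⁻¹ := by group
  inv_mem' := by
    rintro a ⟨k, hk, ha⟩
    refine ⟨a⁻¹ * k⁻¹ * a⁻¹⁻¹, hK.conj_mem k⁻¹ (K.inv_mem hk) a⁻¹, ?_⟩
    have hc : c = a⁻¹ * (k * c * k⁻¹) * a := by rw [← ha]; group
    calc a⁻¹ * c * a⁻¹⁻¹ = a⁻¹ * (k⁻¹ * (k * c * k⁻¹) * k) * a := by group
      _ = a⁻¹ * (k⁻¹ * (a * c * a⁻¹) * k) * a := by rw [ha]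
      _ = a⁻¹ * k⁻¹ * a⁻¹⁻¹ * c * (a⁻¹ * k⁻¹ * a⁻¹⁻¹)⁻¹ := by group

theorem mem_classStab {M : Type*} [Group M] (K : Subgroup M) [K.Normal] (c a : M) :
    a ∈ classStab K c ↔ ∃ k ∈ K, a * c * a⁻¹ = k * c * k⁻¹ := Iff.rfl

end Cfsg.Agent.Helper11
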