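import Mathlib

set_option autoImplicit false

namespace Cfsg.Agent.Helper11

/-- A matrix of the form `r i + c j` with few nonzero entries is zero, or supported on a single
column with constant value, or supported on a single row with constant value. -/
theorem matrix_lemma {R C : Type*} [Fintype R] [Fintype C] [DecidableEq R] [DecidableEq C]
    (r : R → ℂ) (c : C → ℂ) (n : ℕ) (hR : n ≤ Fintype.card R) (hC : n + 2 ≤ Fintype.card C)
    (hfew : ∑ φ : R, (Finset.univ.filter (fun ψ : C => r φ + c ψ ≠ 0)).card < 2 * n) :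
    (∀ φ ψ, r φ + c ψ = 0) ∨ (∃ ψ₀ a, ∀ φ ψ, r φ + c ψ = if ψ = ψ₀ then a else 0) ∨
      (∃ φ₀ a, ∀ φ ψ, r φ + c ψ = if φ = φ₀ then a else 0) := by
  classical
  set nz : R → ℕ := fun φ => (Finset.univ.filter (fun ψ : C => r φ + c ψ ≠ 0)).card with hnz
  have hfew' : ∑ φ : R, nz φ < 2 * n := hfew
  clear hfew
  have h1 : ∃ φ₁, nz φ₁ ≤ 1 := by
    by_contra hcon
    push Not at hcon
    have : 2 * Fintype.card R ≤ ∑ φ : R, nz φ := by
      calc 2 * Fintype.card R = ∑ _φ : R, 2 := by simp [mul_comm]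
        _ ≤ ∑ φ : R, nz φ := Finset.sum_le_sum (fun φ _ => hcon φ)
    omega
  obtain ⟨φ₁, hφ₁⟩ := h1
  have hM : ∀ φ ψ, r φ + c ψ = (r φ - r φ₁) + (r φ₁ + c ψ) := by intro φ ψ; ring
  rcases Nat.lt_or_ge (nz φ₁) 1 with h0 | h1'
  · have hrow : ∀ ψ, r φ₁ + c ψ = 0 := by
      intro ψ
      by_contra hne
      have hmem : ψ ∈ Finset.univ.filter (fun ψ : C => r φ₁ + c ψ ≠ 0) := by simp [hne]
      have : 0 < nz φ₁ := Finset.card_pos.mpr ⟨ψ, hmem⟩
      omega
    have hM' : ∀ φ ψ, r φ + c ψ = r φ - r φ₁ := by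
      intro φ ψ; rw [hM, hrow, add_zero]
    by_cases hall : ∀ φ, r φ - r φ₁ = 0
    · left; intro φ ψ; rw [hM', hall]
    · right; right
      push Not at hall
      obtain ⟨φ₀, hφ₀⟩ := hall
      refine ⟨φ₀, r φ₀ - r φ₁, ?_⟩
      intro φ ψ
      rw [hM']
      by_cases hφ : φ = φ₀
      · rw [if_pos hφ, hφ]
      · rw [if_neg hφ]
        by_contra hne
        have hfull : ∀ φ', r φ' - r φ₁ ≠ 0 → nz φ' = Fintype.card C := by
          intro φ' h
          simp only [hnz]
          rw [Finset.filter_true_of_mem, Finset.card_univ]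
          intro ψ _
          rw [hM']; exact h
        have : nz φ + nz φ₀ ≤ ∑ φ : R, nz φ := by
          rw [← Finset.sum_pair hφ]
          exact Finset.sum_le_sum_of_subset (Finset.subset_univ _)
        rw [hfull φ hne, hfull φ₀ hφ₀] at this
        omega
  · have h1'' : nz φ₁ = 1 := le_antisymm hφ₁ h1'
    obtain ⟨ψ₀, hψ₀⟩ := Finset.card_eq_one.mp h1''
    have hψ₀ne : r φ₁ + c ψ₀ ≠ 0 := by
      have : ψ₀ ∈ Finset.univ.filter (fun ψ : C => r φ₁ + c ψ ≠ 0) := by rw [hψ₀]; simp
      simpa using this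
    have hrow : ∀ ψ, ψ ≠ ψ₀ → r φ₁ + c ψ = 0 := by
      intro ψ hψ
      by_contra hne
      have : ψ ∈ Finset.univ.filter (fun ψ : C => r φ₁ + c ψ ≠ 0) := by simp [hne]
      rw [hψ₀] at this
      exact hψ (Finset.mem_singleton.mp this)
    have hd : ∀ φ, r φ - r φ₁ = 0 := by
      intro φ₂
      by_contra hne
      have hbig : Fintype.card C - 1 ≤ nz φ₂ := by
        have hsub : (Finset.univ.erase ψ₀) ⊆ Finset.univ.filter (fun ψ : C => r φ₂ + c ψ ≠ 0) := by
          intro ψ hψ
          rw [Finset.mem_erase] at hψ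
          simp only [Finset.mem_filter, Finset.mem_univ, true_and]
          rw [hM, hrow ψ hψ.1, add_zero]
          exact hne
        have := Finset.card_le_card hsub
        rw [Finset.card_erase_of_mem (Finset.mem_univ _), Finset.card_univ] at this
        exact this
      have hone : ∀ φ, 1 ≤ nz φ := by
        intro φ
        apply Finset.card_pos.mpr
        by_cases hφ : r φ - r φ₁ = 0
        · refine ⟨ψ₀, ?_⟩
          simp only [Finset.mem_filter, Finset.mem_univ, true_and]
          rw [hM, hφ, zero_add]; exact hψ₀ne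
        · have : 1 < Fintype.card C := by omega
          obtain ⟨ψ, hψ⟩ := Fintype.exists_ne_of_one_lt_card this ψ₀
          refine ⟨ψ, ?_⟩
          simp only [Finset.mem_filter, Finset.mem_univ, true_and]
          rw [hM, hrow ψ hψ, add_zero]; exact hφ
      have hsum : nz φ₂ + (Fintype.card R - 1) ≤ ∑ φ : R, nz φ := by
        rw [← Finset.add_sum_erase Finset.univ nz (Finset.mem_univ φ₂)]
        apply Nat.add_le_add_left
        calc Fintype.card R - 1 = ∑ _φ ∈ Finset.univ.erase φ₂, 1 := by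
              rw [Finset.sum_const, Finset.card_erase_of_mem (Finset.mem_univ _), Finset.card_univ]
              simp
          _ ≤ ∑ φ ∈ Finset.univ.erase φ₂, nz φ := Finset.sum_le_sum (fun φ _ => hone φ)
      have hRpos : 1 ≤ Fintype.card R := Fintype.card_pos_iff.mpr ⟨φ₂⟩
      omega
    right; left
    refine ⟨ψ₀, r φ₁ + c ψ₀, ?_⟩
    intro φ ψ
    rw [hM, hd φ, zero_add]
    by_cases hψ : ψ = ψ₀
    · rw [if_pos hψ, hψ]
    · rw [if_neg hψ, hrow ψ hψ]

end Cfsg.Agent.Helper11
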