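import Mathlib
import Cfsg.Prelude.Def_OddOrderLocal

/-!
# The Puig series (helper11)
-/

set_option autoImplicit false

namespace Cfsg.Agent.Helper11

open Cfsg

open scoped commutatorElement

universe u

/-- `L_G(·)` is order-reversing. -/
theorem puigStep_antitone {G : Type u} [Group G] {X Y : Subgroup G} (h : X ≤ Y) :
    puigStep Y ≤ puigStep X := by
  apply sSup_le_sSup
  intro A hA
  exact ⟨hA.1, h.trans hA.2⟩

/-- Each generator of `L_G(X)` lies in `L_G(X)`. -/
theorem le_puigStep {G : Type u} [Group G] {X A : Subgroup G} (hA : IsMulCommutative A)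
    (hX : X ≤ Subgroup.normalizer (A : Set G)) : A ≤ puigStep X :=
  le_sSup ⟨hA, hX⟩

/-- `X` normalizes `L_G(X)`. -/
theorem le_normalizer_puigStep {G : Type u} [Group G] (X : Subgroup G) :
    X ≤ Subgroup.normalizer ((puigStep X : Subgroup G) : Set G) := by
  have key : ∀ x ∈ X, ∀ g ∈ puigStep X, x * g * x⁻¹ ∈ puigStep X := by
    intro x hx
    have hle : puigStep X ≤ (puigStep X).comap (MulAut.conj x).toMonoidHom := by
      apply sSup_le
      intro A hA a ha
      rw [Subgroup.mem_comap]
      show x * a * x⁻¹ ∈ puigStep X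
      exact le_puigStep hA.1 hA.2 ((Subgroup.mem_normalizer_iff.mp (hA.2 hx) a).mp ha)
    intro g hg
    exact hle hg
  intro x hx
  rw [Subgroup.mem_normalizer_iff]
  intro g
  refine ⟨fun hg => key x hx g hg, fun hg => ?_⟩
  have := key x⁻¹ (X.inv_mem hx) _ hg
  simpa [mul_assoc] using this

/-- In a finite `p`-group, `C_R(L_R(X)) ≤ L_R(X)` for every subgroup `X`. -/
theorem centralizer_puigStep_le {R : Type u} [Group R] [Finite R] (p : ℕ) [Fact p.Prime]
    (hR : IsPGroup p R) (X : Subgroup R) :
    Subgroup.centralizer ((puigStep X : Subgroup R) : Set R) ≤ puigStep X := by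
  have hnil : Group.IsNilpotent R := hR.isNilpotent
  set Y := puigStep X with hY
  set C := Subgroup.centralizer ((Y : Subgroup R) : Set R) with hC
  have hXY : X ≤ Subgroup.normalizer ((Y : Subgroup R) : Set R) := le_normalizer_puigStep X
  -- `X` normalizes `C`
  have hXC : ∀ x ∈ X, ∀ c ∈ C, x * c * x⁻¹ ∈ C := by
    intro x hx c hc
    rw [hC, Subgroup.mem_centralizer_iff]
    intro y hy
    have hy' : x⁻¹ * y * x ∈ Y := by
      have := (Subgroup.mem_normalizer_iff.mp (hXY (X.inv_mem hx)) y).mp hy
      simpa using this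
    have h1 := (Subgroup.mem_centralizer_iff.mp hc) _ hy'
    calc y * (x * c * x⁻¹) = x * ((x⁻¹ * y * x) * c) * x⁻¹ := by group
      _ = x * (c * (x⁻¹ * y * x)) * x⁻¹ := by rw [h1]
      _ = x * c * x⁻¹ * y := by group
  let M : ℕ → Subgroup R := fun j => Nat.rec C (fun _ K => ⁅K, X⁆) j
  have hM0 : M 0 = C := rfl
  have hMs : ∀ j, M (j + 1) = ⁅M j, X⁆ := fun j => rfl
  have hMC : ∀ j, M j ≤ C := by
    intro j
    induction j with
    | zero => exact le_of_eq hM0
    | succ j ih =>
      rw [hMs, Subgroup.commutator_le]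
      intro c hc x hx
      have hcC : c ∈ C := ih hc
      rw [commutatorElement_def]
      have h1 : x * c⁻¹ * x⁻¹ ∈ C := hXC x hx _ (C.inv_mem hcC)
      have : c * x * c⁻¹ * x⁻¹ = c * (x * c⁻¹ * x⁻¹) := by group
      rw [this]
      exact C.mul_mem hcC h1
  have hMl : ∀ j, M j ≤ Subgroup.lowerCentralSeries (⊤ : Subgroup R) j := by
    intro j
    induction j with
    | zero => rw [Subgroup.lowerCentralSeries_zero]; exact le_top
    | succ j ih =>
      rw [hMs, Subgroup.lowerCentralSeries_succ]
      exact Subgroup.commutator_mono ih le_top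
  obtain ⟨k, hk⟩ := (Subgroup.nilpotent_iff_lowerCentralSeries.mp hnil)
  have hMk : M k ≤ Y := by
    have := hMl k
    rw [hk] at this
    exact this.trans bot_le
  have hstep : ∀ j, M (j + 1) ≤ Y → M j ≤ Y := by
    intro j hj c hc
    have hcC : c ∈ C := hMC j hc
    have hcomm : ∀ x ∈ X, ⁅c, x⁆ ∈ Y ⊓ C := by
      intro x hx
      have h1 : ⁅c, x⁆ ∈ M (j + 1) := by
        rw [hMs]
        exact Subgroup.commutator_mem_commutator hc hx
      exact ⟨hj h1, hMC (j + 1) h1⟩
    -- the abelian subgroup
    have hgen : ∀ a ∈ (({c} : Set R) ∪ ((Y ⊓ C : Subgroup R) : Set R)),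
        ∀ b ∈ (({c} : Set R) ∪ ((Y ⊓ C : Subgroup R) : Set R)), a * b = b * a := by
      intro a ha b hb
      rcases ha with ha | ha <;> rcases hb with hb | hb
      · rw [Set.mem_singleton_iff] at ha hb; rw [ha, hb]
      · rw [Set.mem_singleton_iff] at ha; subst ha
        exact ((Subgroup.mem_centralizer_iff.mp hcC) b hb.1).symm
      · rw [Set.mem_singleton_iff] at hb; subst hb
        exact (Subgroup.mem_centralizer_iff.mp hcC) a ha.1
      · exact ((Subgroup.mem_centralizer_iff.mp ha.2) b hb.1).symm
    have hAc : IsMulCommutative (Subgroup.closure (({c} : Set R) ∪ ((Y ⊓ C : Subgroup R) : Set R))) :=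
      Subgroup.isMulCommutative_closure hgen
    have hconj : ∀ x ∈ X, ∀ g ∈ Subgroup.closure (({c} : Set R) ∪ ((Y ⊓ C : Subgroup R) : Set R)),
        x * g * x⁻¹ ∈ Subgroup.closure (({c} : Set R) ∪ ((Y ⊓ C : Subgroup R) : Set R)) := by
      intro x hx
      have hle : Subgroup.closure (({c} : Set R) ∪ ((Y ⊓ C : Subgroup R) : Set R)) ≤
          (Subgroup.closure (({c} : Set R) ∪ ((Y ⊓ C : Subgroup R) : Set R))).comap
            (MulAut.conj x).toMonoidHom := by
        rw [Subgroup.closure_le]
        intro a ha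
        show x * a * x⁻¹ ∈ Subgroup.closure (({c} : Set R) ∪ ((Y ⊓ C : Subgroup R) : Set R))
        rcases ha with ha | ha
        · rw [Set.mem_singleton_iff] at ha; subst ha
          have h1 : x * a * x⁻¹ = (⁅a, x⁆)⁻¹ * a := by
            rw [commutatorElement_def]; group
          rw [h1]
          exact Subgroup.mul_mem _
            (Subgroup.inv_mem _ (Subgroup.subset_closure (Or.inr (hcomm x hx))))
            (Subgroup.subset_closure (Or.inl rfl))
        · apply Subgroup.subset_closure
          right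
          exact ⟨(Subgroup.mem_normalizer_iff.mp (hXY hx) a).mp ha.1, hXC x hx a ha.2⟩
      intro g hg
      exact hle hg
    have hXA : X ≤ Subgroup.normalizer
        ((Subgroup.closure (({c} : Set R) ∪ ((Y ⊓ C : Subgroup R) : Set R)) : Subgroup R) : Set R) := by
      intro x hx
      rw [Subgroup.mem_normalizer_iff]
      intro g
      refine ⟨fun hg => hconj x hx g hg, fun hg => ?_⟩
      have := hconj x⁻¹ (X.inv_mem hx) _ hg
      simpa [mul_assoc] using this
    exact le_puigStep hAc hXA (Subgroup.subset_closure (Or.inl rfl))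
  have hall : ∀ j, j ≤ k → M (k - j) ≤ Y := by
    intro j
    induction j with
    | zero => intro _; exact hMk
    | succ j ih =>
      intro hj
      have h1 := ih (by omega)
      have h2 : k - j = (k - (j + 1)) + 1 := by omega
      rw [h2] at h1
      exact hstep _ h1
  have := hall k le_rfl
  rw [Nat.sub_self, hM0] at this
  exact this

/-- The basic comparison: `L_a ≤ L_b` gives `L_{b+1} ≤ L_{a+1}`. -/
theorem puigSeq_step {G : Type u} [Group G] {a b : ℕ} (h : puigSeq G a ≤ puigSeq G b) :
    puigSeq G (b + 1) ≤ puigSeq G (a + 1) :=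
  puigStep_antitone h

theorem puigSeq_even_le_succ (G : Type u) [Group G] (n : ℕ) :
    puigSeq G (2 * n) ≤ puigSeq G (2 * n + 2) ∧ puigSeq G (2 * n + 3) ≤ puigSeq G (2 * n + 1) := by
  induction n with
  | zero =>
    have h0 : puigSeq G 0 ≤ puigSeq G 2 := by
      show (⊥ : Subgroup G) ≤ _
      exact bot_le
    exact ⟨h0, puigSeq_step h0⟩
  | succ n ih =>
    have h1 : puigSeq G (2 * (n + 1)) ≤ puigSeq G (2 * (n + 1) + 2) := puigSeq_step ih.2
    exact ⟨h1, puigSeq_step h1⟩

theorem puigSeq_even_le_odd_self (G : Type u) [Group G] (n : ℕ) :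
    puigSeq G (2 * n) ≤ puigSeq G (2 * n + 1) := by
  induction n with
  | zero =>
    show (⊥ : Subgroup G) ≤ _
    exact bot_le
  | succ n ih =>
    have h1 : puigSeq G (2 * n + 2) ≤ puigSeq G (2 * n + 1) := puigSeq_step ih
    exact puigSeq_step h1

theorem puigSeq_even_mono (G : Type u) [Group G] {i j : ℕ} (h : i ≤ j) :
    puigSeq G (2 * i) ≤ puigSeq G (2 * j) := by
  induction j with
  | zero =>
    have : i = 0 := by omega
    rw [this]
  | succ j ih =>
    rcases Nat.lt_or_ge i (j + 1) with h1 | h1
    · exact (ih (by omega)).trans (puigSeq_even_le_succ G j).1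
    · have : i = j + 1 := by omega
      rw [this]

theorem puigSeq_odd_anti (G : Type u) [Group G] {i j : ℕ} (h : i ≤ j) :
    puigSeq G (2 * j + 1) ≤ puigSeq G (2 * i + 1) := by
  induction j with
  | zero =>
    have : i = 0 := by omega
    rw [this]
  | succ j ih =>
    rcases Nat.lt_or_ge i (j + 1) with h1 | h1
    · exact (puigSeq_even_le_succ G j).2.trans (ih (by omega))
    · have : i = j + 1 := by omega
      rw [this]

theorem puigSeq_even_le_odd (G : Type u) [Group G] (i j : ℕ) :
    puigSeq G (2 * i) ≤ puigSeq G (2 * j + 1) := by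
  rcases Nat.le_total i j with h | h
  · exact (puigSeq_even_mono G h).trans (puigSeq_even_le_odd_self G j)
  · exact (puigSeq_even_le_odd_self G i).trans (puigSeq_odd_anti G h)

theorem puigLower_le_puigSubgroup (G : Type u) [Group G] : puigLower G ≤ puigSubgroup G := by
  apply iSup_le
  intro i
  apply le_iInf
  intro j
  exact puigSeq_even_le_odd G i j

end Cfsg.Agent.Helper11
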