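import Mathlib
import Cfsg.Agent.Helper11.Q8a

/-!
# Counting the principal 2-block for a quaternion Sylow 2-subgroup of order 8 (helper11)

`comb_count`: under the hypotheses of `comb_main`, if no character vanishes at the involution
then there are exactly seven characters.
-/

set_option autoImplicit false

namespace Cfsg.Agent.Helper11

section CombCount

variable {ι : Type*} [Fintype ι] [DecidableEq ι]

set_option maxHeartbeats 3200000 in
/-- Brauer's count: the principal `2`-block of a group with quaternion Sylow `2`-subgroup of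
order `8` and no normal `2`-complement has exactly seven characters. -/
theorem comb_count (c0 : ι) (c : Fin 3 → ι)
    (hc0 : ∀ i, c i ≠ c0) (hcinj : Function.Injective c)
    (h : Fin 3 → ι → ℤ) (d e N : ι → ℤ) (F : Fin 3 → ℤ)
    (hdpos : ∀ x, 0 < d x)
    (hN0 : N c0 = 1) (hNc : ∀ i, N (c i) = 1 ∨ N (c i) = -1)
    (hNR : ∀ x, x ≠ c0 → (∀ i, x ≠ c i) → N x = 0)
    (hd0 : d c0 = 1)
    (ha : ∀ j, h j c0 = -1)
    (hb : ∀ j k, ∑ x, h j x * h k x = if j = k then 4 else 2)
    (hcN : ∀ j, ∑ x, N x * h j x = 0)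
    (hdd : ∀ j, ∑ x, d x * h j x = 0)
    (hf : ∀ x, e x = ∑ j, h j x * F j)
    (hFodd : ∀ j, Odd (F j))
    (hg1 : ∑ x, d x * N x = 0)
    (hpar : ∀ x, Even (d x - N x)) (hpar2 : ∀ x, Even (d x - e x))
    (hlin : ∀ x, d x = 1 → N x ≠ -1)
    (hne : ∀ x, e x ≠ 0) :
    Fintype.card ι = 7 := by
  classical
  obtain ⟨R, hR⟩ : ∃ R : Finset ι,
      R = Finset.univ.filter (fun x => x ≠ c0 ∧ ∀ i, x ≠ c i) := ⟨_, rfl⟩
  have hmemR : ∀ x, x ∈ R ↔ (x ≠ c0 ∧ ∀ i, x ≠ c i) := by
    intro x; rw [hR]; simp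
  have hsplitZ : ∀ f : ι → ℤ, ∑ x, f x = f c0 + ∑ i, f (c i) + ∑ x ∈ R, f x := by
    intro f; rw [hR]; exact sum_split_four c0 c hc0 hcinj f
  have hNRR : ∀ x ∈ R, N x = 0 := fun x hx => hNR x ((hmemR x).mp hx).1 ((hmemR x).mp hx).2
  have hA : ∀ j, ∃ i, h j (c i) = N (c i) ∧ ∀ i', i' ≠ i → h j (c i') = 0 := by
    intro j
    have hsq : ∑ x, h j x * h j x = 4 := by rw [hb j j, if_pos rfl]
    have h1 := hsplitZ (fun x => h j x * h j x)
    rw [hsq, Fin.sum_univ_three] at h1
    beta_reduce at h1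
    rw [ha j] at h1
    have hRnn : 0 ≤ ∑ x ∈ R, h j x * h j x :=
      Finset.sum_nonneg (fun x _ => mul_self_nonneg _)
    have q0 := mul_self_nonneg (h j (c 0))
    have q1 := mul_self_nonneg (h j (c 1))
    have q2 := mul_self_nonneg (h j (c 2))
    have hb0 : -1 ≤ h j (c 0) ∧ h j (c 0) ≤ 1 := by constructor <;> nlinarith
    have hb1 : -1 ≤ h j (c 1) ∧ h j (c 1) ≤ 1 := by constructor <;> nlinarith
    have hb2 : -1 ≤ h j (c 2) ∧ h j (c 2) ≤ 1 := by constructor <;> nlinarith
    have h2 := hsplitZ (fun x => N x * h j x)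
    rw [hcN j, Fin.sum_univ_three] at h2
    beta_reduce at h2
    rw [hN0, ha j] at h2
    have h3 : ∑ x ∈ R, N x * h j x = 0 :=
      Finset.sum_eq_zero (fun x hx => by rw [hNRR x hx, zero_mul])
    rw [h3] at h2
    by_cases hall : h j (c 0) ≠ 0 ∧ h j (c 1) ≠ 0 ∧ h j (c 2) ≠ 0
    · exfalso
      have a0 : h j (c 0) = 1 ∨ h j (c 0) = -1 := by omega
      have a1 : h j (c 1) = 1 ∨ h j (c 1) = -1 := by omega
      have a2 : h j (c 2) = 1 ∨ h j (c 2) = -1 := by omega
      have h4 : ∑ x ∈ R, h j x * h j x = 0 := by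
        rcases a0 with a0 | a0 <;> rcases a1 with a1 | a1 <;> rcases a2 with a2 | a2 <;>
          rw [a0, a1, a2] at h1 <;> linarith
      have h5 : ∀ x ∈ R, h j x = 0 := fun x hx => by
        have h' := (Finset.sum_eq_zero_iff_of_nonneg
          (fun x _ => mul_self_nonneg (h j x))).mp h4 x hx
        exact mul_self_eq_zero.mp h'
      have h6 := hsplitZ (fun x => d x * h j x)
      rw [hdd j, Fin.sum_univ_three] at h6
      beta_reduce at h6
      rw [hd0, ha j] at h6
      have h7 : ∑ x ∈ R, d x * h j x = 0 :=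
        Finset.sum_eq_zero (fun x hx => by rw [h5 x hx, mul_zero])
      rw [h7] at h6
      have h8 := hsplitZ (fun x => d x * N x)
      rw [hg1, Fin.sum_univ_three] at h8
      beta_reduce at h8
      rw [hd0, hN0] at h8
      have h9 : ∑ x ∈ R, d x * N x = 0 :=
        Finset.sum_eq_zero (fun x hx => by rw [hNRR x hx, mul_zero])
      rw [h9] at h8
      have p0 := hdpos (c 0)
      have p1 := hdpos (c 1)
      have p2 := hdpos (c 2)
      have l0 := hlin (c 0)
      have l1 := hlin (c 1)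
      have l2 := hlin (c 2)
      rcases hNc 0 with n0 | n0 <;> rcases hNc 1 with n1 | n1 <;> rcases hNc 2 with n2 | n2 <;>
        rcases a0 with a0 | a0 <;> rcases a1 with a1 | a1 <;> rcases a2 with a2 | a2 <;>
        rw [n0, n1, n2, a0, a1, a2] at h2 <;> rw [a0, a1, a2] at h6 <;>
        rw [n0, n1, n2] at h8 <;> rw [n0] at l0 <;> rw [n1] at l1 <;> rw [n2] at l2 <;> omega
    · have hdis : (h j (c 0) = N (c 0) ∧ h j (c 1) = 0 ∧ h j (c 2) = 0) ∨
          (h j (c 0) = 0 ∧ h j (c 1) = N (c 1) ∧ h j (c 2) = 0) ∨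
          (h j (c 0) = 0 ∧ h j (c 1) = 0 ∧ h j (c 2) = N (c 2)) := by
        rcases hNc 0 with n0 | n0 <;> rcases hNc 1 with n1 | n1 <;> rcases hNc 2 with n2 | n2 <;>
          rw [n0, n1, n2] at h2 ⊢ <;> omega
      rcases hdis with ⟨e0, e1, e2⟩ | ⟨e0, e1, e2⟩ | ⟨e0, e1, e2⟩
      · refine ⟨0, e0, ?_⟩
        intro i' hi'
        fin_cases i'
        · exact absurd rfl hi'
        · exact e1
        · exact e2
      · refine ⟨1, e1, ?_⟩
        intro i' hi'
        fin_cases i'
        · exact e0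
        · exact absurd rfl hi'
        · exact e2
      · refine ⟨2, e2, ?_⟩
        intro i' hi'
        fin_cases i'
        · exact e0
        · exact e1
        · exact absurd rfl hi'
  choose σ hσ1 hσ2 using hA
  have hσsurj : Function.Surjective σ := by
    intro i
    by_contra hcon
    push Not at hcon
    have hz : ∀ j, h j (c i) = 0 := fun j => hσ2 j i (hcon j).symm
    have h1 := hf (c i)
    rw [Finset.sum_eq_zero (fun j _ => by rw [hz j, zero_mul])] at h1
    have h2 := hpar (c i)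
    have h3 := hpar2 (c i)
    rw [h1, sub_zero] at h3
    obtain ⟨m', hm'⟩ := h3
    rcases hNc i with n | n <;> rw [n] at h2 <;> obtain ⟨m, hm⟩ := h2 <;> omega
  have hσinj : Function.Injective σ := Finite.injective_iff_surjective.mpr hσsurj
  have hcol1 : ∀ j, ∑ i, h j (c i) * h j (c i) = 1 := by
    intro j
    rw [Finset.sum_eq_single (σ j)]
    · rw [hσ1 j]
      rcases hNc (σ j) with h1 | h1 <;> rw [h1] <;> norm_num
    · intro i _ hi
      rw [hσ2 j i hi, mul_zero]
    · intro h'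
      exact absurd (Finset.mem_univ _) h'
  have hR2 : ∀ j, ∑ x ∈ R, h j x * h j x = 2 := by
    intro j
    have h1 := hsplitZ (fun x => h j x * h j x)
    rw [hb j j, if_pos rfl] at h1
    beta_reduce at h1
    rw [ha j, hcol1 j] at h1
    linarith
  have hbd : ∀ j, ∀ x ∈ R, h j x = 0 ∨ h j x = 1 ∨ h j x = -1 := by
    intro j x hx
    have h1 : h j x * h j x ≤ ∑ x ∈ R, h j x * h j x :=
      Finset.single_le_sum (f := fun x => h j x * h j x) (fun y _ => mul_self_nonneg _) hx
    rw [hR2 j] at h1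
    have h2 : h j x ≤ 1 := by nlinarith
    have h3 : -1 ≤ h j x := by nlinarith
    omega
  have hw : ∀ x ∈ R, ∑ j, h j x * h j x = 2 := by
    intro x hx
    have hN0x := hNRR x hx
    have h1 := hpar x
    have h2 := hpar2 x
    rw [hN0x, sub_zero] at h1
    obtain ⟨q1, hq1⟩ := h1
    obtain ⟨q2, hq2⟩ := h2
    have h3 := hf x
    rw [Fin.sum_univ_three] at h3 ⊢
    obtain ⟨m0, hm0⟩ := hFodd 0
    obtain ⟨m1, hm1⟩ := hFodd 1
    obtain ⟨m2, hm2⟩ := hFodd 2
    have hex := hne x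
    rcases hbd 0 x hx with a0 | a0 | a0 <;> rcases hbd 1 x hx with a1 | a1 | a1 <;>
      rcases hbd 2 x hx with a2 | a2 | a2 <;>
      rw [a0, a1, a2] at h3 ⊢ <;> rw [hm0, hm1, hm2] at h3 <;>
      first | (exfalso; omega) | norm_num
  have htot : ∑ x ∈ R, ∑ j, h j x * h j x = 6 := by
    rw [Finset.sum_comm, Fin.sum_univ_three, hR2, hR2, hR2]
    norm_num
  have hRcard : R.card = 3 := by
    have h1 : ∑ x ∈ R, ∑ j, h j x * h j x = ∑ x ∈ R, (2 : ℤ) := Finset.sum_congr rfl hw
    rw [htot, Finset.sum_const, nsmul_eq_mul] at h1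
    have h2 : (R.card : ℤ) = 3 := by linarith
    exact_mod_cast h2
  have h1 := hsplitZ (fun _ => (1 : ℤ))
  simp only [Finset.sum_const, Finset.card_univ, nsmul_eq_mul, mul_one, Fintype.card_fin] at h1
  rw [hRcard] at h1
  have h2 : (Fintype.card ι : ℤ) = 7 := by rw [h1]; norm_num
  exact_mod_cast h2

end CombCount

end Cfsg.Agent.Helper11
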