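import Mathlib
import Cfsg.Agent.Helper11.BrauerConj
import Cfsg.Agent.Helper11.GlaubermanElt
import Cfsg.Agent.Helper11.CliffCorr
import Cfsg.Agent.Helper11.CliffAb
import Cfsg.Agent.Helper11.CliffExt
import Cfsg.Agent.S1512

/-!
# Characters of `L = K ⋊ W₁` with `C_K(x) = W₂` for all `x ∈ W₁ ∖ 1` (helper11)
-/

set_option autoImplicit false

namespace Cfsg.Agent.Helper11

open Cfsg

theorem conjMap_mul {M : Type*} [Group M] (H : Subgroup M) [H.Normal] (a b : M) (h : H) :
    conjMap H (a * b) h = conjMap H a (conjMap H b h) := by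
  apply Subtype.ext
  simp only [conjMap_coe]
  group

theorem conjMap_one_left {M : Type*} [Group M] (H : Subgroup M) [H.Normal] (h : H) :
    conjMap H 1 h = h := by
  apply Subtype.ext
  simp [conjMap]

/-- The stabiliser of a function on a normal subgroup under conjugation. -/
def conjStab {M : Type*} [Group M] (H : Subgroup M) [H.Normal] (θ : H → ℂ) : Subgroup M where
  carrier := {a | (fun h => θ (conjMap H a h)) = θ}
  one_mem' := by
    show (fun h => θ (conjMap H 1 h)) = θ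
    funext h
    rw [conjMap_one_left]
  mul_mem' := by
    intro a b ha hb
    have ha0 : (fun h => θ (conjMap H a h)) = θ := ha
    have hb0 : (fun h => θ (conjMap H b h)) = θ := hb
    show (fun h => θ (conjMap H (a * b) h)) = θ
    funext h
    rw [conjMap_mul]
    exact (congrFun ha0 (conjMap H b h)).trans (congrFun hb0 h)
  inv_mem' := by
    intro a ha
    have ha0 : (fun h => θ (conjMap H a h)) = θ := ha
    show (fun h => θ (conjMap H a⁻¹ h)) = θ
    funext h
    have h1 := congrFun ha0 (conjMap H a⁻¹ h)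
    rw [← conjMap_mul, mul_inv_cancel, conjMap_one_left] at h1
    exact h1.symm

theorem mem_conjStab {M : Type*} [Group M] (H : Subgroup M) [H.Normal] (θ : H → ℂ) (a : M) :
    a ∈ conjStab H θ ↔ (fun h => θ (conjMap H a h)) = θ := Iff.rfl

/-- Characters of `L = K ⋊ W₁`, `W₁` a cyclic Hall subgroup with `C_K(x) = W₂` cyclic for all
`x ∈ W₁ ∖ 1`: an irreducible character of `K` is either `W₁`-invariant or induces irreducibly;
there are exactly `|W₂|` invariant ones, each inducing to a sum of `|W₁|` irreducibles. -/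
theorem typeP_induce {L : Type*} [Group L] [Fintype L] (K W₁ W₂ : Subgroup L) [hK : K.Normal]
    (hKW₁ : K ⊓ W₁ = ⊥) (hKW₁' : K ⊔ W₁ = ⊤) (hW₁ : W₁ ≠ ⊥) (hW₁c : IsCyclic W₁)
    (hHall : Nat.Coprime (Nat.card W₁) W₁.index) (hW₂c : IsCyclic W₂)
    (hW₂K : W₂ ≤ K) (hC : ∀ x ∈ W₁, x ≠ 1 → K ⊓ Subgroup.centralizer ({x} : Set L) = W₂) :
    (∀ θ : K → ℂ, Cfsg.IsIrrCharacter K θ →
        (∃ x ∈ W₁, (fun k : K => θ ⟨x * k * x⁻¹, hK.conj_mem (k : L) k.2 x⟩) ≠ θ) →
        Cfsg.IsIrrCharacter L (Cfsg.indFun K θ)) ∧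
    Nat.card {θ : Cfsg.IrrCharacter K // ∀ x ∈ W₁,
        (fun k : K => (θ : K → ℂ) ⟨x * k * x⁻¹, hK.conj_mem (k : L) k.2 x⟩) = θ} = Nat.card W₂ ∧
    (∀ θ : K → ℂ, Cfsg.IsIrrCharacter K θ →
        (∀ x ∈ W₁, (fun k : K => θ ⟨x * k * x⁻¹, hK.conj_mem (k : L) k.2 x⟩) = θ) →
        ∃ C : Finset (L → ℂ), C.card = Nat.card W₁ ∧ (∀ μ ∈ C, Cfsg.IsIrrCharacter L μ) ∧
          Cfsg.indFun K θ = ∑ μ ∈ C, μ) := by
  classical
  let _ : Fintype K := Fintype.ofFinite K
  have hcompl : Subgroup.IsComplement' K W₁ := by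
    apply Subgroup.isComplement'_of_disjoint_and_mul_eq_univ (disjoint_iff.mpr hKW₁)
    rw [← Subgroup.normal_mul, hKW₁']
    rfl
  have hcardK : W₁.index = Nat.card K := hcompl.index_eq_card
  have hidxK : K.index = Nat.card W₁ := hcompl.symm.index_eq_card
  have hcop : (Nat.card W₁).Coprime (Nat.card K) := hcardK ▸ hHall
  have hprod : ∀ g : L, ∃ k ∈ K, ∃ w ∈ W₁, g = k * w := by
    intro g
    have hg : g ∈ ((K ⊔ W₁ : Subgroup L) : Set L) := by rw [hKW₁']; trivial
    rw [Subgroup.normal_mul] at hg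
    obtain ⟨k, hk, w, hw, rfl⟩ := Set.mem_mul.mp hg
    exact ⟨k, hk, w, hw, rfl⟩
  have hW₁comm : ∀ a ∈ W₁, ∀ b ∈ W₁, a * b = b * a := by
    intro a ha b hb
    have := (IsCyclic.isMulCommutative (α := W₁)).is_comm.comm ⟨a, ha⟩ ⟨b, hb⟩
    exact congrArg Subtype.val this
  have hKinv : ∀ (θ : K → ℂ), IsIrrCharacter K θ → ∀ k ∈ K, k ∈ conjStab K θ := by
    intro θ hθ k hk
    show (fun h => θ (conjMap K k h)) = θ
    funext h
    have := Cfsg.Agent.Helper25.char_conj (Cfsg.Agent.Helper25.isCharacter_of_irr hθ) h ⟨k, hk⟩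
    have e : conjMap K k h = ⟨k, hk⟩ * h * (⟨k, hk⟩ : K)⁻¹ := Subtype.ext (by simp [conjMap])
    rw [e]; exact this
  -- upper bound for the number of `x`-fixed characters
  have hA : ∀ x ∈ W₁, x ≠ 1 → Nat.card {χ : IrrCharacter K //
      (fun h => (χ : K → ℂ) (conjMap K x h)) = (χ : K → ℂ)} ≤ Nat.card W₂ := by
    intro x hx hx1
    rw [brauer_conj K x]
    have hord : orderOf x ∣ Nat.card W₁ := by
      have := orderOf_dvd_natCard (⟨x, hx⟩ : W₁)
      rwa [Subgroup.orderOf_mk] at this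
    have h1 := Cfsg.Agent.S1512.result K W₂ x hx1 (Nat.Coprime.coprime_dvd_left hord hcop)
      (fun y hy hy1 => hC y ((Subgroup.zpowers_le.mpr hx) hy) hy1)
    refine le_trans (le_of_eq ?_) h1
    apply Nat.card_congr
    apply Equiv.subtypeEquivRight
    intro C
    have e1 : ConjClasses.map (MulEquiv.toMonoidHom ((MulAut.conjNormal x : MulAut K))) C =
        ConjClasses.mk (conjMap K x (Quotient.out C)) := by
      conv_lhs => rw [← Quotient.out_eq C]
      rfl
    rw [e1]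
    constructor
    · intro h
      rw [← ConjClasses.mk_eq_mk_iff_isConj] at h
      rw [h]; exact Quotient.out_eq C
    · intro h
      rw [← ConjClasses.mk_eq_mk_iff_isConj, h]; exact (Quotient.out_eq C).symm
  -- a generator of `W₁`
  obtain ⟨g₀, hg₀⟩ := IsCyclic.exists_generator (α := W₁)
  have hg₀1 : (g₀ : L) ≠ 1 := by
    intro h
    apply hW₁
    rw [eq_bot_iff]
    intro y hy
    obtain ⟨n, hn⟩ := Subgroup.mem_zpowers_iff.mp (hg₀ ⟨y, hy⟩)
    have : (g₀ : L) ^ n = y := by simpa using congrArg Subtype.val hn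
    rw [Subgroup.mem_bot, ← this, h, one_zpow]
  have hgen : ∀ θ : K → ℂ, (g₀ : L) ∈ conjStab K θ → ∀ x ∈ W₁, x ∈ conjStab K θ := by
    intro θ hθ x hx
    obtain ⟨n, hn⟩ := Subgroup.mem_zpowers_iff.mp (hg₀ ⟨x, hx⟩)
    have h2 : (g₀ : L) ^ n = x := by simpa using congrArg Subtype.val hn
    exact h2 ▸ Subgroup.zpow_mem _ hθ n
  have hcentW : ∀ (v : W₂), ∀ a ∈ W₁, a * (v : L) * a⁻¹ = (v : L) := by
    intro v a ha
    by_cases ha1 : a = 1
    · rw [ha1]; simp
    · have hv : (v : L) ∈ K ⊓ Subgroup.centralizer ({a} : Set L) := by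
        rw [hC a ha ha1]; exact v.2
      have := Subgroup.mem_centralizer_singleton_iff.mp hv.2
      rw [mul_inv_eq_iff_eq_mul]
      exact this.symm
  -- lower bound
  have hB : Nat.card W₂ ≤ Nat.card {χ : IrrCharacter K //
      (fun h => (χ : K → ℂ) (conjMap K (g₀ : L) h)) = (χ : K → ℂ)} := by
    rw [brauer_conj K (g₀ : L)]
    have hfix : ∀ w : W₂, conjMap K (g₀ : L) ⟨(w : L), hW₂K w.2⟩ = ⟨(w : L), hW₂K w.2⟩ := by
      intro w
      apply Subtype.ext
      exact hcentW w _ g₀.2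
    let F : W₂ → {C : ConjClasses K //
        IsConj (conjMap K (g₀ : L) (Quotient.out C)) (Quotient.out C)} :=
      fun w => ⟨ConjClasses.mk ⟨(w : L), hW₂K w.2⟩, by
        have h1 : IsConj (Quotient.out (ConjClasses.mk (⟨(w : L), hW₂K w.2⟩ : K)))
            ⟨(w : L), hW₂K w.2⟩ := by
          rw [← ConjClasses.mk_eq_mk_iff_isConj]; exact Quotient.out_eq _
        have h2 := conjMap_isConj K (g₀ : L) _ _ h1
        rw [hfix w] at h2
        exact h2.trans h1.symm⟩
    apply Nat.card_le_card_of_injective F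
    intro w w' hww'
    have h1 : ConjClasses.mk (⟨(w : L), hW₂K w.2⟩ : K) = ConjClasses.mk ⟨(w' : L), hW₂K w'.2⟩ :=
      congrArg Subtype.val hww'
    rw [ConjClasses.mk_eq_mk_iff_isConj, isConj_iff] at h1
    obtain ⟨k, hk⟩ := h1
    have hk' : (k : L) * (w : L) * (k : L)⁻¹ = (w' : L) := by
      simpa using congrArg Subtype.val hk
    obtain ⟨c, hc, hcw⟩ := Cfsg.Agent.Lead.glauberman_conj (Ω := ConjPt L) W₁ K
      (by rw [Subgroup.normalizer_eq_top]; exact le_top) hcop
      (Or.inl (Group.isSolvable_of_comm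
        (fun a b => (IsCyclic.isMulCommutative (α := W₁)).is_comm.comm a b)))
      ⟨(w : L)⟩ (fun a ha => by rw [conjPt_smul]; exact congrArg ConjPt.mk (hcentW w a ha))
      (k : L) k.2 (fun a ha => by
        rw [conjPt_smul, conjPt_smul]
        show (⟨a * ((k : L) * (w : L) * (k : L)⁻¹) * a⁻¹⟩ : ConjPt L) =
          ⟨(k : L) * (w : L) * (k : L)⁻¹⟩
        rw [hk']; exact congrArg ConjPt.mk (hcentW w' a ha))
    have hcW₂ : c ∈ W₂ := by
      rw [← hC _ g₀.2 hg₀1]
      refine Subgroup.mem_inf.mpr ⟨hc.1, ?_⟩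
      rw [Subgroup.mem_centralizer_singleton_iff]
      exact ((Subgroup.mem_centralizer_iff.mp hc.2) _ g₀.2).symm
    have hcw' : c * (w : L) * c⁻¹ = (k : L) * (w : L) * (k : L)⁻¹ := congrArg ConjPt.val hcw
    have hcomm : c * (w : L) = (w : L) * c := by
      have := (IsCyclic.isMulCommutative (α := W₂)).is_comm.comm ⟨c, hcW₂⟩ w
      exact congrArg Subtype.val this
    apply Subtype.ext
    rw [← hk', ← hcw', hcomm]; group
  -- dichotomy
  have hdich : ∀ χ : IrrCharacter K, ∀ x ∈ W₁, x ≠ 1 → x ∈ conjStab K (χ : K → ℂ) →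
      (g₀ : L) ∈ conjStab K (χ : K → ℂ) := by
    intro χ x hx hx1 hχx
    let ι : {χ : IrrCharacter K // (fun h => (χ : K → ℂ) (conjMap K (g₀ : L) h)) = (χ : K → ℂ)} →
        {χ : IrrCharacter K // (fun h => (χ : K → ℂ) (conjMap K x h)) = (χ : K → ℂ)} :=
      fun χ => ⟨χ.1, hgen _ χ.2 x hx⟩
    have hι : Function.Injective ι := by
      intro a b hab
      apply Subtype.ext
      exact congrArg (fun t : {χ : IrrCharacter K //
        (fun h => (χ : K → ℂ) (conjMap K x h)) = (χ : K → ℂ)} => t.1) hab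
    have hle : Nat.card {χ : IrrCharacter K //
          (fun h => (χ : K → ℂ) (conjMap K x h)) = (χ : K → ℂ)} ≤
        Nat.card {χ : IrrCharacter K //
          (fun h => (χ : K → ℂ) (conjMap K (g₀ : L) h)) = (χ : K → ℂ)} :=
      (hA x hx hx1).trans hB
    have hsurj := (Function.Injective.bijective_of_nat_card_le hι hle).2
    obtain ⟨χ', hχ'⟩ := hsurj ⟨χ, hχx⟩
    have h3 : χ'.1 = χ := congrArg (fun t : {χ : IrrCharacter K //
        (fun h => (χ : K → ℂ) (conjMap K x h)) = (χ : K → ℂ)} => t.1) hχ'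
    rw [← h3]; exact χ'.2
  have hone : ∀ θ : K → ℂ, IsIrrCharacter K θ → classInner θ θ = 1 := by
    intro θ hθ
    have := Cfsg.Agent.Helper25.irr_classInner (⟨θ, hθ⟩ : IrrCharacter K) ⟨θ, hθ⟩
    rw [if_pos rfl] at this
    exact this
  refine ⟨?_, ?_, ?_⟩
  · intro θ hθ hex
    obtain ⟨x₀, hx₀, hne⟩ := hex
    have hnofix : ∀ x ∈ W₁, x ≠ 1 → x ∉ conjStab K θ := by
      intro x hx hx1 hfix
      have h1 := hdich ⟨θ, hθ⟩ x hx hx1 hfix
      exact hne (hgen θ h1 x₀ hx₀)
    have hT : ∀ g : L, g ∈ K ↔ ∀ h : K, θ ⟨g * h * g⁻¹, hK.conj_mem h h.2 g⟩ = θ h := by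
      intro g
      constructor
      · intro hg h
        exact congrFun (hKinv θ hθ g hg) h
      · intro hall
        obtain ⟨k, hk, w, hw, rfl⟩ := hprod g
        by_cases hw1 : w = 1
        · rw [hw1, mul_one]; exact hk
        · exfalso
          apply hnofix w hw hw1
          have h1 : k * w ∈ conjStab K θ := funext hall
          have h2 : k ∈ conjStab K θ := hKinv θ hθ k hk
          have h3 := Subgroup.mul_mem _ (Subgroup.inv_mem _ h2) h1
          simpa using h3
    exact cc_irr K K θ le_rfl hT hθ θ hθ (by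
      have : (fun n : K => θ ⟨(n : L), (le_refl K) n.2⟩) = θ := rfl
      rw [this, hone θ hθ]; exact one_ne_zero)
  · have e : Nat.card {θ : IrrCharacter K // ∀ x ∈ W₁,
        (fun k : K => (θ : K → ℂ) ⟨x * k * x⁻¹, hK.conj_mem (k : L) k.2 x⟩) = θ} =
        Nat.card {χ : IrrCharacter K //
          (fun h => (χ : K → ℂ) (conjMap K (g₀ : L) h)) = (χ : K → ℂ)} := by
      apply Nat.card_congr
      apply Equiv.subtypeEquivRight
      intro χ
      exact ⟨fun h => h _ g₀.2, fun h x hx => hgen _ h x hx⟩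
    rw [e]
    exact le_antisymm (hA _ g₀.2 hg₀1) hB
  · intro θ hθ hinv
    have hLinv : ∀ (g : L) (n : K), θ ⟨g * n * g⁻¹, hK.conj_mem (n : L) n.2 g⟩ = θ n := by
      intro g n
      obtain ⟨k, hk, w, hw, rfl⟩ := hprod g
      have h1 : k ∈ conjStab K θ := hKinv θ hθ k hk
      have h2 : w ∈ conjStab K θ := hinv w hw
      have h3 : k * w ∈ conjStab K θ := Subgroup.mul_mem _ h1 h2
      exact congrFun h3 n
    have hab : ∀ x y : L, x * y * x⁻¹ * y⁻¹ ∈ K := by
      intro x y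
      obtain ⟨k₁, hk₁, w₁, hw₁, rfl⟩ := hprod x
      obtain ⟨k₂, hk₂, w₂, hw₂, rfl⟩ := hprod y
      rw [← QuotientGroup.eq_one_iff]
      simp only [QuotientGroup.mk_mul, QuotientGroup.mk_inv]
      rw [(QuotientGroup.eq_one_iff k₁).mpr hk₁, (QuotientGroup.eq_one_iff k₂).mpr hk₂]
      simp only [one_mul]
      rw [← QuotientGroup.mk_mul, hW₁comm w₁ hw₁ w₂ hw₂, QuotientGroup.mk_mul]
      group
    have hsolv : Group.IsSolvable (L ⧸ K) := by
      apply Group.isSolvable_of_comm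
      intro a b
      obtain ⟨x, rfl⟩ := QuotientGroup.mk_surjective a
      obtain ⟨y, rfl⟩ := QuotientGroup.mk_surjective b
      have := hab x y
      rw [← QuotientGroup.eq_one_iff] at this
      simp only [QuotientGroup.mk_mul, QuotientGroup.mk_inv] at this
      have h2 := mul_inv_eq_one.mp this
      exact mul_inv_eq_iff_eq_mul.mp h2
    obtain ⟨θ', hθ', hext⟩ := exists_ext_of_solvable_coprime K hsolv θ hθ hLinv
      (by rw [hidxK]; exact hcop.symm)
    let _ : Fintype (⊤ : Subgroup L) := Fintype.ofFinite _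
    have hT : ∀ g : L, g ∈ (⊤ : Subgroup L) ↔
        ∀ h : K, θ ⟨g * h * g⁻¹, hK.conj_mem h h.2 g⟩ = θ h :=
      fun g => ⟨fun _ h => hLinv g h, fun _ => Subgroup.mem_top g⟩
    obtain ⟨e, C, he, hCirr, hcard, hind, -, hconst⟩ :=
      cc_abelian K ⊤ θ le_top hT (fun x _ y _ => hab x y) hθ
    have hψ : IsIrrCharacter (⊤ : Subgroup L) (fun t => θ' (t : L)) :=
      Cfsg.Agent.Helper2.isIrrCharacter_comp_of_surjective
        (Subgroup.topEquiv (G := L)).toMonoidHom (Subgroup.topEquiv (G := L)).surjective hθ'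
    have hres : (fun n : K => (fun t : (⊤ : Subgroup L) => θ' (t : L)) ⟨(n : L), (le_top : K ≤ ⊤) n.2⟩) = θ := by
      funext n; exact hext n
    have he1 : (e : ℂ) = 1 := by
      have := hconst _ hψ (by rw [hres, hone θ hθ]; exact one_ne_zero)
      rw [hres, hone θ hθ] at this
      exact this.symm
    have he1' : e = 1 := by exact_mod_cast he1
    refine ⟨C, ?_, hCirr, ?_⟩
    · rw [he1', one_pow, one_mul, Subgroup.card_top] at hcard
      have h2 := hcompl.card_mul_card
      have hKpos : 0 < Nat.card K := Nat.card_pos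
      apply Nat.eq_of_mul_eq_mul_right hKpos
      rw [hcard, ← h2, mul_comm]
    · rw [hind, he1, one_smul]

end Cfsg.Agent.Helper11
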