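import Mathlib
import Cfsg.Prelude.Def_Characters
import Cfsg.Agent.Helper2.Ind
import Cfsg.Agent.Helper2.IndExtra
import Cfsg.Agent.Helper2.CharExtra
import Cfsg.Agent.Helper25.CharBasic
import Cfsg.Agent.Helper25.CharClass
import Cfsg.Agent.Helper7.LinChar
import Cfsg.Agent.Helper11.ProdDecomp
import Cfsg.Agent.Helper11.Virtual
import Cfsg.Agent.Helper11.CycTI3
import Cfsg.Agent.Helper11.CycTIGal

/-!
# Exceptional characters of a group of type P (helper11)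
-/

set_option autoImplicit false

namespace Cfsg.Agent.Helper11

open Cfsg Finset

open Classical in
/-- Orthogonality of irreducible characters given as functions. -/
theorem irr_inner_fun_tp {L : Type*} [Group L] [Fintype L] {χ ψ : L → ℂ}
    (hχ : IsIrrCharacter L χ) (hψ : IsIrrCharacter L ψ) :
    classInner χ ψ = if χ = ψ then 1 else 0 := by
  have h := Cfsg.Agent.Helper25.irr_classInner (⟨χ, hχ⟩ : IrrCharacter L) ⟨ψ, hψ⟩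
  simp only [Subtype.mk.injEq] at h
  rw [h]

/-- Two differences of distinct irreducible characters with inner product `1` share exactly
the positive or exactly the negative constituent. -/
theorem irr_diff_inner {L : Type*} [Group L] [Fintype L] {a b a' b' : L → ℂ}
    (ha : IsIrrCharacter L a) (hb : IsIrrCharacter L b) (ha' : IsIrrCharacter L a')
    (hb' : IsIrrCharacter L b') (hab : a ≠ b) (hab' : a' ≠ b')
    (h : classInner (a - b) (a' - b') = 1) :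
    (a = a' ∧ b ≠ b') ∨ (b = b' ∧ a ≠ a') := by
  classical
  rw [Cfsg.Agent.Helper2.classInner_sub_left, Cfsg.Agent.Helper2.classInner_sub_right,
    Cfsg.Agent.Helper2.classInner_sub_right, irr_inner_fun_tp ha ha', irr_inner_fun_tp ha hb',
    irr_inner_fun_tp hb ha', irr_inner_fun_tp hb hb'] at h
  by_cases h1 : a = a'
  · left
    refine ⟨h1, ?_⟩
    intro h2
    have h3 : a ≠ b' := fun e => hab' (h1.symm.trans e)
    have h4 : b ≠ a' := fun e => hab (h1.trans e.symm)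
    rw [if_pos h1, if_pos h2, if_neg h3, if_neg h4] at h
    norm_num at h
  · right
    refine ⟨?_, h1⟩
    by_contra h2
    rw [if_neg h1, if_neg h2] at h
    by_cases h3 : a = b' <;> by_cases h4 : b = a'
    · rw [if_pos h3, if_pos h4] at h; norm_num at h
    · rw [if_pos h3, if_neg h4] at h; norm_num at h
    · rw [if_neg h3, if_pos h4] at h; norm_num at h
    · rw [if_neg h3, if_neg h4] at h; norm_num at h

/-- Star coherence, positive case. -/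
theorem star_coherent_pos {L : Type*} [Group L] [Fintype L] {Ω : Type*} (S : Set Ω)
    (d : Ω → Ω → (L → ℂ)) (o : Ω) (ho : o ∈ S) (a b : Ω → (L → ℂ))
    (ha : ∀ k ∈ S, k ≠ o → IsIrrCharacter L (a k)) (hb : ∀ k ∈ S, k ≠ o → IsIrrCharacter L (b k))
    (hd : ∀ k ∈ S, k ≠ o → d o k = a k - b k)
    (hab : ∀ k ∈ S, k ≠ o → a k ≠ b k)
    (hadd : ∀ i ∈ S, ∀ j ∈ S, ∀ k ∈ S, d i j + d j k = d i k)
    (hin : ∀ k ∈ S, ∀ l ∈ S, k ≠ o → l ≠ o → k ≠ l → classInner (d o k) (d o l) = 1)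
    (p q : Ω) (hp : p ∈ S) (hq : q ∈ S) (hpo : p ≠ o) (hqo : q ≠ o) (hpq : p ≠ q)
    (hA : a p = a q) :
    ∃ μ : Ω → L → ℂ, (∀ i ∈ S, IsIrrCharacter L (μ i)) ∧ ∀ i ∈ S, ∀ j ∈ S, d i j = μ i - μ j := by
  classical
  have key : ∀ k ∈ S, ∀ l ∈ S, k ≠ o → l ≠ o → k ≠ l →
      (a k = a l ∧ b k ≠ b l) ∨ (b k = b l ∧ a k ≠ a l) := by
    intro k hk l hl hko hlo hkl
    have h := hin k hk l hl hko hlo hkl
    rw [hd k hk hko, hd l hl hlo] at h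
    exact irr_diff_inner (ha k hk hko) (hb k hk hko) (ha l hl hlo) (hb l hl hlo)
      (hab k hk hko) (hab l hl hlo) h
  have hall : ∀ k ∈ S, k ≠ o → a k = a p := by
    intro k hk hko
    by_cases hkp : k = p
    · rw [hkp]
    rcases key p hp k hk hpo hko (Ne.symm hkp) with ⟨h, _⟩ | ⟨hb', ha'⟩
    · exact h.symm
    exfalso
    by_cases hkq : k = q
    · subst hkq; exact ha' hA
    rcases key k hk q hq hko hqo hkq with ⟨h, _⟩ | ⟨h, _⟩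
    · exact ha' (hA.trans h.symm)
    · rcases key p hp q hq hpo hqo hpq with ⟨_, h'⟩ | ⟨_, h'⟩
      · exact h' (hb'.trans h)
      · exact h' hA
  refine ⟨fun i => if i = o then a p else b i, ?_, ?_⟩
  · intro i hi
    by_cases hio : i = o
    · simp only [if_pos hio]; exact ha p hp hpo
    · simp only [if_neg hio]; exact hb i hi hio
  · have h0 : d o o = 0 := by
      have := hadd o ho o ho o ho
      exact add_eq_left.mp this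
    have hok : ∀ k ∈ S, d o k = a p - (if k = o then a p else b k) := by
      intro k hk
      by_cases hko : k = o
      · rw [if_pos hko, hko, h0, sub_self]
      · rw [if_neg hko, hd k hk hko, hall k hk hko]
    intro i hi j hj
    have h1 := hadd o ho i hi j hj
    rw [hok i hi, hok j hj] at h1
    show d i j = (if i = o then a p else b i) - (if j = o then a p else b j)
    have h2 : d i j = (a p - if j = o then a p else b j) - (a p - if i = o then a p else b i) :=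
      eq_sub_of_add_eq' h1
    rw [h2]
    abel

/-- Star coherence: a family of differences of irreducible characters, additive and with
all inner products `⟨d i j, d i k⟩ = 1`, comes from a signed injection into the irreducibles. -/
theorem star_coherent {L : Type*} [Group L] [Fintype L] {Ω : Type*} (S : Set Ω)
    (d : Ω → Ω → (L → ℂ))
    (hirr : ∀ i ∈ S, ∀ j ∈ S, i ≠ j → ∃ a b : L → ℂ, IsIrrCharacter L a ∧ IsIrrCharacter L b ∧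
      a ≠ b ∧ d i j = a - b)
    (hadd : ∀ i ∈ S, ∀ j ∈ S, ∀ k ∈ S, d i j + d j k = d i k)
    (hin : ∀ i ∈ S, ∀ j ∈ S, ∀ k ∈ S, i ≠ j → i ≠ k → j ≠ k → classInner (d i j) (d i k) = 1)
    (o p q : Ω) (ho : o ∈ S) (hp : p ∈ S) (hq : q ∈ S) (hpo : p ≠ o) (hqo : q ≠ o)
    (hpq : p ≠ q) :
    ∃ (δ : ℂ) (μ : Ω → L → ℂ), (δ = 1 ∨ δ = -1) ∧ (∀ i ∈ S, IsIrrCharacter L (μ i)) ∧
      ∀ i ∈ S, ∀ j ∈ S, d i j = δ • (μ i - μ j) := by
  classical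
  have hex : ∀ k : Ω, ∃ a b : L → ℂ, k ∈ S → k ≠ o →
      (IsIrrCharacter L a ∧ IsIrrCharacter L b ∧ a ≠ b ∧ d o k = a - b) := by
    intro k
    by_cases hk : k ∈ S ∧ k ≠ o
    · obtain ⟨a, b, h⟩ := hirr o ho k hk.1 (Ne.symm hk.2)
      exact ⟨a, b, fun _ _ => h⟩
    · exact ⟨0, 0, fun h1 h2 => absurd ⟨h1, h2⟩ hk⟩
  choose a b hab using hex
  have hpq' := hin o ho p hp q hq (Ne.symm hpo) (Ne.symm hqo) hpq
  obtain ⟨hap, hbp, habp, hdp⟩ := hab p hp hpo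
  obtain ⟨haq, hbq, habq, hdq⟩ := hab q hq hqo
  rw [hdp, hdq] at hpq'
  rcases irr_diff_inner hap hbp haq hbq habp habq hpq' with ⟨hA, _⟩ | ⟨hB, _⟩
  · obtain ⟨μ, hμ, hdμ⟩ := star_coherent_pos S d o ho a b (fun k hk hko => (hab k hk hko).1)
      (fun k hk hko => (hab k hk hko).2.1) (fun k hk hko => (hab k hk hko).2.2.2)
      (fun k hk hko => (hab k hk hko).2.2.1) hadd
      (fun k hk l hl hko hlo hkl => hin o ho k hk l hl (Ne.symm hko) (Ne.symm hlo) hkl)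
      p q hp hq hpo hqo hpq hA
    refine ⟨1, μ, Or.inl rfl, hμ, ?_⟩
    intro i hi j hj
    rw [one_smul]
    exact hdμ i hi j hj
  · obtain ⟨μ, hμ, hdμ⟩ := star_coherent_pos S (fun i j => -d i j) o ho b a
      (fun k hk hko => (hab k hk hko).2.1) (fun k hk hko => (hab k hk hko).1)
      (fun k hk hko => by
        show -d o k = b k - a k
        rw [(hab k hk hko).2.2.2, neg_sub])
      (fun k hk hko => (hab k hk hko).2.2.1.symm)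
      (fun i hi j hj k hk => by
        show -d i j + -d j k = -d i k
        rw [← neg_add, hadd i hi j hj k hk])
      (fun k hk l hl hko hlo hkl => by
        show classInner (-d o k) (-d o l) = 1
        rw [Cfsg.Agent.Helper2.classInner_neg_left, Cfsg.Agent.Helper2.classInner_neg_right,
          neg_neg]
        exact hin o ho k hk l hl (Ne.symm hko) (Ne.symm hlo) hkl)
      p q hp hq hpo hqo hpq hB
    refine ⟨-1, μ, Or.inr rfl, hμ, ?_⟩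
    intro i hi j hj
    have := hdμ i hi j hj
    rw [neg_smul, one_smul, ← this, neg_neg]

/-- Structure of a group of type P: `W₁` and `W₂` commute and meet trivially, and the elements
of `W₁ ⊔ W₂` outside `W₂` are conjugated into `W₁ ⊔ W₂` only by elements of `W₁ ⊔ W₂`. -/
theorem typeP_ti {L : Type*} [Group L] [Finite L] (K W₁ W₂ : Subgroup L) [hK : K.Normal]
    (hKW₁ : K ⊓ W₁ = ⊥) (hKW₁' : K ⊔ W₁ = ⊤) (hW₁c : IsCyclic W₁)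
    (hHall : Nat.Coprime (Nat.card W₁) W₁.index)
    (hW₂K : W₂ ≤ K) (hC : ∀ x ∈ W₁, x ≠ 1 → K ⊓ Subgroup.centralizer ({x} : Set L) = W₂) :
    W₁ ⊓ W₂ = ⊥ ∧ (∀ a ∈ W₁, ∀ b ∈ W₂, a * b = b * a) ∧
    (∀ x ∈ W₁ ⊔ W₂, x ∉ W₂ → ∀ g : L, g * x * g⁻¹ ∈ W₁ ⊔ W₂ → g ∈ W₁ ⊔ W₂) := by
  classical
  have hcompl : Subgroup.IsComplement' K W₁ := by
    apply Subgroup.isComplement'_of_disjoint_and_mul_eq_univ (disjoint_iff.mpr hKW₁)
    rw [← Subgroup.normal_mul, hKW₁']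
    rfl
  have hcardK : W₁.index = Nat.card K := hcompl.index_eq_card
  have hcop : (Nat.card W₁).Coprime (Nat.card K) := hcardK ▸ hHall
  have hprod : ∀ g : L, ∃ k ∈ K, ∃ w ∈ W₁, g = k * w := by
    intro g
    have hg : g ∈ ((K ⊔ W₁ : Subgroup L) : Set L) := by rw [hKW₁']; trivial
    rw [Subgroup.normal_mul] at hg
    obtain ⟨k, hk, w, hw, rfl⟩ := Set.mem_mul.mp hg
    exact ⟨k, hk, w, hw, rfl⟩
  have hW₁comm : ∀ a ∈ W₁, ∀ b ∈ W₁, a * b = b * a := by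
    intro a ha b hb
    have := (IsCyclic.isMulCommutative (α := W₁)).is_comm.comm ⟨a, ha⟩ ⟨b, hb⟩
    exact congrArg Subtype.val this
  have hdisj : W₁ ⊓ W₂ = ⊥ := by
    rw [eq_bot_iff, ← hKW₁]
    intro y hy
    exact ⟨hW₂K hy.2, hy.1⟩
  have hcomm : ∀ a ∈ W₁, ∀ b ∈ W₂, a * b = b * a := by
    intro a ha b hb
    by_cases ha1 : a = 1
    · rw [ha1]; simp
    · have hv : b ∈ K ⊓ Subgroup.centralizer ({a} : Set L) := by
        rw [hC a ha ha1]; exact hb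
      exact (Subgroup.mem_centralizer_singleton_iff.mp hv.2).symm
  refine ⟨hdisj, hcomm, ?_⟩
  intro x hx hx2 g hg
  set n := Nat.card K with hn
  -- powers
  have hpowK : ∀ k ∈ K, k ^ n = 1 := by
    intro k hk
    have h2 : ((⟨k, hk⟩ : K) ^ n : K) = 1 := pow_card_eq_one' (G := K) (x := ⟨k, hk⟩)
    have h3 := congrArg Subtype.val h2
    rwa [SubmonoidClass.coe_pow, OneMemClass.coe_one] at h3
  have hpow : ∀ y : ↥(W₁ ⊔ W₂), (y : L) ^ n = (proj₁ W₁ W₂ hdisj hcomm y : L) ^ n := by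
    intro y
    have h1 := proj_mul W₁ W₂ hdisj hcomm y
    have hc : Commute (proj₁ W₁ W₂ hdisj hcomm y : L) (proj₂ W₁ W₂ hdisj hcomm y : L) :=
      hcomm _ (proj₁ W₁ W₂ hdisj hcomm y).2 _ (proj₂ W₁ W₂ hdisj hcomm y).2
    rw [h1, hc.mul_pow, hpowK _ (hW₂K (proj₂ W₁ W₂ hdisj hcomm y).2), mul_one]
  set a : W₁ := proj₁ W₁ W₂ hdisj hcomm ⟨x, hx⟩ with ha
  have ha1 : (a : L) ≠ 1 := by
    intro h
    apply hx2
    have h1 := proj_mul W₁ W₂ hdisj hcomm ⟨x, hx⟩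
    rw [← ha, h, one_mul] at h1
    have : x = (proj₂ W₁ W₂ hdisj hcomm ⟨x, hx⟩ : L) := h1
    rw [this]
    exact (proj₂ W₁ W₂ hdisj hcomm ⟨x, hx⟩).2
  set u : L := (a : L) ^ n with hu
  have huW : u ∈ W₁ := W₁.pow_mem a.2 n
  have hu1 : u ≠ 1 := by
    intro h
    apply ha1
    have h1 : orderOf (a : L) ∣ n := orderOf_dvd_of_pow_eq_one h
    have h2 : orderOf (a : L) ∣ Nat.card W₁ := by
      have := orderOf_dvd_natCard a
      rwa [← Subgroup.orderOf_coe] at this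
    have h3 : orderOf (a : L) = 1 :=
      Nat.Coprime.eq_one_of_dvd (hcop.symm.coprime_dvd_left h1) h2
    exact orderOf_eq_one_iff.mp h3
  have hxu : x ^ n = u := hpow ⟨x, hx⟩
  have hgu : g * u * g⁻¹ ∈ W₁ := by
    have h1 := hpow ⟨g * x * g⁻¹, hg⟩
    have h2 : (g * x * g⁻¹) ^ n = g * u * g⁻¹ := by rw [conj_pow, hxu]
    rw [← h2]
    have h3 : ((⟨g * x * g⁻¹, hg⟩ : ↥(W₁ ⊔ W₂)) : L) ^ n = (g * x * g⁻¹) ^ n := rfl
    rw [← h3, h1]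
    exact W₁.pow_mem (proj₁ W₁ W₂ hdisj hcomm ⟨g * x * g⁻¹, hg⟩).2 n
  obtain ⟨k, hk, w, hw, rfl⟩ := hprod g
  have h1 : k * w * u * (k * w)⁻¹ = k * u * k⁻¹ := by
    have := hW₁comm w hw u huW
    calc k * w * u * (k * w)⁻¹ = k * (w * u) * w⁻¹ * k⁻¹ := by group
      _ = k * (u * w) * w⁻¹ * k⁻¹ := by rw [this]
      _ = k * u * k⁻¹ := by group
  rw [h1] at hgu
  have h2 : k * u * k⁻¹ * u⁻¹ ∈ K ⊓ W₁ := by
    refine ⟨?_, W₁.mul_mem hgu (W₁.inv_mem huW)⟩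
    have : k * u * k⁻¹ * u⁻¹ = k * (u * k⁻¹ * u⁻¹) := by group
    rw [this]
    exact K.mul_mem hk (hK.conj_mem _ (K.inv_mem hk) u)
  rw [hKW₁, Subgroup.mem_bot] at h2
  have h3 : k * u = u * k := by
    have : k * u * k⁻¹ = u := by
      have := mul_inv_eq_one.mp h2
      exact this
    calc k * u = k * u * k⁻¹ * k := by group
      _ = u * k := by rw [this]
  have hkW₂ : k ∈ W₂ := by
    rw [← hC u huW hu1]
    exact ⟨hk, Subgroup.mem_centralizer_singleton_iff.mpr h3⟩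
  exact Subgroup.mul_mem _ ((le_sup_right : W₂ ≤ W₁ ⊔ W₂) hkW₂) ((le_sup_left : W₁ ≤ W₁ ⊔ W₂) hw)

open scoped IsMulCommutative in
/-- A finite abelian group has a linear character nontrivial at a given non-identity element. -/
theorem exists_hom_ne_one {A : Type*} [Group A] [Finite A] (h : ∀ a b : A, a * b = b * a)
    (a : A) (ha : a ≠ 1) : ∃ φ : A →* ℂˣ, φ a ≠ 1 := by
  have : IsMulCommutative A := ⟨⟨h⟩⟩
  exact CommGroup.exists_apply_ne_one_of_hasEnoughRootsOfUnity A ℂ ha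

theorem hom_mul_conj {A : Type*} [Group A] [Finite A] (χ : A →* ℂˣ) (a : A) :
    ((χ a : ℂˣ) : ℂ) * (starRingEnd ℂ) ((χ a : ℂˣ) : ℂ) = 1 := by
  have h1 : ((χ a : ℂˣ) : ℂ) ^ (Nat.card A) = 1 := by
    rw [← Units.val_pow_eq_pow_val, ← map_pow, pow_card_eq_one', map_one, Units.val_one]
  have h2 : ‖((χ a : ℂˣ) : ℂ)‖ = 1 :=
    Complex.norm_eq_one_of_pow_eq_one h1 Nat.card_pos.ne'
  rw [Complex.mul_conj, Complex.normSq_eq_norm_sq, h2]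
  simp

theorem norm_expand (m d z : ℂ) (hd : (starRingEnd ℂ) d = d) (hd2 : d * d = 1)
    (hz : z * (starRingEnd ℂ) z = 1) :
    m * (starRingEnd ℂ) m = 1 + d * z * (starRingEnd ℂ) (m - d * z) +
      (starRingEnd ℂ) (d * z * (starRingEnd ℂ) (m - d * z)) +
      (m - d * z) * (starRingEnd ℂ) (m - d * z) := by
  simp only [map_sub, map_mul, Complex.conj_conj, hd]
  linear_combination (z * (starRingEnd ℂ) z) * hd2 + hz

/-- `indFun_ti` for a subgroup known to equal the normaliser of the TI-set. -/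
theorem indFun_ti' {G : Type*} [Group G] [Fintype G] (H : Subgroup G) (T : Set G)
    (hH : Subgroup.normalizer T = H)
    (hTI : ∀ g : G, g ∉ H → ∀ t ∈ T, g * t * g⁻¹ ∈ T → t = 1)
    (ψ : H → ℂ) (hψ : IsClassFunction H ψ)
    (hψT : ∀ x : H, (x : G) ∉ T → ψ x = 0) (t : H) (htT : (t : G) ∈ T) (ht1 : t ≠ 1) :
    indFun H ψ t = ψ t := by
  subst hH
  exact Cfsg.Agent.Helper2.indFun_ti T hTI ψ hψ hψT t htT ht1

open Classical in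
theorem classInner_smul_irr_diff {L : Type*} [Group L] [Fintype L] {a b a' b' : L → ℂ}
    (ha : IsIrrCharacter L a) (hb : IsIrrCharacter L b) (ha' : IsIrrCharacter L a')
    (hb' : IsIrrCharacter L b') (c c' : ℂ) :
    classInner (c • (a - b)) (c' • (a' - b')) = c * (starRingEnd ℂ) c' *
      ((if a = a' then 1 else 0) - (if a = b' then 1 else 0) - (if b = a' then 1 else 0)
        + (if b = b' then 1 else 0)) := by
  rw [Cfsg.Agent.Helper2.classInner_smul_left, Cfsg.Agent.Helper2.classInner_smul_right,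
    Cfsg.Agent.Helper2.classInner_sub_left, Cfsg.Agent.Helper2.classInner_sub_right,
    Cfsg.Agent.Helper2.classInner_sub_right, irr_inner_fun_tp ha ha', irr_inner_fun_tp ha hb',
    irr_inner_fun_tp hb ha', irr_inner_fun_tp hb hb']
  ring

set_option maxHeartbeats 1600000 in
/-- Exceptional characters of a group of type P (`L = K ⋊ W₁`). -/
theorem typeP_exceptional {L : Type*} [Group L] [Fintype L] (K W₁ W₂ : Subgroup L) [hK : K.Normal]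
    (hKW₁ : K ⊓ W₁ = ⊥) (hKW₁' : K ⊔ W₁ = ⊤) (hW₁ : W₁ ≠ ⊥) (hW₁c : IsCyclic W₁)
    (hHall : Nat.Coprime (Nat.card W₁) W₁.index) (hW₂c : IsCyclic W₂) (hW₂K : W₂ ≤ K)
    (hC : ∀ x ∈ W₁, x ≠ 1 → K ⊓ Subgroup.centralizer ({x} : Set L) = W₂)
    (hodd : Odd (Nat.card ↥(W₁ ⊔ W₂))) :
    ∃ (μ : (↥(W₁ ⊔ W₂) →* ℂˣ) → (L → ℂ)) (δ : (↥(W₁ ⊔ W₂) →* ℂˣ) → ℂ),
      Function.Injective μ ∧ (∀ ω, Cfsg.IsIrrCharacter L (μ ω)) ∧ (∀ ω, δ ω = 1 ∨ δ ω = -1) ∧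
      (∀ ω ω' : ↥(W₁ ⊔ W₂) →* ℂˣ, (∀ w : ↥(W₁ ⊔ W₂), (w : L) ∈ W₂ → ω w = ω' w) →
        δ ω = δ ω' ∧
        Cfsg.indFun (W₁ ⊔ W₂) (fun w => (ω w : ℂ) - (ω' w : ℂ)) = δ ω • (μ ω - μ ω')) ∧
      (∀ ω, ∀ w : ↥(W₁ ⊔ W₂), (w : L) ∉ W₂ → μ ω w = δ ω * (ω w : ℂ)) ∧
      (∀ θ : L → ℂ, Cfsg.IsIrrCharacter L θ → (∀ ω, θ ≠ μ ω) →
        ∀ w : ↥(W₁ ⊔ W₂), (w : L) ∉ W₂ → θ w = 0) ∧
      (∀ ω, ∃ n : ℤ, μ ω 1 - δ ω = n * (Nat.card W₁ : ℂ)) := by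
  classical
  obtain ⟨hdisj, hcomm, hTI⟩ := typeP_ti K W₁ W₂ hKW₁ hKW₁' hW₁c hHall hW₂K hC
  let _ : Fintype ↥(W₁ ⊔ W₂) := Fintype.ofFinite _
  have hWab : ∀ x y : ↥(W₁ ⊔ W₂), x * y = y * x := by
    intro x y
    have h1 : ∀ p q : W₁ × W₂, p * q = q * p := by
      intro p q
      apply Prod.ext
      · exact (IsCyclic.isMulCommutative (α := W₁)).is_comm.comm p.1 q.1
      · exact (IsCyclic.isMulCommutative (α := W₂)).is_comm.comm p.2 q.2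
    have h2 := h1 ((prodEquiv W₁ W₂ hdisj hcomm).symm x) ((prodEquiv W₁ W₂ hdisj hcomm).symm y)
    rw [← map_mul, ← map_mul] at h2
    exact (prodEquiv W₁ W₂ hdisj hcomm).symm.injective h2
  have hcardΩ : Nat.card (↥(W₁ ⊔ W₂) →* ℂˣ) = Nat.card ↥(W₁ ⊔ W₂) := card_hom_of_comm hWab
  have hfinΩ : Finite (↥(W₁ ⊔ W₂) →* ℂˣ) :=
    Nat.finite_of_card_ne_zero (by rw [hcardΩ]; exact Nat.card_pos.ne')
  let _ : Fintype (↥(W₁ ⊔ W₂) →* ℂˣ) := Fintype.ofFinite _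
  -- the TI set
  have hWcomm : ∀ w ∈ W₁ ⊔ W₂, ∀ t ∈ W₁ ⊔ W₂, w * t * w⁻¹ = t := by
    intro w hw t ht
    have h2 : w * t = t * w := congrArg Subtype.val (hWab ⟨w, hw⟩ ⟨t, ht⟩)
    rw [h2]; group
  obtain ⟨a₀, ha₀W, ha₀1⟩ : ∃ a ∈ W₁, a ≠ 1 := by
    by_contra hcon
    push Not at hcon
    exact hW₁ ((Subgroup.eq_bot_iff_forall _).mpr hcon)
  have hNT : Subgroup.normalizer ((↑(W₁ ⊔ W₂) : Set L) \ ↑W₂) = W₁ ⊔ W₂ := by
    apply le_antisymm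
    · intro g hg
      rw [Subgroup.mem_set_normalizer_iff] at hg
      have ha₀T : a₀ ∈ ((↑(W₁ ⊔ W₂) : Set L) \ ↑W₂) := by
        refine ⟨(le_sup_left : W₁ ≤ W₁ ⊔ W₂) ha₀W, fun h => ha₀1 ?_⟩
        have : a₀ ∈ W₁ ⊓ W₂ := ⟨ha₀W, h⟩
        rw [hdisj] at this; exact this
      have := (hg a₀).mp ha₀T
      exact hTI a₀ ha₀T.1 ha₀T.2 g this.1
    · intro w hw
      rw [Subgroup.mem_set_normalizer_iff]
      intro n
      constructor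
      · intro hn
        rw [hWcomm w hw n hn.1]; exact hn
      · intro hn
        have h1 : w⁻¹ * (w * n * w⁻¹) * w⁻¹⁻¹ = w * n * w⁻¹ :=
          hWcomm w⁻¹ (inv_mem hw) _ hn.1
        have h2 : w⁻¹ * (w * n * w⁻¹) * w⁻¹⁻¹ = n := by group
        rw [h2] at h1
        rw [h1]; exact hn
  have hTI' : ∀ g : L, g ∉ W₁ ⊔ W₂ → ∀ t ∈ ((↑(W₁ ⊔ W₂) : Set L) \ ↑W₂),
      g * t * g⁻¹ ∈ ((↑(W₁ ⊔ W₂) : Set L) \ ↑W₂) → t = 1 := by
    intro g hg t ht hgt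
    exact absurd (hTI t ht.1 ht.2 g hgt.1) hg
  have hcf : ∀ f : ↥(W₁ ⊔ W₂) → ℂ, IsClassFunction ↥(W₁ ⊔ W₂) f := by
    intro f g h
    have : h * g * h⁻¹ = g := by rw [hWab h g]; group
    rw [this]
  have hfT : ∀ ω ω' : ↥(W₁ ⊔ W₂) →* ℂˣ, (∀ w : ↥(W₁ ⊔ W₂), (w : L) ∈ W₂ → ω w = ω' w) →
      ∀ x : ↥(W₁ ⊔ W₂), (x : L) ∉ ((↑(W₁ ⊔ W₂) : Set L) \ ↑W₂) →
        (fun w : ↥(W₁ ⊔ W₂) => ((ω w : ℂˣ) : ℂ) - ((ω' w : ℂˣ) : ℂ)) x = 0 := by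
    intro ω ω' hE x hx
    have hx2 : (x : L) ∈ W₂ := by
      by_contra h; exact hx ⟨x.2, h⟩
    show ((ω x : ℂˣ) : ℂ) - ((ω' x : ℂˣ) : ℂ) = 0
    rw [hE x hx2, sub_self]
  have hf1 : ∀ ω ω' : ↥(W₁ ⊔ W₂) →* ℂˣ,
      (fun w : ↥(W₁ ⊔ W₂) => ((ω w : ℂˣ) : ℂ) - ((ω' w : ℂˣ) : ℂ)) 1 = 0 := by
    intro ω ω'
    show ((ω 1 : ℂˣ) : ℂ) - ((ω' 1 : ℂˣ) : ℂ) = 0
    rw [map_one, map_one, sub_self]
  have hinner : ∀ ω₁ ω₁' ω₂ ω₂' : ↥(W₁ ⊔ W₂) →* ℂˣ,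
      (∀ w : ↥(W₁ ⊔ W₂), (w : L) ∈ W₂ → ω₁ w = ω₁' w) →
      (∀ w : ↥(W₁ ⊔ W₂), (w : L) ∈ W₂ → ω₂ w = ω₂' w) →
      classInner (indFun (W₁ ⊔ W₂) (fun w => ((ω₁ w : ℂˣ) : ℂ) - ((ω₁' w : ℂˣ) : ℂ)))
        (indFun (W₁ ⊔ W₂) (fun w => ((ω₂ w : ℂˣ) : ℂ) - ((ω₂' w : ℂˣ) : ℂ))) =
      (if ω₁ = ω₂ then 1 else 0) - (if ω₁ = ω₂' then 1 else 0) - (if ω₁' = ω₂ then 1 else 0)
        + (if ω₁' = ω₂' then 1 else 0) := by
    intro ω₁ ω₁' ω₂ ω₂' h1 h2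
    rw [classInner_indFun_ti' (W₁ ⊔ W₂) _ hNT hTI' _ _ (hcf _) (hfT ω₁ ω₁' h1) (hfT ω₂ ω₂' h2)
      (hf1 ω₁ ω₁')]
    have e1 : (fun w : ↥(W₁ ⊔ W₂) => ((ω₁ w : ℂˣ) : ℂ) - ((ω₁' w : ℂˣ) : ℂ)) =
        (fun w : ↥(W₁ ⊔ W₂) => ((ω₁ w : ℂˣ) : ℂ)) - (fun w => ((ω₁' w : ℂˣ) : ℂ)) := rfl
    have e2 : (fun w : ↥(W₁ ⊔ W₂) => ((ω₂ w : ℂˣ) : ℂ) - ((ω₂' w : ℂˣ) : ℂ)) =
        (fun w : ↥(W₁ ⊔ W₂) => ((ω₂ w : ℂˣ) : ℂ)) - (fun w => ((ω₂' w : ℂˣ) : ℂ)) := rfl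
    rw [e1, e2, Cfsg.Agent.Helper2.classInner_sub_left, Cfsg.Agent.Helper2.classInner_sub_right,
      Cfsg.Agent.Helper2.classInner_sub_right, classInner_hom, classInner_hom, classInner_hom,
      classInner_hom]
    ring
  have hgen : ∀ ω ω' : ↥(W₁ ⊔ W₂) →* ℂˣ, IsGeneralizedCharacter L
      (indFun (W₁ ⊔ W₂) (fun w => ((ω w : ℂˣ) : ℂ) - ((ω' w : ℂˣ) : ℂ))) := by
    intro ω ω'
    refine ⟨indFun (W₁ ⊔ W₂) (fun w => ((ω w : ℂˣ) : ℂ)),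
      indFun (W₁ ⊔ W₂) (fun w => ((ω' w : ℂˣ) : ℂ)),
      Cfsg.Agent.Helper2.isCharacter_indFun _ (Cfsg.Agent.Helper7.isCharacter_of_hom ω),
      Cfsg.Agent.Helper2.isCharacter_indFun _ (Cfsg.Agent.Helper7.isCharacter_of_hom ω'), ?_⟩
    rw [← Cfsg.Agent.Helper2.indFun_sub]
    rfl
  have hval1 : ∀ ω ω' : ↥(W₁ ⊔ W₂) →* ℂˣ,
      indFun (W₁ ⊔ W₂) (fun w => ((ω w : ℂˣ) : ℂ) - ((ω' w : ℂˣ) : ℂ)) 1 = 0 := by
    intro ω ω'
    rw [Cfsg.Agent.Helper2.indFun_one_apply, map_one, map_one, sub_self, mul_zero]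
  have hadd : ∀ ω ω' ω'' : ↥(W₁ ⊔ W₂) →* ℂˣ,
      indFun (W₁ ⊔ W₂) (fun w => ((ω w : ℂˣ) : ℂ) - ((ω' w : ℂˣ) : ℂ)) +
        indFun (W₁ ⊔ W₂) (fun w => ((ω' w : ℂˣ) : ℂ) - ((ω'' w : ℂˣ) : ℂ)) =
      indFun (W₁ ⊔ W₂) (fun w => ((ω w : ℂˣ) : ℂ) - ((ω'' w : ℂˣ) : ℂ)) := by
    intro ω ω' ω''
    rw [← Cfsg.Agent.Helper2.indFun_add]
    congr 1
    funext w
    show ((ω w : ℂˣ) : ℂ) - ((ω' w : ℂˣ) : ℂ) + (((ω' w : ℂˣ) : ℂ) - ((ω'' w : ℂˣ) : ℂ)) = _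
    ring
  have hvalT : ∀ ω ω' : ↥(W₁ ⊔ W₂) →* ℂˣ, (∀ w : ↥(W₁ ⊔ W₂), (w : L) ∈ W₂ → ω w = ω' w) →
      ∀ w : ↥(W₁ ⊔ W₂), (w : L) ∉ W₂ →
      indFun (W₁ ⊔ W₂) (fun w => ((ω w : ℂˣ) : ℂ) - ((ω' w : ℂˣ) : ℂ)) (w : L) =
        ((ω w : ℂˣ) : ℂ) - ((ω' w : ℂˣ) : ℂ) := by
    intro ω ω' hE w hw
    have hw1 : w ≠ 1 := by
      intro h
      apply hw
      rw [h]
      exact W₂.one_mem
    exact indFun_ti' (W₁ ⊔ W₂) _ hNT hTI' _ (hcf _) (hfT ω ω' hE) w ⟨w.2, hw⟩ hw1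
  have hE_iff : ∀ ω ω' : ↥(W₁ ⊔ W₂) →* ℂˣ, res₂ W₁ W₂ ω = res₂ W₁ W₂ ω' ↔
      (∀ w : ↥(W₁ ⊔ W₂), (w : L) ∈ W₂ → ω w = ω' w) := by
    intro ω ω'
    constructor
    · intro h w hw
      have := congrArg (fun f : W₂ →* ℂˣ => f ⟨(w : L), hw⟩) h
      exact this
    · intro h
      ext b
      show ((ω (Subgroup.inclusion le_sup_right b) : ℂˣ) : ℂ) =
        ω' (Subgroup.inclusion le_sup_right b)
      rw [h _ b.2]
  -- three characters of `W₁`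
  have hW₁ab : ∀ a b : W₁, a * b = b * a :=
    fun a b => (IsCyclic.isMulCommutative (α := W₁)).is_comm.comm a b
  have h3 : 3 ≤ Nat.card W₁ := by
    have hoddW₁ : Odd (Nat.card W₁) :=
      Odd.of_dvd_nat hodd (Subgroup.card_dvd_of_le (le_sup_left : W₁ ≤ W₁ ⊔ W₂))
    have hne1 : Nat.card W₁ ≠ 1 := fun h => hW₁ (Subgroup.eq_bot_of_card_eq W₁ h)
    have hpos : 0 < Nat.card W₁ := Nat.card_pos
    obtain ⟨k, hk⟩ := hoddW₁
    omega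
  obtain ⟨φ₁, φ₂, hφ₁, hφ₂, hφ₁₂, hφ₁W₂, hφ₂W₂⟩ :=
    exists_two_lift₁ W₁ W₂ hdisj hcomm hW₁ab h3
  have hEmul : ∀ (φ ω : ↥(W₁ ⊔ W₂) →* ℂˣ), (∀ w : ↥(W₁ ⊔ W₂), (w : L) ∈ W₂ → φ w = 1) →
      ∀ w : ↥(W₁ ⊔ W₂), (w : L) ∈ W₂ → (φ * ω) w = ω w := by
    intro φ ω hφ w hw
    rw [MonoidHom.mul_apply, hφ w hw, one_mul]
  have hcls : ∀ ψ : W₂ →* ℂˣ, ∃ (δ : ℂ) (μ : (↥(W₁ ⊔ W₂) →* ℂˣ) → L → ℂ), (δ = 1 ∨ δ = -1) ∧
      (∀ ω, res₂ W₁ W₂ ω = ψ → IsIrrCharacter L (μ ω)) ∧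
      ∀ ω, res₂ W₁ W₂ ω = ψ → ∀ ω', res₂ W₁ W₂ ω' = ψ →
        indFun (W₁ ⊔ W₂) (fun w => ((ω w : ℂˣ) : ℂ) - ((ω' w : ℂˣ) : ℂ)) = δ • (μ ω - μ ω') := by
    intro ψ
    have hres : ∀ φ : ↥(W₁ ⊔ W₂) →* ℂˣ, (∀ w : ↥(W₁ ⊔ W₂), (w : L) ∈ W₂ → φ w = 1) →
        res₂ W₁ W₂ (φ * lift₂ W₁ W₂ hdisj hcomm ψ) = ψ := by
      intro φ hφ
      ext b
      show (((φ (Subgroup.inclusion le_sup_right b)) *
        (lift₂ W₁ W₂ hdisj hcomm ψ (Subgroup.inclusion le_sup_right b)) : ℂˣ) : ℂ) = ψ b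
      rw [hφ _ b.2, lift₂_of_mem_right W₁ W₂ hdisj hcomm ψ _ b.2, one_mul]
      rfl
    exact star_coherent {ω : ↥(W₁ ⊔ W₂) →* ℂˣ | res₂ W₁ W₂ ω = ψ}
      (fun ω ω' => indFun (W₁ ⊔ W₂) (fun w => ((ω w : ℂˣ) : ℂ) - ((ω' w : ℂˣ) : ℂ)))
      (by
        intro i hi j hj hij
        have hE := (hE_iff i j).mp (hi.trans hj.symm)
        have hn : classInner (indFun (W₁ ⊔ W₂) (fun w => ((i w : ℂˣ) : ℂ) - ((j w : ℂˣ) : ℂ)))
            (indFun (W₁ ⊔ W₂) (fun w => ((i w : ℂˣ) : ℂ) - ((j w : ℂˣ) : ℂ))) = 2 := by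
          rw [hinner i j i j hE hE, if_pos rfl, if_neg hij, if_neg (Ne.symm hij), if_pos rfl]
          norm_num
        obtain ⟨ψ₁, ψ₂, hne, heq⟩ := virtual_norm_two (hgen i j) hn (hval1 i j)
        exact ⟨ψ₁, ψ₂, ψ₁.2, ψ₂.2, fun h => hne (Subtype.ext h), heq⟩)
      (fun i _ j _ k _ => hadd i j k)
      (by
        intro i hi j hj k hk hij hik hjk
        have hE1 := (hE_iff i j).mp (hi.trans hj.symm)
        have hE2 := (hE_iff i k).mp (hi.trans hk.symm)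
        show classInner (indFun (W₁ ⊔ W₂) (fun w => ((i w : ℂˣ) : ℂ) - ((j w : ℂˣ) : ℂ)))
            (indFun (W₁ ⊔ W₂) (fun w => ((i w : ℂˣ) : ℂ) - ((k w : ℂˣ) : ℂ))) = 1
        rw [hinner i j i k hE1 hE2, if_pos rfl, if_neg hik, if_neg (Ne.symm hij), if_neg hjk]
        norm_num)
      (1 * lift₂ W₁ W₂ hdisj hcomm ψ) (φ₁ * lift₂ W₁ W₂ hdisj hcomm ψ)
      (φ₂ * lift₂ W₁ W₂ hdisj hcomm ψ) (hres 1 (fun _ _ => rfl)) (hres φ₁ hφ₁W₂) (hres φ₂ hφ₂W₂)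
      (fun h => hφ₁ (mul_right_cancel h)) (fun h => hφ₂ (mul_right_cancel h))
      (fun h => hφ₁₂ (mul_right_cancel h))
  choose δ₀ μ₀ hδ₀ hμ₀irr hμ₀ using hcls
  obtain ⟨μ, hμdef⟩ : ∃ μ : (↥(W₁ ⊔ W₂) →* ℂˣ) → L → ℂ, ∀ ω, μ ω = μ₀ (res₂ W₁ W₂ ω) ω :=
    ⟨_, fun _ => rfl⟩
  obtain ⟨δ, hδdef⟩ : ∃ δ : (↥(W₁ ⊔ W₂) →* ℂˣ) → ℂ, ∀ ω, δ ω = δ₀ (res₂ W₁ W₂ ω) :=
    ⟨_, fun _ => rfl⟩
  have P3 : ∀ ω, δ ω = 1 ∨ δ ω = -1 := fun ω => by rw [hδdef]; exact hδ₀ _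
  have P2 : ∀ ω, IsIrrCharacter L (μ ω) := fun ω => by rw [hμdef]; exact hμ₀irr _ ω rfl
  have P4 : ∀ ω ω' : ↥(W₁ ⊔ W₂) →* ℂˣ, (∀ w : ↥(W₁ ⊔ W₂), (w : L) ∈ W₂ → ω w = ω' w) →
      δ ω = δ ω' ∧
      indFun (W₁ ⊔ W₂) (fun w => ((ω w : ℂˣ) : ℂ) - ((ω' w : ℂˣ) : ℂ)) = δ ω • (μ ω - μ ω') := by
    intro ω ω' hE
    have hr : res₂ W₁ W₂ ω = res₂ W₁ W₂ ω' := (hE_iff ω ω').mpr hE
    refine ⟨by rw [hδdef, hδdef, hr], ?_⟩
    rw [hδdef ω, hμdef ω, hμdef ω', ← hr]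
    exact hμ₀ (res₂ W₁ W₂ ω) ω rfl ω' hr.symm
  have hδsq : ∀ ω, δ ω * δ ω = 1 := by
    intro ω
    rcases P3 ω with h | h <;> rw [h] <;> norm_num
  have hδconj : ∀ ω, (starRingEnd ℂ) (δ ω) = δ ω := by
    intro ω
    rcases P3 ω with h | h <;> rw [h] <;> simp
  have hsame : ∀ ω ω' : ↥(W₁ ⊔ W₂) →* ℂˣ, (∀ w : ↥(W₁ ⊔ W₂), (w : L) ∈ W₂ → ω w = ω' w) →
      μ ω = μ ω' → ω = ω' := by
    intro ω ω' hE hμ
    by_contra hne
    have h1 := hinner ω ω' ω ω' hE hE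
    rw [(P4 ω ω' hE).2, hμ, sub_self, smul_zero, Cfsg.Agent.Helper2.classInner_zero_left,
      if_pos rfl, if_neg hne, if_neg (Ne.symm hne), if_pos rfl] at h1
    norm_num at h1
  have P1 : Function.Injective μ := by
    intro ω ω' hμ
    by_cases hE : ∀ w : ↥(W₁ ⊔ W₂), (w : L) ∈ W₂ → ω w = ω' w
    · exact hsame ω ω' hE hμ
    exfalso
    have hne1 : φ₁ * ω ≠ ω := fun h => hφ₁ (mul_right_cancel (h.trans (one_mul ω).symm))
    have hne2 : φ₁ * ω' ≠ ω' := fun h => hφ₁ (mul_right_cancel (h.trans (one_mul ω').symm))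
    have hE1 : ∀ w : ↥(W₁ ⊔ W₂), (w : L) ∈ W₂ → ω w = (φ₁ * ω) w :=
      fun w hw => (hEmul φ₁ ω hφ₁W₂ w hw).symm
    have hE2 : ∀ w : ↥(W₁ ⊔ W₂), (w : L) ∈ W₂ → ω' w = (φ₁ * ω') w :=
      fun w hw => (hEmul φ₁ ω' hφ₁W₂ w hw).symm
    have h1 := hinner ω (φ₁ * ω) ω' (φ₁ * ω') hE1 hE2
    have n1 : ω ≠ ω' := fun h => hE (by rw [h]; exact fun _ _ => rfl)
    have n2 : ω ≠ φ₁ * ω' := fun h => hE (fun w hw => by rw [h]; exact hEmul φ₁ ω' hφ₁W₂ w hw)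
    have n3 : φ₁ * ω ≠ ω' :=
      fun h => hE (fun w hw => by rw [← h]; exact (hEmul φ₁ ω hφ₁W₂ w hw).symm)
    have n4 : φ₁ * ω ≠ φ₁ * ω' := fun h => n1 (mul_left_cancel h)
    rw [if_neg n1, if_neg n2, if_neg n3, if_neg n4, (P4 _ _ hE1).2, (P4 _ _ hE2).2,
      classInner_smul_irr_diff (P2 _) (P2 _) (P2 _) (P2 _)] at h1
    have m2 : μ ω ≠ μ (φ₁ * ω') := fun h =>
      hne2 (hsame _ _ (hEmul φ₁ ω' hφ₁W₂) (h.symm.trans hμ))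
    have m3 : μ (φ₁ * ω) ≠ μ ω' := fun h =>
      hne1 (hsame _ _ (hEmul φ₁ ω hφ₁W₂) (h.trans hμ.symm))
    rw [if_pos hμ, if_neg m2, if_neg m3, hδconj] at h1
    have hd1 := P3 ω
    have hd2 := P3 ω'
    by_cases m4 : μ (φ₁ * ω) = μ (φ₁ * ω')
    · rw [if_pos m4] at h1
      rcases hd1 with h | h <;> rcases hd2 with h' | h' <;> rw [h, h'] at h1 <;> norm_num at h1
    · rw [if_neg m4] at h1
      rcases hd1 with h | h <;> rcases hd2 with h' | h' <;> rw [h, h'] at h1 <;> norm_num at h1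
  have P56 : ∀ w : ↥(W₁ ⊔ W₂), (w : L) ∉ W₂ →
      (∀ ω, μ ω w = δ ω * ((ω w : ℂˣ) : ℂ)) ∧
      (∀ θ : L → ℂ, IsIrrCharacter L θ → (∀ ω, θ ≠ μ ω) → θ w = 0) := by
    intro w hw
    have hc : ∀ ω ω' : ↥(W₁ ⊔ W₂) →* ℂˣ, (∀ w : ↥(W₁ ⊔ W₂), (w : L) ∈ W₂ → ω w = ω' w) →
        μ ω w - δ ω * ((ω w : ℂˣ) : ℂ) = μ ω' w - δ ω' * ((ω' w : ℂˣ) : ℂ) := by
      intro ω ω' hE
      obtain ⟨hδ, hD⟩ := P4 ω ω' hE
      have h1 := congrFun hD (w : L)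
      rw [hvalT ω ω' hE w hw] at h1
      have h2 : (δ ω • (μ ω - μ ω')) (w : L) = δ ω * (μ ω w - μ ω' w) := rfl
      rw [h2] at h1
      rw [← hδ]
      have h3 := hδsq ω
      linear_combination (-(δ ω)) * h1 - (μ ω w - μ ω' w) * h3
    have hp1 : proj₁ W₁ W₂ hdisj hcomm w ≠ 1 := by
      intro h
      apply hw
      have h1 := proj_mul W₁ W₂ hdisj hcomm w
      rw [h, OneMemClass.coe_one, one_mul] at h1
      rw [h1]; exact (proj₂ W₁ W₂ hdisj hcomm w).2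
    obtain ⟨φ₀, hφ₀⟩ := exists_hom_ne_one hW₁ab _ hp1
    obtain ⟨lam, hlamw, hlamW₂⟩ : ∃ lam : ↥(W₁ ⊔ W₂) →* ℂˣ, lam w ≠ 1 ∧
        ∀ w' : ↥(W₁ ⊔ W₂), (w' : L) ∈ W₂ → lam w' = 1 :=
      ⟨lift₁ W₁ W₂ hdisj hcomm φ₀, hφ₀,
        fun w' hw' => lift₁_of_mem_right W₁ W₂ hdisj hcomm φ₀ w' hw'⟩
    have hcross : ∑ ω : ↥(W₁ ⊔ W₂) →* ℂˣ, δ ω * ((ω w : ℂˣ) : ℂ) *
        (starRingEnd ℂ) (μ ω w - δ ω * ((ω w : ℂˣ) : ℂ)) = 0 := by
      have h1 : ∑ ω : ↥(W₁ ⊔ W₂) →* ℂˣ, δ (lam * ω) * (((lam * ω) w : ℂˣ) : ℂ) *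
          (starRingEnd ℂ) (μ (lam * ω) w - δ (lam * ω) * (((lam * ω) w : ℂˣ) : ℂ)) =
          ∑ ω : ↥(W₁ ⊔ W₂) →* ℂˣ, δ ω * ((ω w : ℂˣ) : ℂ) *
            (starRingEnd ℂ) (μ ω w - δ ω * ((ω w : ℂˣ) : ℂ)) :=
        Equiv.sum_comp (Equiv.mulLeft lam) (fun ω : ↥(W₁ ⊔ W₂) →* ℂˣ =>
          δ ω * ((ω w : ℂˣ) : ℂ) * (starRingEnd ℂ) (μ ω w - δ ω * ((ω w : ℂˣ) : ℂ)))
      have h2 : ∀ ω : ↥(W₁ ⊔ W₂) →* ℂˣ, δ (lam * ω) * (((lam * ω) w : ℂˣ) : ℂ) *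
          (starRingEnd ℂ) (μ (lam * ω) w - δ (lam * ω) * (((lam * ω) w : ℂˣ) : ℂ)) =
          ((lam w : ℂˣ) : ℂ) * (δ ω * ((ω w : ℂˣ) : ℂ) *
            (starRingEnd ℂ) (μ ω w - δ ω * ((ω w : ℂˣ) : ℂ))) := by
        intro ω
        have hE := hEmul lam ω hlamW₂
        rw [hc (lam * ω) ω hE, (P4 _ _ hE).1, MonoidHom.mul_apply, Units.val_mul]
        ring
      rw [Finset.sum_congr rfl (fun ω _ => h2 ω), ← Finset.mul_sum] at h1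
      have h3 : ((lam w : ℂˣ) : ℂ) ≠ 1 := fun h => hlamw (Units.ext h)
      have h4 : (((lam w : ℂˣ) : ℂ) - 1) * ∑ ω : ↥(W₁ ⊔ W₂) →* ℂˣ, δ ω * ((ω w : ℂˣ) : ℂ) *
          (starRingEnd ℂ) (μ ω w - δ ω * ((ω w : ℂˣ) : ℂ)) = 0 := by
        rw [sub_mul, h1, one_mul, sub_self]
      rcases mul_eq_zero.mp h4 with h | h
      · exact absurd (sub_eq_zero.mp h) h3
      · exact h
    have hsum : ∑ ω : ↥(W₁ ⊔ W₂) →* ℂˣ, μ ω w * (starRingEnd ℂ) (μ ω w) =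
        (Nat.card ↥(W₁ ⊔ W₂) : ℂ) + ∑ ω : ↥(W₁ ⊔ W₂) →* ℂˣ,
          (μ ω w - δ ω * ((ω w : ℂˣ) : ℂ)) * (starRingEnd ℂ) (μ ω w - δ ω * ((ω w : ℂˣ) : ℂ)) := by
      rw [Finset.sum_congr rfl (fun ω _ => norm_expand (μ ω w) (δ ω) ((ω w : ℂˣ) : ℂ) (hδconj ω)
        (hδsq ω) (hom_mul_conj ω w))]
      rw [Finset.sum_add_distrib, Finset.sum_add_distrib, Finset.sum_add_distrib, ← map_sum,
        hcross, map_zero, Finset.sum_const, Finset.card_univ, ← Nat.card_eq_fintype_card, hcardΩ]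
      simp
    have hsumR : ∑ ω : ↥(W₁ ⊔ W₂) →* ℂˣ, ‖μ ω w‖ ^ 2 =
        (Nat.card ↥(W₁ ⊔ W₂) : ℝ) + ∑ ω : ↥(W₁ ⊔ W₂) →* ℂˣ,
          ‖μ ω w - δ ω * ((ω w : ℂˣ) : ℂ)‖ ^ 2 := by
      simp only [Complex.mul_conj, Complex.normSq_eq_norm_sq] at hsum
      rw [← Complex.ofReal_sum, ← Complex.ofReal_sum] at hsum
      exact_mod_cast hsum
    have hcent : (Nat.card (Subgroup.centralizer ({(w : L)} : Set L)) : ℝ) ≤
        Nat.card ↥(W₁ ⊔ W₂) := by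
      have hle : Subgroup.centralizer ({(w : L)} : Set L) ≤ W₁ ⊔ W₂ := by
        intro g hg
        apply hTI (w : L) w.2 hw g
        have h1 : g * (w : L) = (w : L) * g := Subgroup.mem_centralizer_singleton_iff.mp hg
        rw [h1, mul_inv_cancel_right]
        exact w.2
      exact_mod_cast Subgroup.card_le_of_le hle
    have hso := Cfsg.Agent.Helper25.card_centralizer_eq_sum_norm_sq (w : L)
    let ι : (↥(W₁ ⊔ W₂) →* ℂˣ) ↪ IrrCharacter L :=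
      ⟨fun ω => ⟨μ ω, P2 ω⟩, fun ω ω' h => P1 (congrArg Subtype.val h)⟩
    have himg : ∑ χ ∈ Finset.univ.map ι, ‖(χ : L → ℂ) w‖ ^ 2 =
        ∑ ω : ↥(W₁ ⊔ W₂) →* ℂˣ, ‖μ ω w‖ ^ 2 := Finset.sum_map _ ι _
    have hcnn : 0 ≤ ∑ ω : ↥(W₁ ⊔ W₂) →* ℂˣ, ‖μ ω w - δ ω * ((ω w : ℂˣ) : ℂ)‖ ^ 2 :=
      Finset.sum_nonneg (fun _ _ => sq_nonneg _)
    constructor
    · have hle : ∑ χ ∈ Finset.univ.map ι, ‖(χ : L → ℂ) w‖ ^ 2 ≤
          ∑ χ : IrrCharacter L, ‖(χ : L → ℂ) w‖ ^ 2 :=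
        Finset.sum_le_sum_of_subset_of_nonneg (Finset.subset_univ _) (fun _ _ _ => sq_nonneg _)
      have hz : ∑ ω : ↥(W₁ ⊔ W₂) →* ℂˣ, ‖μ ω w - δ ω * ((ω w : ℂˣ) : ℂ)‖ ^ 2 = 0 := by
        linarith
      intro ω
      have := (Finset.sum_eq_zero_iff_of_nonneg (fun ω _ => sq_nonneg
        ‖μ ω w - δ ω * ((ω w : ℂˣ) : ℂ)‖)).mp hz ω (Finset.mem_univ ω)
      have h0 : ‖μ ω w - δ ω * ((ω w : ℂˣ) : ℂ)‖ = 0 := by
        exact pow_eq_zero_iff (two_ne_zero) |>.mp this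
      exact sub_eq_zero.mp (norm_eq_zero.mp h0)
    · intro θ hθ hne
      have hnot : (⟨θ, hθ⟩ : IrrCharacter L) ∉ Finset.univ.map ι := by
        intro h
        obtain ⟨ω, -, hω⟩ := Finset.mem_map.mp h
        exact hne ω (congrArg Subtype.val hω).symm
      have hle : ∑ χ ∈ insert (⟨θ, hθ⟩ : IrrCharacter L) (Finset.univ.map ι),
          ‖(χ : L → ℂ) w‖ ^ 2 ≤ ∑ χ : IrrCharacter L, ‖(χ : L → ℂ) w‖ ^ 2 :=
        Finset.sum_le_sum_of_subset_of_nonneg (Finset.subset_univ _) (fun _ _ _ => sq_nonneg _)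
      rw [Finset.sum_insert hnot] at hle
      have hz : ‖θ w‖ ^ 2 ≤ 0 := by
        have : ‖((⟨θ, hθ⟩ : IrrCharacter L) : L → ℂ) w‖ ^ 2 = ‖θ w‖ ^ 2 := rfl
        linarith
      have h0 : ‖θ w‖ = 0 := by
        have := le_antisymm hz (sq_nonneg _)
        exact pow_eq_zero_iff (two_ne_zero) |>.mp this
      exact norm_eq_zero.mp h0
  have P7 : ∀ ω, ∃ n : ℤ, μ ω 1 - δ ω = n * (Nat.card W₁ : ℂ) := by
    intro ω
    let _ : Fintype W₁ := Fintype.ofFinite _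
    have hne : (Nat.card W₁ : ℂ) ≠ 0 := Cfsg.Agent.Helper2.natCard_ne_zero_complex W₁
    obtain ⟨m, hm⟩ := Cfsg.Agent.Helper2.classInner_char_nat
      (Cfsg.Agent.Helper2.isCharacter_restrict W₁
        (Cfsg.Agent.Helper2.isCharacter_of_isIrrCharacter (P2 ω)))
      (Cfsg.Agent.Helper2.isCharacter_one (G := W₁))
    have hs1 : ∑ a : W₁, μ ω (a : L) = (Nat.card W₁ : ℂ) * (m : ℂ) := by
      unfold classInner at hm
      simp only [map_one, mul_one] at hm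
      rw [← hm, ← mul_assoc, mul_inv_cancel₀ hne, one_mul]
    have hs2 : ∑ a : W₁, ((ω (Subgroup.inclusion le_sup_left a) : ℂˣ) : ℂ) =
        (Nat.card W₁ : ℂ) * (if res₁ W₁ W₂ ω = 1 then 1 else 0) := by
      have h := classInner_hom (res₁ W₁ W₂ ω) 1
      unfold classInner at h
      simp only [MonoidHom.one_apply, Units.val_one, map_one, mul_one] at h
      rw [← h, ← mul_assoc, mul_inv_cancel₀ hne, one_mul]
      rfl
    have hs3 : ∀ a : W₁, μ ω (a : L) =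
        δ ω * ((ω (Subgroup.inclusion le_sup_left a) : ℂˣ) : ℂ) +
          (if a = 1 then μ ω 1 - δ ω else 0) := by
      intro a
      by_cases ha : a = 1
      · rw [if_pos ha, ha]
        simp
      · rw [if_neg ha, add_zero]
        have hnot : ((Subgroup.inclusion le_sup_left a : ↥(W₁ ⊔ W₂)) : L) ∉ W₂ := by
          intro h
          apply ha
          have : (a : L) ∈ W₁ ⊓ W₂ := ⟨a.2, h⟩
          rw [hdisj, Subgroup.mem_bot] at this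
          exact Subtype.ext this
        exact (P56 _ hnot).1 ω
    rw [Finset.sum_congr rfl (fun a _ => hs3 a), Finset.sum_add_distrib, ← Finset.mul_sum,
      hs2] at hs1
    simp only [Finset.sum_ite_eq', Finset.mem_univ, if_true] at hs1
    rcases P3 ω with h | h
    · by_cases hr : res₁ W₁ W₂ ω = 1
      · rw [if_pos hr] at hs1
        refine ⟨(m : ℤ) - 1, ?_⟩
        rw [h] at hs1 ⊢
        push_cast
        linear_combination hs1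
      · rw [if_neg hr] at hs1
        refine ⟨(m : ℤ), ?_⟩
        rw [h] at hs1 ⊢
        push_cast
        linear_combination hs1
    · by_cases hr : res₁ W₁ W₂ ω = 1
      · rw [if_pos hr] at hs1
        refine ⟨(m : ℤ) + 1, ?_⟩
        rw [h] at hs1 ⊢
        push_cast
        linear_combination hs1
      · rw [if_neg hr] at hs1
        refine ⟨(m : ℤ), ?_⟩
        rw [h] at hs1 ⊢
        push_cast
        linear_combination hs1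
  exact ⟨μ, δ, P1, P2, P3, P4, fun ω w hw => (P56 w hw).1 ω,
    fun θ hθ hne w hw => (P56 w hw).2 θ hθ hne, P7⟩

end Cfsg.Agent.Helper11
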